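import Cfsg.Agent.Lib.Chev.E7Cyclic.Tables
import Cfsg.Agent.Lib.Chev.E6Cyclic.Setup
import Cfsg.Agent.Lib.SteinbergPres.Cover.Embed
import Cfsg.Agent.Lib.SteinbergPres.Cover.Checks
import Cfsg.Agent.S1079

/-!
An element of the adjoint group of type E₇ that does not lift to a fixed element of the universal group.
-/

set_option autoImplicit false
set_option maxRecDepth 4000

namespace Cfsg.Agent.Lib.Chev.E7Cyclic

open Cfsg.Lie Cfsg.Agent.Lib Cfsg.Agent.Lib.Chev Homocyclic
open Cfsg.Agent.Lib.SteinbergPres.Cover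
open Cfsg.Agent.Lib.SteinbergPres.Cover.StGen (rwd rwd_cons rwd_nil rwd_lt exists_word)
open Cfsg.Agent.Lib.Chev.CoxTorus (cV)

variable {L : Type*} [Field L]

/-- the group of `(R1)`–`(R3)` as generated group -/
noncomputable def stE (L : Type*) [Field L] : StGen E7.checked L (chevE7.SteinbergGroup L) :=
  stGrp E7.checked (stHom E7.checked L) fun r t hr => by
    rw [stHom_gen E7.checked hr, Checked.val_xg]

/-- its torus -/
noncomputable def tauE (L : Type*) [Field L] : (Fin chevE7.rank → Lˣ) →* chevE7.SteinbergGroup L :=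
  tau (C := E7.checked) (stHom E7.checked L)
    (fun r t hr => by rw [stHom_gen E7.checked hr, Checked.val_xg]) cover_E7

theorem tauE_injective : Function.Injective (tauE L) :=
  tau_injective E7.checked E8.checked S1079.emb7
    (fun c hc => cartanMap_injective_of_smith (F := L) E8.checked smith_E8 (by decide) c hc) _ _ _

/-- `u ^ e` -/
def expV (u : Lˣ) (e : Fin chevE7.rank → ℤ) : Fin chevE7.rank → Lˣ := fun k => u ^ e k

theorem nb_conj_tau {i : ℕ} (hi : i < chevE7.rank) (c : Fin chevE7.rank → Lˣ) :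
    (stE L).nb i 1 * tauE L c * ((stE L).nb i 1)⁻¹ =
      tauE L (c * Pi.mulSingle ⟨i, hi⟩ (E7.checked.cartanMap c ⟨i, hi⟩)⁻¹) := by
  let R : (Fin chevE7.rank → Lˣ) →* (Fin chevE7.rank → Lˣ) :=
    MonoidHom.id _ * (MonoidHom.mulSingle (fun _ : Fin chevE7.rank => Lˣ) ⟨i, hi⟩).comp
      (((Pi.evalMonoidHom (fun _ => Lˣ) ⟨i, hi⟩).comp (E7.checked.cartanMap (F := L)))⁻¹)
  have key : ((MulAut.conj ((stE L).nb i 1)).toMonoidHom.comp (tauE L)) = (tauE L).comp R := by
    refine MonoidHom.pi_ext fun j t => ?_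
    show (stE L).nb i 1 * tauE L (Pi.mulSingle j t) * ((stE L).nb i 1)⁻¹ = tauE L (R (Pi.mulSingle j t))
    have hR : R (Pi.mulSingle j t) =
        Pi.mulSingle j t * Pi.mulSingle (⟨i, hi⟩ : Fin chevE7.rank) (t ^ chevE7.cartan j (chevE7.simple i))⁻¹ := by
      simp only [R, MonoidHom.mul_apply, MonoidHom.id_apply, MonoidHom.comp_apply, MonoidHom.inv_apply,
        Pi.evalMonoidHom_apply, MonoidHom.mulSingle_apply]
      rw [E7.checked.cartanMap_apply, Finset.prod_eq_single j (fun k _ hk => by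
        rw [Pi.mulSingle_eq_of_ne hk, one_zpow]) (by simp), Pi.mulSingle_eq_same]
    rw [hR, map_mul]
    rw [Pi.mulSingle_inv, map_inv]
    show _ * tau _ _ _ _ * _ = tau _ _ _ _ * (tau _ _ _ _)⁻¹
    rw [tau_single, tau_single, Units.val_zpow_eq_zpow_val]
    set X := stE L
    have e := X.hb_conj_nb cover_E7 hi j.2 (Units.ne_zero t) 1
    rw [mul_one] at e
    have h1 : X.nb i 1 * (X.hb j (t : L))⁻¹ * (X.nb i 1)⁻¹ =
        (X.hb j (t : L))⁻¹ * X.hb i ((t : L) ^ chevE7.cartan j (chevE7.simple i)) := by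
      rw [X.hb_eq, X.hb_eq, ← X.nb_inv hi 1, ← e]
      rw [X.hb_eq]
      group
    have h2 := congrArg (·⁻¹) h1
    simp only [mul_inv_rev, inv_inv, ← mul_assoc] at h2
    have hcomm := hb_commute (C := E7.checked) (stHom E7.checked L)
      (fun r t hr => by rw [stHom_gen E7.checked hr, Checked.val_xg]) cover_E7 j.2 hi (Units.ne_zero t)
      (zpow_ne_zero (chevE7.cartan j (chevE7.simple i)) (Units.ne_zero t))
    exact h2.trans hcomm.inv_right.eq.symm
  exact DFunLike.congr_fun key c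

theorem nw_conj_tau (u : Lˣ) : ∀ (w : List ℕ), (∀ i ∈ w, i < chevE7.rank) → ∀ v < chevE7.nroots,
    (stE L).nw w * tauE L (expV u (cV E7.fast chevE7 v)) * ((stE L).nw w)⁻¹ =
      tauE L (expV u (cV E7.fast chevE7 (rwd chevE7 w v)))
  | [], _, v, _ => by simp [StGen.nw, rwd]
  | i :: w, hw, v, hv => by
    have hw' : ∀ j ∈ w, j < chevE7.rank := fun j hj => hw j (by simp [hj])
    have hi := hw i (by simp)
    have hs := rwd_lt E7.checked w hw' hv
    rw [rwd_cons, StGen.nw_cons]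
    calc (stE L).nb i 1 * (stE L).nw w * tauE L (expV u (cV E7.fast chevE7 v)) * ((stE L).nb i 1 * (stE L).nw w)⁻¹
        = (stE L).nb i 1 * ((stE L).nw w * tauE L (expV u (cV E7.fast chevE7 v)) * ((stE L).nw w)⁻¹) *
            ((stE L).nb i 1)⁻¹ := by group
      _ = _ := by
        rw [nw_conj_tau u w hw' v hv, nb_conj_tau hi]
        congr 1
        set s := rwd chevE7 w v
        have hc : E7.checked.cartanMap (expV u (cV E7.fast chevE7 s)) ⟨i, hi⟩ = u ^ chevE7.cartan i s := by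
          rw [E7.checked.cartanMap_apply, E7.checked.root.cartan_lin i hi s hs, ← Fin.sum_univ_eq_sum_range
            (fun k => E7.fast.aux.coef s k * chevE7.cartan i (chevE7.simple k)), zpow_sum']
          refine Finset.prod_congr rfl fun k _ => ?_
          rw [expV, ← zpow_mul, (laced_spec E7.checked laced_E7 (E7.checked.root.simple_lt i hi) k.2).2.2 i hi]
          rfl
        funext k
        rw [Pi.mul_apply, hc]
        show u ^ cV E7.fast chevE7 s k * _ = u ^ E7.fast.aux.coef (chevE7.reflectRoot i s) k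
        rw [E7.checked.root.coef_refl hi hs k.2]
        by_cases hk : k = ⟨i, hi⟩
        · subst hk; simp [cV, zpow_sub]
        · rw [Pi.mulSingle_eq_of_ne hk, mul_one, if_neg]
          · simp [cV]
          · exact fun h => hk (Fin.ext h)

/-- The obstruction. -/
theorem exists_outer {F : Type*} [Field F] [Fintype L] {q : ℕ} (i : F →+* L) (σ : L ≃+* L) (hσ : ∀ t, σ t = t ^ q)
    (hi : ∀ t : L, σ t = t ↔ t ∈ i.range) (hodd : Odd q) {P : GL chevE7.Idx L} (hP : P ∈ chevE7.group L)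
    (hn : gmap chevE7 σ.toRingHom P * P⁻¹ ∈ chevE7.monomialSubgroup L) {v₁ v₂ v₃ : ℕ}
    (l₁ : v₁ < chevE7.nroots) (l₂ : v₂ < chevE7.nroots) (l₃ : v₃ < chevE7.nroots)
    (n₁ : E7.checked.sg (gmap chevE7 σ.toRingHom P * P⁻¹) v₁ = v₃)
    (n₃ : E7.checked.sg (gmap chevE7 σ.toRingHom P * P⁻¹) v₃ = v₂)
    (n₂ : E7.checked.sg (gmap chevE7 σ.toRingHom P * P⁻¹) v₂ = chevE7.neg v₁)
    (o12 : pair chevE7 v₁ v₂ = 0) (o13 : pair chevE7 v₁ v₃ = 0) (o23 : pair chevE7 v₂ v₃ = 0)
    (heven : ∀ v < chevE7.nroots, (2 : ℤ) ∣ pair chevE7 v₁ v + pair chevE7 v₂ v + pair chevE7 v₃ v)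
    {u : Lˣ} (hu : u ^ (q ^ 3 + 1) = -1) (hm1 : (-1 : Lˣ) ≠ 1) :
    ∃ (a : GL chevE7.Idx F) (c : Fin chevE7.rank → Lˣ), gmap chevE7 i a = P⁻¹ * E7.checked.torus c * P ∧
      gmap chevE7 i a ∈ chevE7.group L ∧ a ∉ chevE7.group F := by
  classical
  set C := E7.checked with hC
  set n := gmap chevE7 σ.toRingHom P * P⁻¹ with hndef
  set cv := cV E7.fast chevE7
  -- the torus element
  set c := expV (u ^ (q ^ 2)) (cv v₁) * expV (-(u ^ q)) (cv v₃) * expV u (cv v₂) with hc
  set z := expV (-1 : Lˣ) (cv v₁) * expV (-1) (cv v₂) * expV (-1) (cv v₃) with hz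
  have hexp : ∀ (x : Lˣ) e (k : ℕ), expV x e ^ k = expV (x ^ k) e := fun x e k => funext fun j => by
    simp [expV, ← zpow_natCast, ← zpow_mul, mul_comm]
  have hcn : ∀ (x : Lˣ) v, v < chevE7.nroots → expV x (cv (chevE7.neg v)) = expV x⁻¹ (cv v) := fun x v hv =>
    funext fun j => by simp [expV, cv, cV, C.root.coef_neg hv j.2, inv_zpow]
  have hme : ∀ (x y : Lˣ) e, expV x e * expV y e = expV (x * y) e := fun x y e => funext fun j => by
    simp [expV, mul_zpow]
  have hzker : C.cartanMap z = 1 := by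
    funext j
    obtain ⟨k, hk⟩ := heven _ (C.root.simple_lt j j.2)
    have he : ∀ v < chevE7.nroots, C.cartanMap (expV (-1 : Lˣ) (cv v)) j = (-1) ^ pair chevE7 v (chevE7.simple j) := by
      intro v hv
      rw [C.cartanMap_apply, pair_bilin C laced_E7 hv (C.root.simple_lt j j.2)]
      have : cV E7.fast chevE7 (chevE7.simple j) = Pi.single j 1 := funext fun m => by
        simp [cV, C.root.coef_simple j j.2 m m.2, Pi.single_apply, Fin.ext_iff, eq_comm]
      rw [this, dotProduct_single, mul_one, Matrix.vecMul, dotProduct, zpow_sum']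
      refine Finset.prod_congr rfl fun m _ => ?_
      simp [expV, cv, cMat, ← zpow_mul]
    rw [hz, map_mul, map_mul, Pi.mul_apply, Pi.mul_apply, he _ l₁, he _ l₂, he _ l₃, Pi.one_apply, ← zpow_add,
      ← zpow_add, hk, zpow_mul, show (-1 : Lˣ) ^ (2 : ℤ) = 1 by simp [zpow_two], one_zpow]
  have hu3 : u⁻¹ = -(u ^ (q ^ 3)) := by
    rw [inv_eq_iff_mul_eq_one, mul_neg, ← pow_succ', hu, neg_neg]
  have himg : expV (u ^ q ^ 2) (cv v₃) * expV (-(u ^ q)) (cv v₂) * expV u (cv (chevE7.neg v₁)) = c ^ q * z := by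
    rw [hcn u v₁ l₁, hc, hz, mul_pow, mul_pow, hexp, hexp, hexp, hodd.neg_pow, hu3, ← pow_mul, ← pow_mul,
      ← pow_succ q 2, ← pow_two, show 2 + 1 = 3 from rfl]
    calc expV (u ^ q ^ 2) (cv v₃) * expV (-(u ^ q)) (cv v₂) * expV (-(u ^ q ^ 3)) (cv v₁)
        = expV (u ^ q ^ 3 * -1) (cv v₁) * expV (u ^ q * -1) (cv v₂) * expV (-(u ^ q ^ 2) * -1) (cv v₃) := by
          rw [mul_neg_one, mul_neg_one, neg_mul, mul_neg_one, neg_neg]; simp only [mul_comm, mul_left_comm, mul_assoc]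
      _ = _ := by rw [← hme, ← hme, ← hme]; simp only [mul_comm, mul_left_comm, mul_assoc]
  -- the lift of Frobenius
  set X := stE L with hX
  let θ := stHom C L
  have hrel : ∀ g ∈ chevE7.steinbergRels L,
      FreeGroup.lift (fun p : Fin chevE7.nroots × L => chevE7.stGen L p.1 (σ p.2)) g = 1 := by
    have e : FreeGroup.lift (fun p : Fin chevE7.nroots × L => chevE7.stGen L p.1 (σ p.2)) =
        (PresentedGroup.mk (chevE7.steinbergRels L)).comp (FreeGroup.map fun p => (p.1, σ p.2)) := by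
      refine FreeGroup.ext_hom _ _ fun p => ?_
      simp [ChevalleyDatum.stGen, ChevalleyDatum.stX]
    have eX : ∀ r t, FreeGroup.map (fun p : Fin chevE7.nroots × L => (p.1, σ p.2)) (chevE7.stX r t) =
        chevE7.stX r (σ t) := fun r t => by unfold ChevalleyDatum.stX; split <;> simp
    have eW : ∀ w : List (ℕ × L), FreeGroup.map (fun p : Fin chevE7.nroots × L => (p.1, σ p.2)) (chevE7.stWord w) =
        chevE7.stWord (w.map fun p => (p.1, σ p.2)) := fun w => by
      simp [ChevalleyDatum.stWord, map_list_prod, List.map_map, Function.comp_def, eX]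
    intro g hg
    rw [e]
    refine (PresentedGroup.mk_eq_one_iff).2 (Subgroup.subset_normalClosure ?_)
    rcases hg with (⟨r, t, t', hr, rfl⟩ | ⟨r, s, t, t', hr, hs, h1, h2, rfl⟩) | ⟨r, t, t', hr, ht, ht', rfl⟩
    · exact Or.inl (Or.inl ⟨r, σ t, σ t', hr, by simp [eX]⟩)
    · refine Or.inl (Or.inr ⟨r, s, σ t, σ t', hr, hs, h1, h2, ?_⟩)
      simp only [map_mul, map_inv, eX, eW]
      congr 3
      simp [ChevalleyDatum.commWord, List.map_map, Function.comp_def]
    · refine Or.inr ⟨r, σ t, σ t', hr, by simpa using ht, by simpa using ht', ?_⟩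
      simp only [map_mul, map_inv, ChevalleyDatum.stH, eW]
      simp [ChevalleyDatum.hWord, ChevalleyDatum.nWord]
  let S : chevE7.SteinbergGroup L →* chevE7.SteinbergGroup L := PresentedGroup.toGroup hrel
  have hSgen : ∀ r < chevE7.nroots, ∀ t, S (X.x r t) = X.x r (σ t) := fun r hr t => by
    show S (PresentedGroup.mk _ (chevE7.stX r t)) = _
    rw [ChevalleyDatum.stX, dif_pos hr]
    exact PresentedGroup.toGroup.of hrel
  have hSpr : ∀ y, X.pr (S y) = gmap chevE7 σ.toRingHom (X.pr y) := by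
    intro y
    have hy : y ∈ Subgroup.closure {g | ∃ (r : ℕ) (t : L), r < chevE7.nroots ∧ g = X.x r t} := by
      rw [X.gen]; trivial
    induction hy using Subgroup.closure_induction with
    | mem y hy => obtain ⟨r, t, hr, rfl⟩ := hy; rw [hSgen r hr, X.pr_x r hr, X.pr_x r hr, C.gmap_xg _ hr]; rfl
    | one => simp
    | mul a b _ _ ha hb => simp only [map_mul, ha, hb]
    | inv a _ ha => simp only [map_inv, ha]
  have hStau : ∀ d, S (tauE L d) = tauE L (d ^ q) := by
    intro d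
    have key : S.comp (tauE L) = (tauE L).comp (powMonoidHom q) := by
      refine MonoidHom.pi_ext fun j t => ?_
      simp only [MonoidHom.comp_apply, powMonoidHom_apply, tauE]
      rw [← Pi.mulSingle_pow, tau_single, tau_single, Units.val_pow_eq_pow_val, ← hσ]
      show S (((chevE7.hWord (chevE7.simple j) (t : L)).map fun p => X.x p.1 p.2).prod) =
        ((chevE7.hWord (chevE7.simple j) (σ (t : L))).map fun p => X.x p.1 p.2).prod
      have hp := C.root.simple_lt j j.2
      simp [ChevalleyDatum.hWord, ChevalleyDatum.nWord, hSgen _ hp, hSgen _ (C.root.neg_lt _ hp)]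
    exact DFunLike.congr_fun key d
  have hprtau : ∀ d, X.pr (tauE L d) = C.torus d := by
    intro d
    simp only [hX, stE, tauE]
    exact DFunLike.congr_fun (pr_tau (C := E7.checked) (stHom E7.checked L)
      (fun r t hr => by rw [stHom_gen E7.checked hr, Checked.val_xg]) cover_E7) d
  -- the element
  obtain ⟨w, hwlt, hw⟩ := exists_word C hn
  have hnw : ∀ d, X.nw w * tauE L d * (X.nw w)⁻¹ = MulAut.conj (X.nw w) (tauE L d) := fun d => rfl
  have hfc : X.nw w * tauE L c * (X.nw w)⁻¹ = tauE L (c ^ q * z) := by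
    have e : tauE L (c ^ q * z) = tauE L (expV (u ^ q ^ 2) (cv (rwd chevE7 w v₁))) *
        tauE L (expV (-(u ^ q)) (cv (rwd chevE7 w v₃))) * tauE L (expV u (cv (rwd chevE7 w v₂))) := by
      rw [← himg, ← hw _ l₁, ← hw _ l₂, ← hw _ l₃, n₁, n₂, n₃, map_mul, map_mul]
    rw [e, ← nw_conj_tau _ w hwlt _ l₁, ← nw_conj_tau _ w hwlt _ l₂, ← nw_conj_tau _ w hwlt _ l₃, hc, map_mul,
      map_mul]
    simp only [hX, cv, mul_assoc, inv_mul_cancel_left]
  have hprw : X.pr (X.nw w) ∈ chevE7.monomialSubgroup L := X.pr_nw hwlt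
  have hrw : ∀ r < chevE7.nroots, C.sg (X.pr (X.nw w)) r = rwd chevE7 w r := by
    intro r hr
    obtain ⟨cc, hcc0, hcc⟩ := C.sg_conj (F := L) hprw hr
    have h1 := congrArg X.pr (X.nw_conj cover_E7 w hwlt r hr 1)
    rw [map_mul, map_mul, map_inv, X.pr_x r hr, X.pr_x _ (rwd_lt C w hwlt hr), hcc] at h1
    by_contra hne
    exact mul_ne_zero hcc0 one_ne_zero (C.eq_zero_of_xg_eq (C.sg_lt hprw hr) (rwd_lt C w hwlt hr) hne h1)
  have hdiag : (X.pr (X.nw w))⁻¹ * n ∈ chevE7.diagonalSubgroup L := by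
    refine C.mem_diag_of_sg (mul_mem (inv_mem hprw) hn) fun r hr => ?_
    rw [C.sg_mul (inv_mem hprw) hn hr, hw r hr, ← hrw r hr, C.sg_inv_sg hprw hr]
  obtain ⟨d, hd⟩ := C.exists_torus hdiag
  have hcq : C.torus (c ^ q) * n = n * C.torus c := by
    have h1 := congrArg X.pr hfc
    rw [map_mul, map_mul, map_inv, hprtau, hprtau] at h1
    have h2 : C.torus (c ^ q * z) = C.torus (c ^ q) := by
      rw [C.torus_mul, (C.torus_eq_one_iff z).2 hzker, mul_one]
    rw [h2] at h1
    rw [← h1, show n = X.pr (X.nw w) * C.torus d by rw [hd]; group]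
    calc X.pr (X.nw w) * C.torus c * (X.pr (X.nw w))⁻¹ * (X.pr (X.nw w) * C.torus d)
        = X.pr (X.nw w) * (C.torus c * C.torus d) := by group
      _ = X.pr (X.nw w) * (C.torus d * C.torus c) := by rw [C.diag_comm (C.torus_mem c) (C.torus_mem d)]
      _ = _ := by group
  have hgt : gmap chevE7 σ.toRingHom (C.torus c) = C.torus (c ^ q) := by
    rw [C.gmap_torus]; exact congrArg C.torus (funext fun k => Units.ext (by simp [hσ]))
  obtain ⟨a, ha⟩ := E6Cyclic.exists_gmap_of_fixed (D := chevE7) i σ.toRingHom hi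
    (g := P⁻¹ * C.torus c * P) (by
      rw [map_mul, map_mul, map_inv, hgt, show gmap chevE7 σ.toRingHom P = n * P by rw [hndef]; group,
        mul_inv_rev]
      calc P⁻¹ * n⁻¹ * C.torus (c ^ q) * (n * P) = P⁻¹ * n⁻¹ * (C.torus (c ^ q) * n) * P := by group
        _ = _ := by rw [hcq]; group)
  have haL : gmap chevE7 i a ∈ chevE7.group L :=
    ha ▸ mul_mem (mul_mem (inv_mem hP) (C.diag_le_group (C.torus_mem c))) hP
  refine ⟨a, c, ha, haL, fun haF => ?_⟩
  -- a fixed lift
  let J : Subgroup (GL chevE7.Idx F) :=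
    { carrier := {b | ∃ y, X.pr y = gmap chevE7 i b ∧ S y = y}
      one_mem' := ⟨1, by simp, map_one S⟩
      mul_mem' := by
        rintro b b' ⟨y, hy, hy'⟩ ⟨y', h1, h2⟩
        exact ⟨y * y', by rw [map_mul, map_mul, hy, h1], by rw [map_mul, hy', h2]⟩
      inv_mem' := by
        rintro b ⟨y, hy, hy'⟩
        exact ⟨y⁻¹, by rw [map_inv, map_inv, hy], by rw [map_inv, hy']⟩ }
  have hJ : chevE7.group F ≤ J := C.group_le fun r hr t => ⟨X.x r (i t), by rw [X.pr_x r hr, C.gmap_xg i hr],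
    by rw [hSgen r hr, (hi _).2 ⟨t, rfl⟩]⟩
  obtain ⟨y, hy, hyS⟩ := hJ haF
  obtain ⟨p, hp⟩ : ∃ p, X.pr p = P := by
    have : P ∈ X.pr.range := by rw [range_pr X]; exact hP
    exact this
  set k := y⁻¹ * (p⁻¹ * tauE L c * p)
  have hkk : k ∈ θ.ker := by
    rw [← mem_ker_pr X rfl, MonoidHom.mem_ker, map_mul, map_inv, map_mul, map_mul, map_inv, hy, hp, hprtau, ha,
      inv_mul_cancel]
  have hkk' := hkk
  rw [ker_eq_map (C := C) θ (fun r t hr => by rw [stHom_gen C hr, Checked.val_xg]) cover_E7] at hkk'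
  obtain ⟨d', hd', hdk⟩ := hkk'
  have hd2 : d' ^ 2 = 1 := by
    have hcard : Nat.card (C.cartanMap (F := L)).ker ∣ 2 := by
      rw [C.card_ker_cartanMap smith_E7, show E7.fast.l = 7 from rfl]
      simp [Finset.prod_range_succ, Nat.gcd_dvd_right]
    obtain ⟨m, hm⟩ := hcard
    have h1 : (⟨d', hd'⟩ : (C.cartanMap (F := L)).ker) ^ 2 = 1 := by
      rw [hm, pow_mul, pow_card_eq_one', one_pow]
    exact congrArg Subtype.val h1
  have hkS : S k = k := by
    rw [← hdk, show tau _ _ cover_E7 d' = tauE L d' from rfl, hStau]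
    obtain ⟨m, rfl⟩ := hodd
    rw [pow_succ, pow_mul, hd2, one_pow, one_mul]
  have hfix : S (p⁻¹ * tauE L c * p) = p⁻¹ * tauE L c * p := by
    rw [show p⁻¹ * tauE L c * p = y * k by simp [k], map_mul, hyS, hkS]
  rw [map_mul, map_mul, map_inv, hStau] at hfix
  set ñ := S p * p⁻¹ with hnt
  have hñ : tauE L (c ^ q) * ñ = ñ * tauE L c := by
    calc tauE L (c ^ q) * ñ = S p * ((S p)⁻¹ * tauE L (c ^ q) * S p) * p⁻¹ := by rw [hnt]; group
      _ = _ := by rw [hfix, hnt]; group
  obtain ⟨k0, hk0⟩ : ∃ k0, k0 = (tauE L d)⁻¹ * ((X.nw w)⁻¹ * ñ) := ⟨_, rfl⟩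
  have hk0c : k0 ∈ Subgroup.center (chevE7.SteinbergGroup L) := by
    refine (X.ker_le cover_E7 ?_).1
    rw [MonoidHom.mem_ker, hk0, map_mul, map_mul, map_inv, map_inv, hprtau, hnt, map_mul, map_inv, hSpr, hp,
      ← hndef, ← hd, inv_mul_cancel]
  have h5 : ñ * tauE L c * ñ⁻¹ = X.nw w * tauE L c * (X.nw w)⁻¹ := by
    have e : ñ = X.nw w * (tauE L d * k0) := by rw [hk0]; group
    have hcm : Commute (tauE L d * k0) (tauE L c) :=
      ((Commute.all d c).map (tauE L)).mul_left (Subgroup.mem_center_iff.1 hk0c _).symm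
    rw [e]
    calc X.nw w * (tauE L d * k0) * tauE L c * (X.nw w * (tauE L d * k0))⁻¹
        = X.nw w * ((tauE L d * k0) * tauE L c) * (tauE L d * k0)⁻¹ * (X.nw w)⁻¹ := by group
      _ = _ := by rw [hcm.eq]; group
  rw [← hñ, mul_inv_cancel_right, hfc, map_mul] at h5
  have hz1 : z = 1 := tauE_injective (by rw [map_one]; exact mul_eq_left.1 h5.symm)
  -- the parity
  set e := cv v₁ + cv v₂ + cv v₃
  have hev : ∀ j, (2 : ℤ) ∣ e j := by
    intro j
    have := congrFun hz1 j
    simp only [hz, Pi.mul_apply, expV, ← zpow_add, Pi.one_apply] at this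
    by_contra hodd'
    rw [Int.two_dvd_ne_zero, ← Int.odd_iff] at hodd'
    rw [show cv v₁ j + cv v₂ j + cv v₃ j = e j from rfl, hodd'.neg_one_zpow] at this
    exact hm1 this
  choose w' hw' using hev
  have h6 : Matrix.vecMul e (cMat chevE7) ⬝ᵥ e = 6 := by
    have p := fun r s (hr : r < chevE7.nroots) (hs : s < chevE7.nroots) => (pair_bilin C laced_E7 hr hs).symm
    have sym : ∀ r s, r < chevE7.nroots → s < chevE7.nroots → pair chevE7 r s = pair chevE7 s r := fun r s hr hs => by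
      rw [← p r s hr hs, ← p s r hs hr, ← Matrix.dotProduct_mulVec, dotProduct_comm]
      conv_lhs => rw [← cMat_symm C laced_E7, Matrix.mulVec_transpose]
    simp only [e, cv, Matrix.add_vecMul, add_dotProduct, dotProduct_add, p, l₁, l₂, l₃]
    rw [sym v₂ v₁ l₂ l₁, sym v₃ v₁ l₃ l₁, sym v₃ v₂ l₃ l₂, o12, o13, o23, C.pair_self l₁, C.pair_self l₂, C.pair_self l₃]
    norm_num
  have h4 : Matrix.vecMul e (cMat chevE7) ⬝ᵥ e = 4 * (Matrix.vecMul w' (cMat chevE7) ⬝ᵥ w') := by
    rw [show e = (2 : ℤ) • w' from funext hw', Matrix.smul_vecMul, smul_dotProduct, dotProduct_smul, smul_smul]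
    norm_num
  omega

end Cfsg.Agent.Lib.Chev.E7Cyclic
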