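import Cfsg.Agent.Lib.Chev.E7Cyclic.Combi
import Cfsg.Agent.Lib.Chev.E6Cyclic.Lattice
import Cfsg.Agent.Lib.Chev.E6Cyclic.Setup

/-!
The torus of order `(q⁴ - q² + 1)(q³ + 1)` as a lattice quotient.
-/

set_option autoImplicit false

namespace Cfsg.Agent.Lib.Chev.E7Cyclic

open Cfsg.Lie Cfsg.Agent.Lib Cfsg.Agent.Lib.Chev Polynomial Homocyclic E6Cyclic
open Cfsg.Agent.Lib.Chev.CoxTorus (wMat fnl cV cV_sg fnl_simple cast_aeval aeval_mulVec_eigen mulVec_eq_zero_iff)

variable {l : ℕ}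

theorem exists_generator' {q N m : ℕ} {P : ℤ[X]} (hl0 : 0 < l) (M : Matrix (Fin l) (Fin l) ℤ)
    (hchar : M.charpoly = P) (h0 : aeval M P = 0)
    (hN : P.eval (q : ℤ) = (N : ℤ)) (hNm : N ∣ m) (hm : 0 < m)
    (hp : ∀ p : ℕ, p.Prime → p ∣ N → (derivative (P.map (Int.castRingHom (ZMod p)))).eval (q : ZMod p) ≠ 0 ∨
      ¬ p ^ 2 ∣ N ∨ ∀ g : ℤ[X], P - C (N : ℤ) = (X - C (q : ℤ)) * g → ∃ i j, ¬ (p : ℤ) ∣ aeval M g i j) :
    ∃ v : Fin l → ZMod m, addOrderOf v = N ∧
      ((Matrix.scalar (Fin l) (q : ℤ) - M).map (Int.cast : ℤ → ZMod m)).mulVec v = 0 ∧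
      ∀ u : Fin l → ZMod m, ((Matrix.scalar (Fin l) (q : ℤ) - M).map (Int.cast : ℤ → ZMod m)).mulVec u = 0 →
        u ∈ AddSubgroup.zmultiples v := by
  classical
  have : NeZero m := ⟨hm.ne'⟩
  set B := Matrix.scalar (Fin l) (q : ℤ) - M with hB
  have hN0 : 0 < N := Nat.pos_of_dvd_of_pos hNm hm
  have hdet : B.det = N := by rw [hB, ← Matrix.eval_charpoly, hchar, hN]
  obtain ⟨g, hg⟩ : X - C (q : ℤ) ∣ P - C (N : ℤ) :=
    dvd_iff_isRoot.2 (by simp [IsRoot, hN])
  set G := aeval M g with hG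
  have hBG : B * G = (N : ℤ) • (1 : Matrix (Fin l) (Fin l) ℤ) := by
    have h1 := congrArg (aeval M) hg
    rw [map_sub, h0, aeval_C, map_mul, map_sub, aeval_X, aeval_C, zero_sub] at h1
    have h2 : B * G = algebraMap ℤ (Matrix (Fin l) (Fin l) ℤ) (N : ℤ) := by
      rw [hB, show Matrix.scalar (Fin l) (q : ℤ) = algebraMap ℤ (Matrix (Fin l) (Fin l) ℤ) (q : ℤ) from rfl,
        ← neg_sub M, neg_mul, ← h1, neg_neg]
    rw [h2, Algebra.algebraMap_eq_smul_one]
  have hGB : G * B = (N : ℤ) • (1 : Matrix (Fin l) (Fin l) ℤ) := by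
    have hc : Commute M G := by
      have := (Commute.all X g).map (aeval M)
      rwa [aeval_X] at this
    have hc2 : Commute B G := (Matrix.scalar_commute (q : ℤ) (fun r' => Commute.all _ _) G).sub_left hc
    rw [← hc2.eq, hBG]
  set k := m / N with hk
  have hkN : k * N = m := Nat.div_mul_cancel hNm
  let f : (Fin l → ℤ) →+ (Fin l → ZMod m) :=
    { toFun := fun u i => (((k : ℤ) * G.mulVec u i : ℤ) : ZMod m)
      map_zero' := by funext i; simp
      map_add' := fun a b => by funext i; simp [Matrix.mulVec_add, mul_add] }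
  set Bm := B.map (Int.cast : ℤ → ZMod m) with hBm
  have hcast : ∀ w : Fin l → ℤ, Bm.mulVec (fun i => ((w i : ℤ) : ZMod m)) = fun i => ((B.mulVec w i : ℤ) : ZMod m) := by
    intro w; funext i
    simp [hBm, Matrix.mulVec, dotProduct, Matrix.map_apply]
  have hfker : ∀ u, Bm.mulVec (f u) = 0 := by
    intro u
    show Bm.mulVec (fun i => (((k : ℤ) * G.mulVec u i : ℤ) : ZMod m)) = 0
    rw [hcast (fun i => (k : ℤ) * G.mulVec u i)]
    funext i
    have e : B.mulVec (fun i => (k : ℤ) * G.mulVec u i) = fun i => (m : ℤ) * u i := by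
      rw [show (fun i => (k : ℤ) * G.mulVec u i) = (k : ℤ) • G.mulVec u from rfl, Matrix.mulVec_smul,
        Matrix.mulVec_mulVec, hBG, Matrix.smul_mulVec, Matrix.one_mulVec, smul_smul, ← Nat.cast_mul, hkN]
      rfl
    rw [e]
    simp
  have hsurj : ∀ v, Bm.mulVec v = 0 → v ∈ f.range := by
    intro v hv
    obtain ⟨w, rfl⟩ : ∃ w : Fin l → ℤ, (fun i => ((w i : ℤ) : ZMod m)) = v :=
      ⟨fun i => ((v i).val : ℤ), funext fun i => by simp⟩
    rw [hcast] at hv
    have hdvd : ∀ i, (m : ℤ) ∣ B.mulVec w i := fun i => (ZMod.intCast_zmod_eq_zero_iff_dvd _ _).1 (congrFun hv i)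
    choose u hu using hdvd
    refine ⟨u, funext fun i => ?_⟩
    have e : (N : ℤ) • w = (m : ℤ) • G.mulVec u := by
      have h1 := congrArg G.mulVec (funext hu : B.mulVec w = fun i => (m : ℤ) * u i)
      rw [Matrix.mulVec_mulVec, hGB, Matrix.smul_mulVec, Matrix.one_mulVec,
        show (fun i => (m : ℤ) * u i) = (m : ℤ) • u from rfl, Matrix.mulVec_smul] at h1
      exact h1
    have e' := congrFun e i
    simp only [Pi.smul_apply, smul_eq_mul] at e'
    rw [← hkN, Nat.cast_mul] at e'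
    have e'' : w i = (k : ℤ) * G.mulVec u i := mul_left_cancel₀ (Int.natCast_ne_zero.2 hN0.ne') (by linear_combination e')
    show (((k : ℤ) * G.mulVec u i : ℤ) : ZMod m) = _
    rw [← e'']
  -- the image has at most `N` elements
  let BL : (Fin l → ℤ) →ₗ[ℤ] (Fin l → ℤ) := Matrix.toLin' B
  have hBinj : Function.Injective BL := by
    rw [← LinearMap.ker_eq_bot, LinearMap.ker_eq_bot']
    intro x hx
    exact Matrix.eq_zero_of_mulVec_eq_zero (by rw [hdet]; exact_mod_cast hN0.ne') hx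
  have hidx : Nat.card ((Fin l → ℤ) ⧸ LinearMap.range BL) = N := by
    rw [← Submodule.natAbs_det_equiv (LinearMap.range BL) (LinearEquiv.ofInjective BL hBinj)]
    have e : (LinearMap.range BL).subtype ∘ₗ AddMonoidHom.toIntLinearMap
        ((LinearEquiv.ofInjective BL hBinj : (Fin l → ℤ) ≃ₗ[ℤ] LinearMap.range BL) :
          (Fin l → ℤ) →+ LinearMap.range BL) = BL := LinearMap.ext fun x => rfl
    rw [e, LinearMap.det_toLin', hdet, Int.natAbs_natCast]
  have hle : ∀ u ∈ LinearMap.range BL, f u = 0 := by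
    rintro _ ⟨w, rfl⟩
    funext i
    show (((k : ℤ) * G.mulVec (Matrix.toLin' B w) i : ℤ) : ZMod m) = 0
    rw [Matrix.toLin'_apply, Matrix.mulVec_mulVec, hGB, Matrix.smul_mulVec, Matrix.one_mulVec, Pi.smul_apply,
      smul_eq_mul, ← mul_assoc, ← Nat.cast_mul, hkN]
    simp
  have hcard : Nat.card f.range ≤ N := by
    rw [← hidx]
    have : Finite ((Fin l → ℤ) ⧸ LinearMap.range BL) :=
      Nat.finite_of_card_ne_zero (by rw [hidx]; exact hN0.ne')
    refine Nat.card_le_card_of_surjective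
      (fun x : (Fin l → ℤ) ⧸ LinearMap.range BL =>
        (⟨Quotient.liftOn' x (fun u => f u) (fun a b h => ?_), ?_⟩ : f.range)) ?_
    · rw [Submodule.quotientRel_def] at h
      have := hle _ h
      rwa [map_sub, sub_eq_zero] at this
    · induction x using Quotient.inductionOn' with
      | h u => exact ⟨u, rfl⟩
    · rintro ⟨_, u, rfl⟩
      exact ⟨Submodule.Quotient.mk u, rfl⟩
  -- the exponent is `N`
  have hexpd : ∀ x : f.range, N • x = 0 := by
    rintro ⟨_, u, rfl⟩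
    refine Subtype.ext (funext fun i => ?_)
    show N • (((k : ℤ) * G.mulVec u i : ℤ) : ZMod m) = 0
    rw [nsmul_eq_mul, ← Int.cast_natCast, ← Int.cast_mul, ← mul_assoc, ← Nat.cast_mul, mul_comm N, hkN]
    simp
  obtain ⟨⟨v, hv⟩, hvo⟩ := AddMonoid.exists_addOrderOf_eq_exponent
    (AddMonoid.ExponentExists.of_finite (G := f.range))
  have hexp : AddMonoid.exponent f.range = N := by
    refine Nat.dvd_antisymm (AddMonoid.exponent_dvd_of_forall_nsmul_eq_zero hexpd) ?_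
    by_contra hnd
    have hed : AddMonoid.exponent f.range ∣ N := AddMonoid.exponent_dvd_of_forall_nsmul_eq_zero hexpd
    obtain ⟨c, hc⟩ := hed
    have hc1 : c ≠ 1 := fun h => hnd (by rw [hc, h, mul_one])
    obtain ⟨p, hpp, hpc⟩ := Nat.exists_prime_and_dvd hc1
    obtain ⟨c', rfl⟩ := hpc
    set e := AddMonoid.exponent f.range
    have hG0 : ∀ i j, (p : ℤ) ∣ G i j := by
      intro i j
      have h1 : e • (⟨f (Pi.single j 1), _, rfl⟩ : f.range) = 0 := AddMonoid.exponent_nsmul_eq_zero _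
      have h2 : e • (((k : ℤ) * G.mulVec (Pi.single j 1) i : ℤ) : ZMod m) = 0 :=
        congrFun (congrArg Subtype.val h1) i
      rw [Matrix.mulVec_single_one, Matrix.col_apply, nsmul_eq_mul, ← Int.cast_natCast, ← Int.cast_mul,
        ZMod.intCast_zmod_eq_zero_iff_dvd] at h2
      obtain ⟨z, hz⟩ := h2
      have hzN : ((p * c' : ℕ) : ℤ) * z = G i j := by
        refine mul_left_cancel₀ (a := (e : ℤ) * k) ?_ ?_
        · refine mul_ne_zero ?_ ?_
          · exact_mod_cast (Nat.pos_of_mul_pos_right (hc ▸ hN0)).ne'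
          · exact_mod_cast (Nat.pos_of_mul_pos_right (hkN.symm ▸ hm)).ne'
        · rw [show ((e : ℤ) * k) * (((p * c' : ℕ) : ℤ) * z) = ((k * (e * (p * c')) : ℕ) : ℤ) * z by push_cast; ring,
            ← hc, hkN, ← hz]
          ring
      rw [← hzN]; push_cast; exact Dvd.intro _ (by ring : (p : ℤ) * (c' * z) = _)
    have hpN : p ∣ N := ⟨e * c', by rw [hc]; ring⟩
    have : Fact p.Prime := ⟨hpp⟩
    rcases hp p hpp hpN with hpd | hp2 | hp3
    · have hdetp : ((Int.castRingHom (ZMod p)).mapMatrix B).det = 0 := by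
        rw [← RingHom.map_det, hdet]
        simpa using (ZMod.natCast_eq_zero_iff N p).2 hpN
      obtain ⟨a, ha, hBa⟩ := Matrix.exists_mulVec_eq_zero_iff.2 hdetp
      have heig : (M.map (Int.cast : ℤ → ZMod p)).mulVec a = (q : ZMod p) • a := by
        have e : (Int.castRingHom (ZMod p)).mapMatrix B =
            Matrix.scalar (Fin l) (q : ZMod p) - M.map (Int.cast : ℤ → ZMod p) := by
          simp [hB, map_sub]
        rw [e, Matrix.sub_mulVec, sub_eq_zero] at hBa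
        rw [← hBa]
        funext i
        simp [Matrix.mulVec_diagonal]
      have h1 := aeval_mulVec_eigen heig (g.map (Int.castRingHom (ZMod p)))
      rw [cast_aeval, ← hG] at h1
      have hGz : (Int.castRingHom (ZMod p)).mapMatrix G = 0 := by
        ext i j
        exact (ZMod.intCast_zmod_eq_zero_iff_dvd _ _).2 (hG0 i j)
      rw [hGz, Matrix.zero_mulVec] at h1
      have hgq : (g.map (Int.castRingHom (ZMod p))).eval (q : ZMod p) = 0 :=
        (smul_eq_zero.1 h1.symm).resolve_right ha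
      have hg' := congrArg (fun f => (derivative (f.map (Int.castRingHom (ZMod p)))).eval (q : ZMod p)) hg
      simp only [Polynomial.map_sub, map_C, Polynomial.map_mul, map_X, derivative_sub,
        derivative_C, sub_zero, derivative_mul, derivative_X, eval_add, eval_mul, eval_sub, eval_X, eval_C,
        eval_one, one_mul, hgq, Polynomial.map_natCast, derivative_natCast, eval_natCast, eval_zero, eq_intCast, Int.cast_natCast, sub_self, zero_mul, mul_zero, add_zero] at hg'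
      exact hpd hg'
    · have h1 : (p : ℤ) ^ l ∣ G.det := by
        choose G' hG' using hG0
        have : G = (p : ℤ) • Matrix.of G' := by ext i j; simp [hG']
        rw [this, Matrix.det_smul, Fintype.card_fin]
        exact dvd_mul_right _ _
      have h2 : (N : ℤ) * G.det = (N : ℤ) ^ l := by
        rw [← hdet, ← Matrix.det_mul, hBG, Matrix.det_smul, Matrix.det_one, mul_one, Fintype.card_fin, hdet]
      obtain ⟨l', rfl⟩ : ∃ l', l = l' + 1 := ⟨l - 1, by omega⟩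
      have h3 : (p : ℤ) ^ (l' + 1) ∣ (N : ℤ) ^ l' := by
        have h5 := mul_dvd_mul_left (N : ℤ) h1
        rw [h2, pow_succ' (N : ℤ)] at h5
        exact (mul_dvd_mul_iff_left (Int.natCast_ne_zero.2 hN0.ne')).1 h5
      obtain ⟨N', rfl⟩ := hpN
      have h4 : (p : ℕ) ^ (l' + 1) ∣ (p * N') ^ l' := by exact_mod_cast h3
      rw [mul_pow, pow_succ, Nat.mul_dvd_mul_iff_left (pow_pos hpp.pos _)] at h4
      exact hp2 (by rw [pow_two]; exact Nat.mul_dvd_mul_left p (hpp.dvd_of_dvd_pow h4))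
    · obtain ⟨i, j, hij⟩ := hp3 g hg
      exact hij (hG0 i j)
  refine ⟨v, ?_, ?_, fun u hu => ?_⟩
  · rw [← hexp, ← hvo]
    exact AddSubgroup.addOrderOf_coe (⟨v, hv⟩ : f.range)
  · obtain ⟨w, rfl⟩ := hv; exact hfker w
  · have hsub : AddSubgroup.zmultiples v ≤ f.range := AddSubgroup.zmultiples_le.2 hv
    have hcz : Nat.card (AddSubgroup.zmultiples v) = N := by
      rw [Nat.card_zmultiples, ← hexp, ← hvo]
      exact AddSubgroup.addOrderOf_coe (⟨v, hv⟩ : f.range)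
    rw [AddSubgroup.eq_of_le_of_card_ge hsub (by rw [hcz]; exact hcard)]
    exact hsurj u hu

theorem mod_two_seven : ∀ t : ZMod 2, t ^ 4 - t ^ 2 + 1 ≠ 0 := by decide

theorem simple_pT {q p : ℕ} [Fact p.Prime] (hp3 : p ≠ 3)
    (h : (pT.map (Int.castRingHom (ZMod p))).eval (q : ZMod p) = 0) :
    (derivative (pT.map (Int.castRingHom (ZMod p)))).eval (q : ZMod p) ≠ 0 := by
  set t := (q : ZMod p)
  have h3 : (3 : ZMod p) ≠ 0 := fun h => hp3 ((Nat.prime_dvd_prime_iff_eq Fact.out Nat.prime_three).1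
    ((ZMod.natCast_eq_zero_iff 3 p).1 (by exact_mod_cast h)))
  simp only [pT, p12, Polynomial.map_mul, Polynomial.map_add, Polynomial.map_sub, Polynomial.map_pow, map_X,
    Polynomial.map_one, eval_mul, eval_add, eval_sub, eval_pow, eval_X, eval_one, derivative_mul, derivative_add,
    derivative_sub, derivative_X_pow, derivative_X, derivative_one, eval_C, Nat.cast_ofNat, map_ofNat,
    eval_ofNat, add_zero, Nat.add_one_sub_one, pow_one] at h ⊢
  intro hd
  rcases eq_or_ne p 2 with rfl | hp2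
  · skip
    have ha : t ^ 4 - t ^ 2 + 1 ≠ 0 := mod_two_seven t
    have hb := (mul_eq_zero.1 h).resolve_left ha
    rw [hb, mul_zero, zero_add] at hd
    have h5 := (mul_eq_zero.1 hd).resolve_left ha
    have ht : t = 0 := eq_zero_of_pow_eq_zero ((mul_eq_zero.1 h5).resolve_left h3)
    rw [ht] at hb
    simp at hb
  have h2 : (2 : ZMod p) ≠ 0 := fun h => hp2 ((Nat.prime_dvd_prime_iff_eq Fact.out Nat.prime_two).1
    ((ZMod.natCast_eq_zero_iff 2 p).1 (by exact_mod_cast h)))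
  have hboth : ¬ (t ^ 4 - t ^ 2 + 1 = 0 ∧ t ^ 3 + 1 = 0) := fun ⟨ha, hb⟩ => by
    have h4 : (2 : ZMod p) * t = 0 := by linear_combination hb - (1 - t) * (ha - t * hb)
    rw [(mul_eq_zero.1 h4).resolve_left h2] at hb
    simp at hb
  rcases mul_eq_zero.1 h with ha | hb
  · have hb : t ^ 3 + 1 ≠ 0 := fun hb => hboth ⟨ha, hb⟩
    rw [ha, zero_mul, add_zero] at hd
    have h4 : t * (2 * t ^ 2 - 1) = 0 := mul_left_cancel₀ h2 (by
      linear_combination (mul_eq_zero.1 hd).resolve_right hb)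
    have ht : t ≠ 0 := fun h0 => one_ne_zero (α := ZMod p) (by rw [h0] at ha; simpa using ha)
    have h5 := (mul_eq_zero.1 h4).resolve_left ht
    exact h3 (by linear_combination 4 * ha - (2 * t ^ 2 - 1) * h5)
  · have ha : t ^ 4 - t ^ 2 + 1 ≠ 0 := fun ha => hboth ⟨ha, hb⟩
    rw [hb, mul_zero, zero_add] at hd
    have h5 := (mul_eq_zero.1 hd).resolve_left ha
    have ht : t = 0 := eq_zero_of_pow_eq_zero ((mul_eq_zero.1 h5).resolve_left h3)
    rw [ht] at hb
    simp at hb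

variable {K : Type*} [Field K]

theorem three_ne {n : GL chevE7.Idx K} (hn : n ∈ chevE7.monomialSubgroup K) {b₁ b₂ b₃ : ℕ}
    (l₁ : b₁ < chevE7.nroots) (l₂ : b₂ < chevE7.nroots) (l₃ : b₃ < chevE7.nroots) (e1 : C7.sg n b₁ = b₃)
    (e3 : C7.sg n b₃ = b₂) (e2 : C7.sg n b₂ = chevE7.neg b₁) (o12 : pair chevE7 b₁ b₂ = 0)
    (o13 : pair chevE7 b₁ b₃ = 0) {q N : ℕ} (hq : (q : ZMod 3) = -1) (hN : (N : ZMod 3) = 0) (g : ℤ[X])
    (hg : pT - C (N : ℤ) = (X - C (q : ℤ)) * g) : ∃ i j, ¬ (3 : ℤ) ∣ aeval (wMat C7 n) g i j := by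
  set M := wMat C7 n with hM
  set cv := cV E7.fast chevE7 with hcv
  by_contra hall
  push Not at hall
  have : Fact (Nat.Prime 3) := ⟨Nat.prime_three⟩
  set φ := Int.castRingHom (ZMod 3)
  set R : ℤ[X] := p12 * (X + 1) ^ 2
  have hR : g.map φ = R.map φ := by
    have h1 := congrArg (Polynomial.map φ) hg
    have hX : (X + 1 : (ZMod 3)[X]) ≠ 0 := by
      intro h0
      have := congrArg (Polynomial.eval (0 : ZMod 3)) h0
      simp at this
    have h3 : (3 : (ZMod 3)[X]) = 0 := by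
      rw [← Polynomial.C_ofNat, show (3 : ZMod 3) = 0 from rfl, map_zero]
    have hNp : ((N : ℕ) : (ZMod 3)[X]) = 0 := by rw [← map_natCast Polynomial.C, hN, map_zero]
    have hqp : ((q : ℕ) : (ZMod 3)[X]) = -1 := by rw [← map_natCast Polynomial.C, hq, map_neg, map_one]
    simp only [pT, R, p12, Polynomial.map_natCast, map_natCast, hNp, hqp, Polynomial.map_mul, Polynomial.map_add, Polynomial.map_sub, Polynomial.map_pow, map_X,
      Polynomial.map_one, map_C, φ, eq_intCast, Int.cast_natCast, hq, hN, map_zero, sub_zero, map_neg, map_one,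
      sub_neg_eq_add] at h1 ⊢
    refine mul_left_cancel₀ hX ?_
    linear_combination -h1 + (-(X ^ 4 - X ^ 2 + 1) * X * (X + 1)) * h3
  have hA : ∀ i j, (3 : ℤ) ∣ aeval M R i j := by
    have h1 := cast_aeval (ZMod 3) M g
    have h2 := cast_aeval (ZMod 3) M R
    rw [hR, h2] at h1
    intro i j
    refine (ZMod.intCast_zmod_eq_zero_iff_dvd _ 3).1 ?_
    have h3 := congrFun (congrFun h1 i) j
    simp only [RingHom.mapMatrix_apply, Matrix.map_apply, eq_intCast] at h3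
    rw [h3]
    exact (ZMod.intCast_zmod_eq_zero_iff_dvd _ 3).2 (hall i j)
  choose A' hA' using hA
  have v1 : Matrix.vecMul (cv b₁) M = cv b₃ := by rw [hcv, hM, ← cV_sg C7 hn l₁, e1]
  have v3 : Matrix.vecMul (cv b₃) M = cv b₂ := by rw [hcv, hM, ← cV_sg C7 hn l₃, e3]
  have v2 : Matrix.vecMul (cv b₂) M = -cv b₁ := by rw [hcv, hM, ← cV_sg C7 hn l₂, e2, cV_neg l₁]
  have hz : Matrix.vecMul (cv b₁) (aeval M (X ^ 3 + 1 : ℤ[X])) = 0 := by
    rw [map_add, map_pow, aeval_X, map_one, Matrix.vecMul_add, Matrix.vecMul_one, pow_three,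
      ← Matrix.vecMul_vecMul, ← Matrix.vecMul_vecMul, v1, v3, v2, neg_add_cancel]
  have hv : Matrix.vecMul (cv b₁) (aeval M R) = (4 : ℤ) • cv b₁ + (2 : ℤ) • cv b₃ - (2 : ℤ) • cv b₂ := by
    rw [show R = (X ^ 3 + 1) * (X * (X + 1) ^ 2 - X - 3) + (C 4 + C 2 * X - C 2 * X ^ 2) by
      simp only [R, p12, map_ofNat]; ring, map_add, map_mul, Matrix.vecMul_add, ← Matrix.vecMul_vecMul, hz,
      Matrix.zero_vecMul, zero_add, map_sub, map_add, map_mul, map_mul, map_pow, aeval_C, aeval_C, aeval_X,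
      Matrix.vecMul_sub, Matrix.vecMul_add, Algebra.algebraMap_eq_smul_one, Algebra.algebraMap_eq_smul_one,
      smul_mul_assoc, one_mul, smul_mul_assoc, one_mul, Matrix.vecMul_smul, Matrix.vecMul_smul, Matrix.vecMul_smul,
      Matrix.vecMul_one, pow_two, ← Matrix.vecMul_vecMul, v1, v3]
  have hb := congrArg (fun u => bil u (cv b₁)) hv
  rw [show aeval M R = (3 : ℤ) • Matrix.of A' from Matrix.ext fun i j => by simp [hA'], Matrix.vecMul_smul] at hb
  have q1 := C7.pair_self l₁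
  rw [pair_eq l₁ l₁] at q1
  have q2 : bil (cv b₂) (cv b₁) = 0 := by rw [← pair_eq l₂ l₁, pair_comm l₂ l₁, o12]
  have q3 : bil (cv b₃) (cv b₁) = 0 := by rw [← pair_eq l₃ l₁, pair_comm l₃ l₁, o13]
  simp only [bil, hcv, Matrix.sub_vecMul, Matrix.add_vecMul, Matrix.smul_vecMul, sub_dotProduct, add_dotProduct,
    smul_dotProduct, smul_eq_mul] at hb q1 q2 q3
  rw [q1, q2, q3] at hb
  omega

/-- The functional of a root. -/
def pairE (u : ℕ) : Fin chevE7.rank → ℤ := fun k => pair chevE7 u (chevE7.simple k)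

theorem fnl_pairE (u : ℕ) {v : ℕ} (hv : v < chevE7.nroots) : fnl E7.fast chevE7 (pairE u) v = pair chevE7 u v := by
  rw [C7.pair_lin u hv, fnl, ← Fin.sum_univ_eq_sum_range
    (fun k => E7.fast.aux.coef v k * pair chevE7 u (chevE7.simple k)) chevE7.rank]
  simp [pairE]

/-- The orbit values of the generator have large order. -/
theorem value_dvd {n : GL chevE7.Idx K} (hn : n ∈ chevE7.monomialSubgroup K) {v₁ v₂ v₃ : ℕ}
    (l₁ : v₁ < chevE7.nroots) (l₂ : v₂ < chevE7.nroots) (l₃ : v₃ < chevE7.nroots) (n₁ : C7.sg n v₁ = v₃)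
    (n₃ : C7.sg n v₃ = v₂) (n₂ : C7.sg n v₂ = chevE7.neg v₁) (o12 : pair chevE7 v₁ v₂ = 0)
    (o23 : pair chevE7 v₂ v₃ = 0) {q Mq s : ℕ} (hs : s * (q ^ 3 + 1) = Mq) (hs0 : 0 < s)
    (w : Fin chevE7.rank → ZMod Mq)
    (hgen : ∀ u : Fin chevE7.rank → ZMod Mq,
      ((Matrix.scalar (Fin chevE7.rank) (q : ℤ) - wMat C7 n⁻¹).map (Int.cast : ℤ → ZMod Mq)).mulVec u = 0 →
        u ∈ AddSubgroup.zmultiples w)
    (k : ℤ) (hk : (k : ZMod Mq) * fnl E7.fast chevE7 w v₂ = 0) : ((q ^ 3 + 1 : ℕ) : ℤ) ∣ 2 * k := by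
  set e : Fin chevE7.rank → ℤ := fun j =>
    (s : ℤ) * ((q : ℤ) ^ 2 * pairE v₁ j + (q : ℤ) * pairE v₃ j + pairE v₂ j) with he
  have hfe : ∀ v < chevE7.nroots, fnl E7.fast chevE7 e v =
      (s : ℤ) * ((q : ℤ) ^ 2 * pair chevE7 v₁ v + (q : ℤ) * pair chevE7 v₃ v + pair chevE7 v₂ v) := by
    intro v hv
    rw [← fnl_pairE v₁ hv, ← fnl_pairE v₂ hv, ← fnl_pairE v₃ hv]
    simp only [fnl, he, Finset.mul_sum, ← Finset.sum_add_distrib]
    exact Finset.sum_congr rfl fun j _ => by ring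
  have hsM : ((s : ℕ) : ZMod Mq) * ((q : ZMod Mq) ^ 3 + 1) = 0 := by
    have := congrArg (fun x : ℕ => (x : ZMod Mq)) hs
    simpa using this
  have hker : ((Matrix.scalar (Fin chevE7.rank) (q : ℤ) - wMat C7 n⁻¹).map (Int.cast : ℤ → ZMod Mq)).mulVec
      (fun j => (e j : ZMod Mq)) = 0 := by
    rw [mulVec_eq_zero_iff C7 hn]
    intro v hv
    have hv' := C7.sg_lt hn hv
    have p1 : pair chevE7 v₁ (C7.sg n v) = -pair chevE7 v₂ v := by
      rw [← C7.pair_sg hn l₂ hv, n₂, pair_neg_left l₁ hv', neg_neg]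
    have p3 : pair chevE7 v₃ (C7.sg n v) = pair chevE7 v₁ v := by rw [← C7.pair_sg hn l₁ hv, n₁]
    have p2 : pair chevE7 v₂ (C7.sg n v) = pair chevE7 v₃ v := by rw [← C7.pair_sg hn l₃ hv, n₃]
    rw [← CoxTorus.cast_fnl, ← CoxTorus.cast_fnl, hfe v hv, hfe _ hv', p1, p2, p3]
    push_cast
    linear_combination (pair chevE7 v₂ v : ZMod Mq) * hsM
  obtain ⟨j, hj⟩ := AddSubgroup.mem_zmultiples_iff.1 (hgen _ hker)
  have h2 : fnl E7.fast chevE7 e v₂ = 2 * (s : ℤ) := by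
    rw [hfe v₂ l₂, o12, C7.pair_self l₂, pair_comm l₃ l₂, o23]; ring
  have h3 : fnl E7.fast chevE7 (fun j => (e j : ZMod Mq)) v₂ = (j : ZMod Mq) * fnl E7.fast chevE7 w v₂ := by
    rw [← hj]
    simp only [fnl, Pi.smul_apply, zsmul_eq_mul, Finset.mul_sum]
    exact Finset.sum_congr rfl fun i _ => by ring
  rw [← CoxTorus.cast_fnl, h2] at h3
  have h4 : ((k * (2 * (s : ℤ)) : ℤ) : ZMod Mq) = 0 := by
    rw [Int.cast_mul, h3, mul_left_comm, hk, mul_zero]
  rw [ZMod.intCast_zmod_eq_zero_iff_dvd, ← hs, Nat.cast_mul, show k * (2 * (s : ℤ)) = (s : ℤ) * (2 * k) by ring] at h4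
  exact (mul_dvd_mul_iff_left (by exact_mod_cast hs0.ne')).1 h4

theorem small_dvd {q g : ℕ} (hq : 2 ≤ q) (hg : g = Nat.gcd 2 (q - 1)) {k : ℤ}
    (hk : k = 1 ∨ k = 2 ∨ k = (q : ℤ) - 1 ∨ k = (q : ℤ) + 1 ∨ k = (q : ℤ) ^ 2 - 1 ∨ k = (q : ℤ) ^ 2 + 1) :
    ¬ ((q ^ 3 + 1 : ℕ) : ℤ) ∣ 2 * (k * g) := by
  intro h
  by_cases hq5 : q < 5
  · interval_cases q <;> norm_num at hg <;> subst hg <;> rcases hk with rfl | rfl | rfl | rfl | rfl | rfl <;>
      norm_num at h
  have hg2 : (g : ℤ) ≤ 2 := by rw [hg]; exact_mod_cast Nat.le_of_dvd (by norm_num) (Nat.gcd_dvd_left 2 _)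
  have hg1 : (1 : ℤ) ≤ g := by
    rw [hg]; exact_mod_cast Nat.gcd_pos_of_pos_left _ (by norm_num)
  have hq5' : (5 : ℤ) ≤ q := by omega
  have hk1 : 1 ≤ k ∧ k ≤ (q : ℤ) ^ 2 + 1 := by
    rcases hk with rfl | rfl | rfl | rfl | rfl | rfl <;> constructor <;> nlinarith
  have h1 := Int.le_of_dvd (by nlinarith) h
  push_cast at h1
  nlinarith

end Cfsg.Agent.Lib.Chev.E7Cyclic
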