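import Cfsg.Agent.Lib.Chev.E7Cyclic.Roots
import Cfsg.Agent.Lib.Chev.E7Cyclic.Lattice
import Cfsg.Agent.Lib.Chev.E7Cyclic.Cover
import Cfsg.Agent.Lib.Chev.E7SixtyFive.Core
import Cfsg.Agent.Lib.Chev.E6Cyclic.Avg
import Cfsg.Agent.Lib.Chev.TwistGens
import Mathlib.GroupTheory.Sylow
import Mathlib.RingTheory.RootsOfUnity.PrimitiveRoots

/-!
A cyclic torus of order `(q⁴ - q² + 1)(q³ + 1)` around an element of prime order dividing `Φ₁₂(q)`, in the adjoint
group of type E₇.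
-/

set_option autoImplicit false
set_option maxRecDepth 8000

namespace Cfsg.Agent.Lib.Chev.E7Cyclic

open Cfsg.Lie Cfsg.Agent.Lib Cfsg.Agent.Lib.Chev Polynomial Homocyclic
open Cfsg.Agent.Lib.Chev.CoxTorus (wMat fnl zpow_eq_iff cast_fnl chrOf_exp mulVec_eq_zero_iff mono_torus_iff
  exists_exp exists_dominant)
open Cfsg.Agent.Lib.Chev.RootPair (upT loT)
open Cfsg.Agent.Lib.Chev.E6Cyclic (p12)
open scoped MatrixGroups

theorem fnl_neg' {R : Type*} [CommRing R] (e : Fin chevE7.rank → R) {v : ℕ} (hv : v < chevE7.nroots) :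
    fnl E7.fast chevE7 e (chevE7.neg v) = -fnl E7.fast chevE7 e v := by
  simp only [fnl, ← Finset.sum_neg_distrib]
  exact Finset.sum_congr rfl fun j _ => by rw [C7.root.coef_neg hv j.2]; push_cast; ring

/-- A monomial element fixing a regular functional fixes every root. -/
theorem fix_of_regular {L : Type*} [Field L] {w : GL chevE7.Idx L} (hw : w ∈ chevE7.monomialSubgroup L)
    (b : Fin chevE7.rank → ℤ) (hb : ∀ v < chevE7.nroots, fnl E7.fast chevE7 b v ≠ 0)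
    (hinv : ∀ v < chevE7.nroots, fnl E7.fast chevE7 b (C7.sg w v) = fnl E7.fast chevE7 b v)
    {v : ℕ} (hv : v < chevE7.nroots) : C7.sg w v = v := by
  set C := C7
  obtain ⟨m, hm, hdom⟩ := exists_dominant (F := L) C b hb
  have hd' : m⁻¹ * w * m ∈ chevE7.diagonalSubgroup L := by
    have hmem : m⁻¹ * w * m ∈ chevE7.monomialSubgroup L := mul_mem (mul_mem (inv_mem hm) hw) hm
    refine C.mem_diag_of_simple_pos hmem fun i hi => ?_
    have hp := C.root.simple_lt i hi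
    have hu := C.sg_lt hmem hp
    refine (C.key_trichotomy hu).resolve_right fun hneg => ?_
    have h1 := hdom _ (C.root.pos_simple hi)
    have h2 := hdom _ ((C.neg_pos_iff hu).2 hneg)
    rw [C.sg_neg hm hu, fnl_neg' b (C.sg_lt hm hu)] at h2
    have h3 : fnl E7.fast chevE7 b (C.sg m (C.sg (m⁻¹ * w * m) (chevE7.simple i))) =
        fnl E7.fast chevE7 b (C.sg m (chevE7.simple i)) := by
      rw [C.sg_mul (mul_mem (inv_mem hm) hw) hm hp, C.sg_mul (inv_mem hm) hw (C.sg_lt hm hp),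
        C.sg_sg_inv hm (C.sg_lt hw (C.sg_lt hm hp))]
      exact hinv _ (C.sg_lt hm hp)
    omega
  have hu : C.sg m⁻¹ v < chevE7.nroots := C.sg_lt (inv_mem hm) hv
  have h5 := C.sg_diag hd' hu
  rw [C.sg_mul (mul_mem (inv_mem hm) hw) hm hu, C.sg_sg_inv hm hv, C.sg_mul (inv_mem hm) hw hv] at h5
  have h6 := congrArg (C.sg m) h5
  rwa [C.sg_sg_inv hm (C.sg_lt hw hv), C.sg_sg_inv hm hv] at h6

theorem mod_three_seven : ∀ t : ZMod 3, (t ^ 4 - t ^ 2 + 1) * (t ^ 3 + 1) = 0 → t = -1 := by decide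

/-- membership in the three pairs -/
def Six (b₁ b₂ b₃ v : ℕ) : Prop :=
  v = b₁ ∨ v = chevE7.neg b₁ ∨ v = b₂ ∨ v = chevE7.neg b₂ ∨ v = b₃ ∨ v = chevE7.neg b₃

set_option maxHeartbeats 1600000 in
theorem exists_gen {F L : Type*} [Field F] [Field L] [Fintype L] {q r : ℕ} [Fact r.Prime] (hq2 : 2 ≤ q)
    (hr : 12 < r) (hord : orderOf (q : ZMod r) = 12) (hL : Fintype.card L = q ^ 12) (i : F →+* L) (σ : L ≃+* L)
    (hσ : ∀ t, σ t = t ^ q) (hi : ∀ t : L, σ t = t ↔ t ∈ i.range) {x : GL chevE7.Idx F}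
    (hx : x ∈ chevE7.group F) (hxo : orderOf x = r) :
    ∃ a₁ : GL chevE7.Idx F, gmap chevE7 i a₁ ∈ chevE7.group L ∧
      orderOf a₁ = (q ^ 4 - q ^ 2 + 1) * (q ^ 3 + 1) ∧ a₁ * x = x * a₁ ∧
      (∀ a : GL chevE7.Idx F, gmap chevE7 i a ∈ chevE7.group L → a * x = x * a →
        a * a₁ ^ Nat.gcd 2 (q - 1) = a₁ ^ Nat.gcd 2 (q - 1) * a → a ∈ Subgroup.zpowers a₁) ∧
      (Nat.gcd 2 (q - 1) = 2 → a₁ ∉ chevE7.group F) := by
  classical
  set C := C7 with hC
  have hσi : σ.toRingHom.comp i = i := RingHom.ext fun y => (hi (i y)).2 ⟨y, rfl⟩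
  have hQ : (Fintype.card L : ZMod r) = 1 := by
    rw [hL, Nat.cast_pow]; exact orderOf_dvd_iff_pow_eq_one.1 hord.dvd
  have hgt : ∀ c : Fin chevE7.rank → Lˣ, gmap chevE7 σ.toRingHom (C.torus c) = C.torus (c ^ q) := fun c => by
    rw [C.gmap_torus]
    exact congrArg C.torus (funext fun k => Units.ext (by simp [hσ]))
  let X : ↥(chevE7.group L) := ⟨gmap chevE7 i x, C.gmap_group i hx⟩
  have hXo : orderOf X = r := by
    rw [← Subgroup.orderOf_coe, orderOf_injective (gmap chevE7 i) (gmap_injective i), hxo]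
  obtain ⟨g₀, hg₀⟩ := conj_subgroup C (degs := [2, 6, 8, 10, 12, 14, 18]) (by decide +kernel) (by simp) (r := r)
    (by
      intro h
      rcases (Nat.Prime.dvd_mul Fact.out).1 (show r ∣ 2 * (6 * (8 * (10 * (12 * (14 * 18))))) by simpa using h) with h | h
      · have := Nat.le_of_dvd (by norm_num) h; omega
      rcases (Nat.Prime.dvd_mul Fact.out).1 h with h | h
      · have := Nat.le_of_dvd (by norm_num) h; omega
      rcases (Nat.Prime.dvd_mul Fact.out).1 h with h | h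
      · have := Nat.le_of_dvd (by norm_num) h; omega
      rcases (Nat.Prime.dvd_mul Fact.out).1 h with h | h
      · have := Nat.le_of_dvd (by norm_num) h; omega
      rcases (Nat.Prime.dvd_mul Fact.out).1 h with h | h
      · have := Nat.le_of_dvd (by norm_num) h; omega
      rcases (Nat.Prime.dvd_mul Fact.out).1 h with h | h
      · have := (Nat.Prime.dvd_mul Fact.out).1 (show r ∣ 2 * 7 from h)
        rcases this with h | h <;> have := Nat.le_of_dvd (by norm_num) h <;> omega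
      · rcases (Nat.Prime.dvd_mul Fact.out).1 (show r ∣ 2 * 9 from h) with h | h <;>
          have := Nat.le_of_dvd (by norm_num) h <;> omega)
    hQ (Subgroup.zpowers X) (IsPGroup.of_card (n := 1) (by rw [Nat.card_zpowers, hXo, pow_one]))
  obtain ⟨c, hc0⟩ := C.exists_torus (hg₀ X (Subgroup.mem_zpowers X))
  set P : GL chevE7.Idx L := (g₀ : GL chevE7.Idx L) with hPdef
  have hP : P ∈ chevE7.group L := g₀.2
  set Xv : GL chevE7.Idx L := gmap chevE7 i x with hXv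
  have hc : P * Xv * P⁻¹ = C.torus c := by
    rw [hc0, Subgroup.coe_mul, Subgroup.coe_mul, Subgroup.coe_inv]
  have hcr : C.cartanMap (c ^ r) = 1 := by
    rw [← C.torus_eq_one_iff]
    show C.torusHom (c ^ r) = 1
    rw [map_pow]
    show C.torus c ^ r = 1
    have hXr : Xv ^ r = 1 := by
      have := congrArg Subtype.val (hXo ▸ pow_orderOf_eq_one X : X ^ r = 1)
      exact this
    rw [← hc, conj_pow, hXr, mul_one, mul_inv_cancel]
  have hc1 : C.cartanMap c ≠ 1 := by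
    intro h
    rw [← C.torus_eq_one_iff, ← hc, mul_inv_eq_one, mul_eq_left] at h
    have : X = 1 := Subtype.ext h
    rw [this, orderOf_one] at hXo
    exact (Fact.out : r.Prime).ne_one hXo.symm
  have hrM : r ∣ Fintype.card Lˣ := by
    rw [Fintype.card_units, ← ZMod.natCast_eq_zero_iff, Nat.cast_sub Fintype.card_pos, hQ, Nat.cast_one, sub_self]
  obtain ⟨ζ, hζ⟩ := exists_prime_orderOf_dvd_card r hrM
  have hζp : IsPrimitiveRoot ζ r := hζ ▸ IsPrimitiveRoot.orderOf ζ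
  have : NeZero r := ⟨(Fact.out : r.Prime).ne_zero⟩
  have hz : ∀ k, ∃ m : ℤ, ζ ^ m = C.cartanMap c k := by
    intro k
    refine Subgroup.mem_zpowers_iff.1 ?_
    rw [hζp.zpowers_eq, mem_rootsOfUnity, ← Pi.pow_apply, ← map_pow, hcr, Pi.one_apply]
  choose a hza using hz
  let lam : Fin chevE7.rank → ZMod r := fun k => (a k : ZMod r)
  have hlam : lam ≠ 0 := by
    intro h0
    refine hc1 (funext fun k => ?_)
    rw [Pi.one_apply, ← hza, ← zpow_zero ζ, zpow_eq_iff ζ hζ]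
    simpa using congrFun h0 k
  have hcexp : ∀ v < chevE7.nroots, C.chrOf c v = ((ζ ^ fnl E7.fast chevE7 a v : Lˣ) : L) := fun v hv =>
    chrOf_exp C (fun k => (hza k).symm) hv
  have hcexp' : ∀ v < chevE7.nroots, C.chrOf (c ^ q) v = ((ζ ^ ((q : ℤ) * fnl E7.fast chevE7 a v) : Lˣ) : L) := by
    intro v hv
    rw [chrOf_exp C (c := c ^ q) (g := ζ) (e := fun k => a k * q) (fun k => by
      rw [map_pow, Pi.pow_apply, ← hza, ← zpow_natCast, ← zpow_mul]) hv]
    congr 2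
    simp only [fnl, Finset.mul_sum, Int.cast_id]
    exact Finset.sum_congr rfl fun k _ => by ring
  have hq0 : (q : ZMod r) ≠ 0 := by
    intro hq0
    rw [hq0, orderOf_zero] at hord
    omega
  have hone : ∀ v < chevE7.nroots, (C.chrOf c v = 1 ↔ fnl E7.fast chevE7 lam v = 0) ∧
      (C.chrOf (c ^ q) v = 1 ↔ fnl E7.fast chevE7 lam v = 0) := by
    intro v hv
    rw [hcexp v hv, hcexp' v hv]
    constructor <;> rw [Units.val_eq_one, ← zpow_zero ζ, zpow_eq_iff ζ hζ]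
    · rw [cast_fnl, Int.cast_zero]
    · rw [Int.cast_mul, cast_fnl, Int.cast_natCast, Int.cast_zero]
      exact ⟨fun h => (mul_eq_zero.1 h).resolve_left hq0, fun h => by rw [h, mul_zero]⟩
  have hheig : ∀ n ∈ chevE7.monomialSubgroup L,
      (∀ v < chevE7.nroots, C.chrOf (c ^ q) (C.sg n v) = C.chrOf c v) → ∀ v < chevE7.nroots,
        fnl E7.fast chevE7 lam (C.sg n⁻¹ v) = (q : ZMod r) * fnl E7.fast chevE7 lam v := by
    intro n hn hnrel v hv
    have hv' := C.sg_lt (inv_mem hn) hv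
    have h1 := hnrel _ hv'
    rw [C.sg_sg_inv hn hv, hcexp _ hv', hcexp' v hv] at h1
    have h2 := (zpow_eq_iff ζ hζ _ _).1 (Units.ext h1)
    rw [Int.cast_mul, cast_fnl, cast_fnl, Int.cast_natCast] at h2
    exact h2.symm
  set θ := gmap chevE7 σ.toRingHom with hθ
  set n₀ := θ P * P⁻¹ with hn₀
  have hn₀g : n₀ ∈ chevE7.group L := mul_mem (C.gmap_group _ hP) (inv_mem hP)
  have hXfix : θ Xv = Xv := by rw [hθ, hXv, gmap_gmap, hσi]
  have hrel : C.torus (c ^ q) * n₀ = n₀ * C.torus c := by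
    rw [← hgt, ← hc, map_mul, map_mul, map_inv, hXfix, hn₀]; group
  obtain ⟨n, hn, hnrel, hnfix⟩ := decomp_fixed hn₀g hrel
  obtain ⟨a₁, a₂, a₃, T⟩ := (exists_triple (inv_mem hn) hr hlam hord (hheig n hn hnrel)).1
  obtain ⟨l₁, l₂, l₃⟩ := T.h1, T.h2, T.h3
  have hn31 : C.sg n a₃ = a₁ := by rw [← T.n1, C.sg_sg_inv hn l₁]
  have hn23 : C.sg n a₂ = a₃ := by rw [← T.n3, C.sg_sg_inv hn l₃]
  have hn12 : C.sg n a₁ = a₂ ∨ C.sg n a₁ = chevE7.neg a₂ := by
    rcases T.n2 with h | h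
    · left; rw [← h, C.sg_sg_inv hn l₂]
    · right
      have h' := congrArg (C.sg n) h
      rw [C.sg_sg_inv hn l₂, C.sg_neg hn l₁] at h'
      rw [h', C.root.neg_neg' (C.sg_lt hn l₁)]
  obtain ⟨D₁, b₁', hD₁, k1⟩ := phi_conj hn l₃ l₁ (Or.inl hn31)
  obtain ⟨D₂, b₂', hD₂, k2⟩ := phi_conj hn l₂ l₃ (Or.inl hn23)
  obtain ⟨D₃, b₃', hD₃, k3⟩ := phi_conj hn l₁ l₂ hn12
  set φ₁ := phi (L := L) l₁
  set φ₂ := phi (L := L) l₃
  set φ₃ := phi (L := L) l₂
  have h12 : ∀ A B, Commute (φ₁ A) (φ₂ B) := phi_commute l₁ l₃ T.o13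
  have h13 : ∀ A B, Commute (φ₁ A) (φ₃ B) := phi_commute l₁ l₂ T.o12
  have h23 : ∀ A B, Commute (φ₂ A) (φ₃ B) := phi_commute l₃ l₂ (by rw [pair_comm l₃ l₂, T.o23])
  -- the three copies
  obtain ⟨Z₁, Z₂, Z₃, hZ⟩ : ∃ Z₁ Z₂ Z₃, n₀ = φ₁ Z₁ * φ₂ Z₂ * φ₃ Z₃ * n := by
    let Φ : (SL(2, L) × SL(2, L)) × SL(2, L) →* GL chevE7.Idx L :=
      (φ₁.noncommCoprod φ₂ h12).noncommCoprod φ₃ fun A B => (h13 A.1 B).mul_left (h23 A.2 B)
    have hle : fixGrp (c ^ q) ≤ Φ.range := by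
      rw [fixGrp, Subgroup.closure_le]
      rintro _ ⟨v, t, hv, hv1, rfl⟩
      rcases (T.zero v hv).1 ((hone v hv).2.1 hv1) with rfl | rfl | rfl | rfl | rfl | rfl
      · exact ⟨((upT t, 1), 1), by
          show φ₁ (upT t) * φ₂ 1 * φ₃ 1 = _; simp only [map_one, mul_one, one_mul]; exact phi_up l₁ t⟩
      · exact ⟨((loT t, 1), 1), by
          show φ₁ (loT t) * φ₂ 1 * φ₃ 1 = _; simp only [map_one, mul_one, one_mul]; exact phi_lo l₁ t⟩
      · exact ⟨((1, 1), upT t), by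
          show φ₁ 1 * φ₂ 1 * φ₃ (upT t) = _; simp only [map_one, mul_one, one_mul]; exact phi_up l₂ t⟩
      · exact ⟨((1, 1), loT t), by
          show φ₁ 1 * φ₂ 1 * φ₃ (loT t) = _; simp only [map_one, mul_one, one_mul]; exact phi_lo l₂ t⟩
      · exact ⟨((1, upT t), 1), by
          show φ₁ 1 * φ₂ (upT t) * φ₃ 1 = _; simp only [map_one, mul_one, one_mul]; exact phi_up l₃ t⟩
      · exact ⟨((1, loT t), 1), by
          show φ₁ 1 * φ₂ (loT t) * φ₃ 1 = _; simp only [map_one, mul_one, one_mul]; exact phi_lo l₃ t⟩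
    obtain ⟨⟨⟨Z₁, Z₂⟩, Z₃⟩, hZ⟩ := hle hnfix
    refine ⟨Z₁, Z₂, Z₃, ?_⟩
    have : Φ ((Z₁, Z₂), Z₃) = φ₁ Z₁ * φ₂ Z₂ * φ₃ Z₃ := rfl
    rw [← this, hZ, inv_mul_cancel_right]
  set Mq := q ^ 12 - 1 with hMqdef
  have hM0 : 0 < Mq := Nat.sub_pos_of_lt (Nat.one_lt_pow (by norm_num) (by omega))
  obtain ⟨γ, hγ⟩ := IsCyclic.exists_generator (α := Lˣ)
  have hγo : orderOf γ = Mq := by
    rw [orderOf_eq_card_of_forall_mem_zpowers hγ, Nat.card_eq_fintype_card, Fintype.card_units, hL]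
  have hMe : Mq + 1 = q ^ 12 := Nat.sub_add_cancel (Nat.one_le_pow _ _ (by omega))
  -- the cube of Frobenius
  let τ : L ≃+* L := (σ.trans σ).trans σ
  have hτ : ∀ t, τ t = σ (σ (σ t)) := fun t => rfl
  have hτp : ∀ t, τ t = t ^ (q ^ 3) := fun t => by rw [hτ, hσ, hσ, hσ, ← pow_mul, ← pow_mul]; ring_nf
  have h4 : ∀ t, τ (τ (τ (τ t))) = t := fun t => by
    rw [hτp, hτp, hτp, hτp, ← pow_mul, ← pow_mul, ← pow_mul,
      show q ^ 3 * (q ^ 3 * (q ^ 3 * q ^ 3)) = Fintype.card L by rw [hL]; ring, FiniteField.pow_card]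
  have hpow : ∀ e : ℕ, γ ^ e = 1 ↔ Mq ∣ e := fun e => by rw [← hγo, orderOf_dvd_iff_pow_eq_one]
  have hτu : ∀ (k : ℕ), τ ((γ ^ k : Lˣ) : L) = ((γ ^ (k * q ^ 3) : Lˣ) : L) := fun k => by
    rw [hτp, ← Units.val_pow_eq_pow_val, ← pow_mul]
  have hlt : q ^ 3 < q ^ 6 := Nat.pow_lt_pow_right (by omega) (by norm_num)
  have hlt2 : q ^ 6 < q ^ 12 := Nat.pow_lt_pow_right (by omega) (by norm_num)
  have hq3 : 1 < q ^ 3 := Nat.one_lt_pow (by norm_num) (by omega)
  have h2 : ∃ t, τ (τ t) ≠ t := by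
    refine ⟨((γ ^ 1 : Lˣ) : L), fun h => ?_⟩
    rw [hτu, hτu, one_mul, ← pow_add] at h
    have h' := (pow_inj_mod (x := γ)).1 (Units.ext h)
    have h6 : q ^ (3 + 3) < Mq := by
      show q ^ 6 < Mq
      have : 2 * q ^ 6 ≤ q ^ 12 := by
        rw [show q ^ 12 = q ^ 6 * q ^ 6 by ring]; exact Nat.mul_le_mul_right _ (by omega)
      omega
    rw [hγo, Nat.mod_eq_of_lt h6, Nat.mod_eq_of_lt (by omega)] at h'
    have : (3 + 3 : ℕ) = 6 := rfl
    rw [this] at h'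
    omega
  have hnorm : ∀ c' : L, c' ≠ 0 → τ c' = c' → ∃ l, l * τ l * τ (τ l) * τ (τ (τ l)) = c' := by
    intro c' hc' hfix
    obtain ⟨k, hk⟩ := (mem_powers_iff_mem_zpowers (x := γ)).2 (hγ (Units.mk0 c' hc'))
    have hk' : ((γ ^ k : Lˣ) : L) = c' := by
      have := congrArg Units.val hk
      simpa using this
    rw [← hk', hτu] at hfix
    have h1 := (pow_inj_mod (x := γ)).1 (Units.ext hfix)
    rw [hγo] at h1
    have hM : Mq = (1 + q ^ 3 + q ^ 6 + q ^ 9) * (q ^ 3 - 1) := by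
      zify [hq3.le, Nat.one_le_pow 12 q (by omega)] at hMqdef ⊢
      rw [hMqdef]; ring
    have h2 : Mq ∣ k * (q ^ 3 - 1) := by
      rw [Nat.mul_sub_one]
      exact (Nat.modEq_iff_dvd' (Nat.le_mul_of_pos_right k (by omega))).1 h1.symm
    rw [hM] at h2
    obtain ⟨k', hk'2⟩ := Nat.dvd_of_mul_dvd_mul_right (by omega) h2
    refine ⟨((γ ^ k' : Lˣ) : L), ?_⟩
    rw [hτu, hτu, hτu, ← Units.val_mul, ← Units.val_mul, ← Units.val_mul, ← pow_add, ← pow_add, ← pow_add, ← hk']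
    congr 2
    rw [hk'2]; ring
  obtain ⟨t, ht2, ht1⟩ : ∃ t, τ (τ t) = t ∧ τ t ≠ t := by
    refine ⟨((γ ^ (q ^ 6 + 1) : Lˣ) : L), ?_, fun h => ?_⟩
    · rw [hτu, hτu]
      refine congrArg Units.val (pow_inj_mod.2 ?_)
      rw [hγo]
      refine Nat.ModEq.symm ((Nat.modEq_iff_dvd' ?_).2 ⟨1, ?_⟩)
      · rw [mul_assoc]; exact Nat.le_mul_of_pos_right _ (by positivity)
      · zify [Nat.le_mul_of_pos_right (q ^ 6 + 1) (show 0 < q ^ 3 * q ^ 3 by positivity),
          Nat.one_le_pow 12 q (by omega)] at hMqdef ⊢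
        rw [mul_one, hMqdef, Nat.cast_sub (by rw [mul_assoc]; exact Nat.le_mul_of_pos_right _ (by positivity))]
        push_cast; ring
    · rw [hτu] at h
      have h' := (pow_inj_mod (x := γ)).1 (Units.ext h)
      rw [hγo] at h'
      have h3 := (Nat.modEq_iff_dvd' (Nat.le_mul_of_pos_right _ (by positivity))).1 (Eq.symm h')
      have h5 := Nat.le_of_dvd (by
        rw [tsub_pos_iff_lt]; exact lt_mul_of_one_lt_right (by positivity) hq3) h3
      have h6 : (q ^ 6 + 1) * q ^ 3 - (q ^ 6 + 1) < Mq := by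
        zify [Nat.le_mul_of_pos_right (q ^ 6 + 1) (show 0 < q ^ 3 by positivity),
          Nat.one_le_pow 12 q (by omega)] at hMqdef ⊢
        have : (q : ℤ) ^ 3 < (q : ℤ) ^ 6 := by exact_mod_cast hlt
        have h0 : (0 : ℤ) ≤ (q : ℤ) ^ 6 := by positivity
        rw [hMqdef]
        nlinarith
      omega
  have hiter : ∀ (k : ℕ) y, (fun y => n₀⁻¹ * θ y * n₀)^[k] y = P * (⇑θ)^[k] (P⁻¹ * y * P) * P⁻¹ := by
    intro k y
    induction k with
    | zero => simp [mul_assoc]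
    | succ k ih =>
      rw [Function.iterate_succ_apply', Function.iterate_succ_apply', ih, hn₀, map_mul, map_mul, map_inv]
      group
  have hθk : ∀ (k : ℕ) (A : GL chevE7.Idx L) u v,
      (((⇑θ)^[k] A : GL chevE7.Idx L) : Matrix chevE7.Idx chevE7.Idx L) u v =
        (A : Matrix chevE7.Idx chevE7.Idx L) u v ^ (q ^ k) := by
    intro k A u v
    induction k with
    | zero => simp
    | succ k ih =>
      rw [Function.iterate_succ_apply', pow_succ, pow_mul, ← ih]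
      exact hσ _
  have hper : ∀ y, (fun y => n₀⁻¹ * θ y * n₀)^[12] y = y := fun y => by
    have : (⇑θ)^[12] (P⁻¹ * y * P) = P⁻¹ * y * P :=
      Units.ext (by ext u v; rw [hθk, ← hL, FiniteField.pow_card])
    rw [hiter, this]; group
  obtain ⟨g₁, g₂, g₃, m, bb, hbb, hn'eq, cc, hcc⟩ := exists_frame σ τ hτ h4 h2 hnorm ht2 ht1 θ φ₁ φ₂ φ₃ h12 h13 h23
    (phi_gmap σ l₁) (phi_gmap σ l₃) (phi_gmap σ l₂) (phi_XY l₁) n n₀ D₁ D₂ D₃ hD₁ hD₂ hD₃ k1 k2 k3 Z₁ Z₂ Z₃ hZ hper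
  set gg := φ₁ g₁ * φ₂ g₂ * φ₃ g₃ with hgg
  set n' := φ₃ m * n with hn'def
  have hn' : n' ∈ chevE7.monomialSubgroup L := mul_mem (phi_mono l₂ hbb) hn
  have hggG : gg ∈ chevE7.group L :=
    mul_mem (mul_mem (phi_mem_group l₁ _) (phi_mem_group l₃ _)) (phi_mem_group l₂ _)
  have hggc : gg * C.torus c = C.torus c * gg := by
    have key : ∀ {v : ℕ} (hv : v < chevE7.nroots), fnl E7.fast chevE7 lam v = 0 → ∀ S : SL(2, L),
        Commute (C.torus c) (phi hv S) := by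
      intro v hv hz S
      have hz' : fnl E7.fast chevE7 lam (chevE7.neg v) = 0 := by rw [fnl_neg' lam hv, hz, neg_zero]
      have hx : ∀ w < chevE7.nroots, fnl E7.fast chevE7 lam w = 0 → ∀ u, Commute (C.torus c) (C.xg w u) := by
        intro w hw hw0 u
        have := C.torus_xg c hw u
        rw [(hone w hw).1.2 hw0, one_mul] at this
        exact mul_inv_eq_iff_eq_mul.1 this
      exact range_le (f := phi hv) (K := Subgroup.centralizer {C.torus c}) (fun u => by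
        rw [Subgroup.mem_centralizer_iff]; rintro _ rfl; rw [phi_up]; exact hx v hv hz u) (fun u => by
        rw [Subgroup.mem_centralizer_iff]; rintro _ rfl; rw [phi_lo]; exact hx _ (C.root.neg_lt v hv) hz' u) S _ rfl
    exact (((key l₁ ((T.zero _ l₁).2 (by simp)) g₁).mul_right (key l₃ ((T.zero _ l₃).2 (by simp)) g₂)).mul_right
      (key l₂ ((T.zero _ l₂).2 (by simp)) g₃)).eq.symm
  set P' := gg⁻¹ * P with hP'def
  have hP' : P' ∈ chevE7.group L := mul_mem (inv_mem hggG) hP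
  have hnP : θ P' * P'⁻¹ = n' := by
    rw [← hn'eq, hP'def, hn₀, map_mul, map_inv]; group
  have hcP : P' * Xv * P'⁻¹ = C.torus c := by
    calc P' * Xv * P'⁻¹ = gg⁻¹ * (P * Xv * P⁻¹) * gg := by rw [hP'def]; group
      _ = _ := by rw [hc, mul_assoc, ← hggc, inv_mul_cancel_left]
  have hrel' : C.torus (c ^ q) * n' = n' * C.torus c := by
    rw [← hgt, ← hcP, map_mul, map_mul, map_inv, hXfix, ← hnP]; group
  have heig' := hheig n' hn' ((mono_torus_iff C hn' c (c ^ q)).1 hrel'.symm)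
  obtain ⟨⟨b₁, b₂, b₃, T'⟩, hfin⟩ := exists_triple (inv_mem hn') hr hlam hord heig'
  obtain ⟨m₁, m₂, m₃⟩ := T'.h1, T'.h2, T'.h3
  have hp31 : C.sg n' b₃ = b₁ := by rw [← T'.n1, C.sg_sg_inv hn' m₁]
  have hp23 : C.sg n' b₂ = b₃ := by rw [← T'.n3, C.sg_sg_inv hn' m₃]
  have hn'3 : n' * n' * n' ∈ chevE7.monomialSubgroup L := mul_mem (mul_mem hn' hn') hn'
  have hcube : C.sg (n' * n' * n') a₁ = chevE7.neg a₁ := by
    obtain ⟨e, he, hee⟩ := C.sg_conj (F := L) hn'3 l₁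
    have h5 : n' * n' * n' * C.xg a₁ 1 * (n' * n' * n')⁻¹ = C.xg (chevE7.neg a₁) cc := by
      rw [← phi_up l₁, ← phi_lo l₁]; exact hcc
    rw [hee] at h5
    by_contra hne
    exact mul_ne_zero he one_ne_zero (C.eq_zero_of_xg_eq (C.sg_lt hn'3 l₁) (C.root.neg_lt _ l₁) hne h5)
  have hf3 : ∀ v < chevE7.nroots, C.sg (n' * n' * n') v = C.sg n' (C.sg n' (C.sg n' v)) := fun v hv => by
    rw [C.sg_mul (mul_mem hn' hn') hn' hv, C.sg_mul hn' hn' (C.sg_lt hn' hv)]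
  have hneg2 : C.sg n'⁻¹ b₂ = chevE7.neg b₁ := by
    refine T'.n2.resolve_left fun hpos => C.root.neg_ne l₁ ?_
    have hp12 : C.sg n' b₁ = b₂ := by rw [← hpos, C.sg_sg_inv hn' m₂]
    rw [← hcube]
    rcases (T'.zero a₁ l₁).1 ((T.zero a₁ l₁).2 (by simp)) with h | h | h | h | h | h <;> rw [h, hf3 _ (by
      first | exact m₁ | exact m₂ | exact m₃ | exact C.root.neg_lt _ m₁ | exact C.root.neg_lt _ m₂ |
        exact C.root.neg_lt _ m₃)] <;>
      simp only [C.sg_neg hn' m₁, C.sg_neg hn' m₂, C.sg_neg hn' m₃, hp12, hp23, hp31]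
  have hp12' : C.sg n' b₁ = chevE7.neg b₂ := by
    have h' := congrArg (C.sg n') hneg2
    rw [C.sg_sg_inv hn' m₂, C.sg_neg hn' m₁] at h'
    rw [h', C.root.neg_neg' (C.sg_lt hn' m₁)]
  have z₁ : fnl E7.fast chevE7 lam b₁ = 0 := (T'.zero _ m₁).2 (by simp)
  obtain ⟨hchar, h0, hpar⟩ := hfin b₁ b₂ b₃ m₁ m₂ m₃ T'.n1 T'.n3 hneg2 z₁ T'.o12 T'.o13 T'.o23
  set M := wMat C n'⁻¹ with hMdef
  -- the lattice
  set N := (q ^ 4 - q ^ 2 + 1) * (q ^ 3 + 1) with hNdef
  set K := (q ^ 3 - 1) * (q ^ 2 + 1) with hKdef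
  have hN : pT.eval (q : ℤ) = (N : ℤ) := by
    rw [hNdef, Nat.cast_mul, E6Cyclic.cast_expr]
    simp [pT, p12]
  have hq2' : q ^ 2 ≤ q ^ 4 := Nat.pow_le_pow_right (by omega) (by norm_num)
  have hNK : N * K = Mq := by
    zify [hq3.le, Nat.one_le_pow 12 q (by omega)] at hMqdef ⊢
    rw [hNdef, hKdef, hMqdef]
    push_cast [hq2', hq3.le]
    ring
  have hNM : N ∣ Mq := Dvd.intro _ hNK
  have hN0 : 0 < N := Nat.pos_of_dvd_of_pos hNM hM0
  have hp : ∀ p : ℕ, p.Prime → p ∣ N →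
      (derivative (pT.map (Int.castRingHom (ZMod p)))).eval (q : ZMod p) ≠ 0 ∨ ¬ p ^ 2 ∣ N ∨
        ∀ g : ℤ[X], pT - Polynomial.C (N : ℤ) = (Polynomial.X - Polynomial.C (q : ℤ)) * g →
          ∃ u v, ¬ (p : ℤ) ∣ aeval M g u v := by
    intro p hpp hpN
    have := Fact.mk hpp
    have hev : (pT.map (Int.castRingHom (ZMod p))).eval (q : ZMod p) = 0 := by
      rw [eval_map, ← Int.cast_natCast q, ← eq_intCast (Int.castRingHom (ZMod p)), eval₂_at_apply, hN]
      simpa using (ZMod.natCast_eq_zero_iff N p).2 hpN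
    rcases eq_or_ne p 3 with rfl | hp3
    · refine Or.inr (Or.inr fun g hg => ?_)
      have hq : (q : ZMod 3) = -1 := by
        refine mod_three_seven _ ?_
        simpa [pT, p12] using hev
      exact three_ne (inv_mem hn') m₁ m₂ m₃ T'.n1 T'.n3 hneg2 T'.o12 T'.o13 hq
        ((ZMod.natCast_eq_zero_iff N 3).2 hpN) g hg
    · exact Or.inl (simple_pT hp3 hev)
  obtain ⟨w, hwo, hwker, hwgen⟩ := exists_generator' (by rw [rank_E7]; norm_num) M hchar h0 hN hNM hM0 hp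
  obtain ⟨ew, hew⟩ : ∃ ew : Fin chevE7.rank → ℤ, ∀ k, (ew k : ZMod Mq) = w k :=
    ⟨fun k => (w k).cast, fun k => ZMod.intCast_zmod_cast _⟩
  have htwo : ∀ k, ∃ e : ℤ, ((2 * e : ℤ) : ZMod Mq) = w k := by
    intro k
    rcases Nat.even_or_odd q with hev | hod
    · have hco : IsCoprime (2 : ℤ) (Mq : ℤ) := by
        refine (Int.prime_two.coprime_iff_not_dvd).2 fun h => ?_
        have h1 : 2 ∣ Mq := by exact_mod_cast h
        have h2 : 2 ∣ q ^ 12 := hev.two_dvd.trans (dvd_pow_self q (by norm_num))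
        omega
      obtain ⟨s, t', hst⟩ := hco
      refine ⟨s * ew k, ?_⟩
      rw [← hew, ← sub_eq_zero, ← Int.cast_sub, ZMod.intCast_zmod_eq_zero_iff_dvd]
      exact ⟨-(t' * ew k), by linear_combination ew k * hst⟩
    · have h1 : (Mq : ℤ) ∣ N * ew k := by
        rw [← ZMod.intCast_zmod_eq_zero_iff_dvd]
        have h2 := congrFun (addOrderOf_nsmul_eq_zero w) k
        rw [hwo, Pi.smul_apply, nsmul_eq_mul, ← hew] at h2
        push_cast
        exact h2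
      rw [← hNK, Nat.cast_mul] at h1
      have hK2 : (2 : ℤ) ∣ (K : ℤ) := by
        have h3 : 2 ∣ K := Dvd.dvd.mul_right (Nat.Odd.sub_odd (hod.pow (n := 3)) odd_one).two_dvd _
        exact_mod_cast h3
      obtain ⟨e, he⟩ := hK2.trans ((mul_dvd_mul_iff_left (by exact_mod_cast hN0.ne')).1 h1)
      exact ⟨e, by rw [← he, hew]⟩
  choose e2 he2 using htwo
  obtain ⟨c₁, hc₁⟩ : ∃ c₁, ∀ k, C.cartanMap c₁ k = (γ ^ e2 k) ^ 2 := by
    obtain ⟨y, hy⟩ := E6Cyclic.exists_cartan C (fun k => γ ^ e2 k) bMat7 ((2 : ℤ) • 1) (by decide +kernel)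
    refine ⟨y, fun j => ?_⟩
    rw [hy, Finset.prod_eq_single j (fun k _ hk => by simp [hk]) (by simp)]
    simp only [Matrix.smul_apply, Matrix.one_apply_eq, smul_eq_mul, mul_one]
    exact zpow_natCast (γ ^ e2 j) 2
  have hc₁' : ∀ k, C.cartanMap c₁ k = γ ^ ew k := fun k => by
    rw [hc₁, ← zpow_natCast, ← zpow_mul, zpow_eq_iff γ hγo, hew, ← he2]
    push_cast
    ring
  have hfixiff : ∀ (e : Fin chevE7.rank → ℤ) (c₂ : Fin chevE7.rank → Lˣ), (∀ k, C.cartanMap c₂ k = γ ^ e k) →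
      (θ (P'⁻¹ * C.torus c₂ * P') = P'⁻¹ * C.torus c₂ * P' ↔
        ((Matrix.scalar (Fin chevE7.rank) (q : ℤ) - wMat C n'⁻¹).map (Int.cast : ℤ → ZMod Mq)).mulVec
          (fun k => (e k : ZMod Mq)) = 0) := by
    intro e c₂ he
    have h1 : θ (P'⁻¹ * C.torus c₂ * P') = P'⁻¹ * C.torus c₂ * P' ↔
        n' * C.torus c₂ = C.torus (c₂ ^ q) * n' := by
      rw [map_mul, map_mul, map_inv, hθ, hgt, ← hθ, ← hnP]
      constructor <;> intro h3
      · calc θ P' * P'⁻¹ * C.torus c₂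
            = θ P' * (P'⁻¹ * C.torus c₂ * P') * P'⁻¹ := by group
          _ = _ := by rw [← h3]; group
      · calc (θ P')⁻¹ * C.torus (c₂ ^ q) * θ P'
            = (θ P')⁻¹ * (C.torus (c₂ ^ q) * (θ P' * P'⁻¹)) * P' := by group
          _ = _ := by rw [← h3]; group
    rw [h1, mono_torus_iff C hn', mulVec_eq_zero_iff C hn']
    refine forall₂_congr fun v hv => ?_
    rw [chrOf_exp C he hv, chrOf_exp C (c := c₂ ^ q) (g := γ) (e := fun k => e k * q) (fun k => by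
      rw [map_pow, Pi.pow_apply, he, ← zpow_natCast, ← zpow_mul]) (C.sg_lt hn' hv), Units.val_inj,
      zpow_eq_iff γ hγo, cast_fnl, cast_fnl, eq_comm]
    refine Eq.congr rfl ?_
    simp only [fnl, Finset.mul_sum]
    exact Finset.sum_congr rfl fun k _ => by push_cast; ring
  set y₀ := P'⁻¹ * C.torus c₁ * P' with hy₀
  have hy₀g : y₀ ∈ chevE7.group L :=
    mul_mem (mul_mem (inv_mem hP') (C.diag_le_group (C.torus_mem c₁))) hP'
  obtain ⟨a₀, ha₀⟩ := E6Cyclic.exists_gmap_of_fixed (D := chevE7) i σ.toRingHom hi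
    ((hfixiff ew c₁ hc₁').2 (by rw [funext hew]; exact hwker))
  have ha₀' : gmap chevE7 i a₀ = y₀ := ha₀
  have hord1 : orderOf a₀ = N := by
    rw [← orderOf_injective (gmap chevE7 i) (gmap_injective i), ha₀', hy₀]
    have h1 : orderOf (P'⁻¹ * C.torus c₁ * P') = orderOf (C.torus c₁) := by
      have := orderOf_injective (MulAut.conj P'⁻¹).toMonoidHom (MulAut.conj P'⁻¹).injective (C.torus c₁)
      simpa using this
    rw [h1, ← hwo]
    have hpw : ∀ j : ℕ, C.torus c₁ ^ j = 1 ↔ j • w = 0 := by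
      intro j
      rw [show C.torus c₁ ^ j = C.torus (c₁ ^ j) from (map_pow C.torusHom c₁ j).symm, C.torus_eq_one_iff, map_pow]
      simp only [funext_iff, Pi.pow_apply, Pi.one_apply, hc₁', Pi.smul_apply, Pi.zero_apply]
      refine forall_congr' fun k => ?_
      rw [← zpow_natCast, ← zpow_mul, ← zpow_zero γ, zpow_eq_iff γ hγo, nsmul_eq_mul, ← hew]
      push_cast
      rw [mul_comm]
    refine Nat.dvd_antisymm (orderOf_dvd_of_pow_eq_one ((hpw _).2 (addOrderOf_nsmul_eq_zero w)))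
      (addOrderOf_dvd_of_nsmul_eq_zero ((hpw _).1 (pow_orderOf_eq_one _)))
  have hXP : Xv = P'⁻¹ * C.torus c * P' := by rw [← hcP]; group
  have hcx : ∀ (c₂ : Fin chevE7.rank → Lˣ) (b : GL chevE7.Idx F), gmap chevE7 i b = P'⁻¹ * C.torus c₂ * P' →
      b * x = x * b ∧ b * a₀ = a₀ * b := by
    intro c₂ b hb
    have key : ∀ c₃, P'⁻¹ * C.torus c₂ * P' * (P'⁻¹ * C.torus c₃ * P') =
        P'⁻¹ * C.torus c₃ * P' * (P'⁻¹ * C.torus c₂ * P') := fun c₃ => by
      calc P'⁻¹ * C.torus c₂ * P' * (P'⁻¹ * C.torus c₃ * P') = P'⁻¹ * (C.torus c₂ * C.torus c₃) * P' := by group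
        _ = P'⁻¹ * (C.torus c₃ * C.torus c₂) * P' := by rw [C.diag_comm (C.torus_mem c₂) (C.torus_mem c₃)]
        _ = _ := by group
    constructor <;> refine gmap_injective i ?_ <;> rw [map_mul, map_mul, hb]
    · rw [← hXv, hXP]; exact key c
    · rw [ha₀', hy₀]; exact key c₁
  set g := Nat.gcd 2 (q - 1) with hgdef
  -- the values on the six roots
  set U : ℕ → ZMod Mq := fun v => (g : ZMod Mq) * fnl E7.fast chevE7 w v with hU
  have hwrel := (mulVec_eq_zero_iff C hn' q w).1 hwker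
  have hUrel : ∀ v < chevE7.nroots, U v = (q : ZMod Mq) * U (C.sg n' v) := fun v hv => by
    rw [hU]; dsimp only; rw [hwrel v hv]; ring
  have hUneg : ∀ v < chevE7.nroots, U (chevE7.neg v) = -U v := fun v hv => by
    rw [hU]; dsimp only; rw [fnl_neg' w hv, mul_neg]
  have hrot : ∀ v₁ v₂ v₃ : ℕ, v₁ < chevE7.nroots → v₂ < chevE7.nroots → v₃ < chevE7.nroots →
      C.sg n' v₁ = v₃ → C.sg n' v₃ = v₂ → C.sg n' v₂ = chevE7.neg v₁ →
      pair chevE7 v₁ v₂ = 0 → pair chevE7 v₂ v₃ = 0 →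
      U v₂ ≠ 0 ∧ ∀ v, Six v₁ v₂ v₃ v → U v = U v₂ → v = v₂ := by
    intro v₁ v₂ v₃ u₁ u₂ u₃ e1 e3 e2 o12 o23
    have hs : ((q ^ 4 - q ^ 2 + 1) * K) * (q ^ 3 + 1) = Mq := by rw [← hNK, hNdef]; ring
    have hne : ∀ k : ℤ, k = 1 ∨ k = 2 ∨ k = (q : ℤ) - 1 ∨ k = (q : ℤ) + 1 ∨ k = (q : ℤ) ^ 2 - 1 ∨
        k = (q : ℤ) ^ 2 + 1 → (k : ZMod Mq) * U v₂ ≠ 0 := by
      intro k hk h0
      refine small_dvd hq2 hgdef hk (value_dvd hn' u₁ u₂ u₃ e1 e3 e2 o12 o23 hs
        (Nat.pos_of_mul_pos_right (hs.symm ▸ hM0)) w hwgen (k * g) ?_)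
      rw [← h0, hU]; push_cast; ring
    have h3 : U v₃ = (q : ZMod Mq) * U v₂ := by rw [hUrel v₃ u₃, e3]
    have h1 : U v₁ = (q : ZMod Mq) ^ 2 * U v₂ := by rw [hUrel v₁ u₁, e1, h3]; ring
    refine ⟨fun h => hne 1 (by simp) (by simpa using h), fun v hv he => ?_⟩
    rcases hv with rfl | rfl | rfl | rfl | rfl | rfl
    · rw [h1] at he
      exact absurd (by push_cast; linear_combination he) (hne ((q : ℤ) ^ 2 - 1) (by simp))
    · rw [hUneg _ u₁, h1] at he
      exact absurd (by push_cast; linear_combination -he) (hne ((q : ℤ) ^ 2 + 1) (by simp))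
    · rfl
    · rw [hUneg _ u₂] at he
      exact absurd (by push_cast; linear_combination -he) (hne 2 (by simp))
    · rw [h3] at he
      exact absurd (by push_cast; linear_combination he) (hne ((q : ℤ) - 1) (by simp))
    · rw [hUneg _ u₃, h3] at he
      exact absurd (by push_cast; linear_combination -he) (hne ((q : ℤ) + 1) (by simp))
  have hnn : ∀ v < chevE7.nroots, chevE7.neg (chevE7.neg v) = v := fun v hv => C.root.neg_neg' hv
  have r1 := hrot b₂ b₁ b₃ m₂ m₁ m₃ hp23 hp31 hp12' (by rw [pair_comm m₂ m₁, T'.o12]) T'.o13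
  have r2 := hrot (chevE7.neg b₁) b₃ b₂ (C.root.neg_lt _ m₁) m₃ m₂ (by rw [C.sg_neg hn' m₁, hp12', hnn _ m₂]) hp23
    (by rw [hp31, hnn _ m₁]) (by rw [pair_neg_left m₁ m₃, T'.o13, neg_zero]) (by rw [pair_comm m₃ m₂, T'.o23])
  have r3 := hrot (chevE7.neg b₃) b₂ (chevE7.neg b₁) (C.root.neg_lt _ m₃) m₂ (C.root.neg_lt _ m₁)
    (by rw [C.sg_neg hn' m₃, hp31]) (by rw [C.sg_neg hn' m₁, hp12', hnn _ m₂]) (by rw [hp23, hnn _ m₃])
    (by rw [pair_neg_left m₃ m₂, pair_comm m₃ m₂, T'.o23, neg_zero])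
    (by rw [C.pair_neg m₁, pair_comm m₂ m₁, T'.o12, neg_zero])
  have hsix : ∀ v < chevE7.nroots, fnl E7.fast chevE7 lam v = 0 →
      Six b₂ b₁ b₃ v ∧ Six (chevE7.neg b₁) b₃ b₂ v ∧ Six (chevE7.neg b₃) b₂ (chevE7.neg b₁) v := by
    intro v hv hv0
    have := (T'.zero v hv).1 hv0
    simp only [Six, hnn _ m₁, hnn _ m₃]
    rcases this with h | h | h | h | h | h <;> simp only [h, eq_self_iff_true, true_or, or_true, and_self]
  refine ⟨a₀, ha₀' ▸ hy₀g, hord1, (hcx c₁ a₀ ha₀').1, fun b hb hbx hba => ?_, fun hg2 haG => ?_⟩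
  · obtain ⟨Gi, hGi⟩ : ∃ Gi, Gi = gmap chevE7 i b := ⟨_, rfl⟩
    set mm := P' * Gi * P'⁻¹ with hmm
    have hmG : mm ∈ chevE7.group L := mul_mem (mul_mem hP' (hGi ▸ hb)) (inv_mem hP')
    have hGc : Gi * Xv = Xv * Gi := by rw [hXv, hGi, ← map_mul, ← map_mul, hbx]
    have hGa : Gi * y₀ ^ g = y₀ ^ g * Gi := by rw [← ha₀', ← map_pow, hGi, ← map_mul, ← map_mul, hba]
    have hcomm : C.torus c * mm = mm * C.torus c := by
      rw [← hcP, hmm]
      calc P' * Xv * P'⁻¹ * (P' * Gi * P'⁻¹) = P' * (Xv * Gi) * P'⁻¹ := by group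
        _ = P' * (Gi * Xv) * P'⁻¹ := by rw [hGc]
        _ = _ := by group
    have hcg : C.torus (c₁ ^ g) = P' * y₀ ^ g * P'⁻¹ := by
      rw [show C.torus (c₁ ^ g) = C.torus c₁ ^ g from map_pow C.torusHom c₁ g, ← conj_pow, hy₀]
      congr 1
      group
    have hcomm' : C.torus (c₁ ^ g) * mm = mm * C.torus (c₁ ^ g) := by
      rw [hcg, hmm]
      calc P' * y₀ ^ g * P'⁻¹ * (P' * Gi * P'⁻¹) = P' * (y₀ ^ g * Gi) * P'⁻¹ := by group
        _ = P' * (Gi * y₀ ^ g) * P'⁻¹ := by rw [hGa]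
        _ = _ := by group
    have hexpg : ∀ v < chevE7.nroots,
        C.chrOf (c₁ ^ g) v = ((γ ^ fnl E7.fast chevE7 (fun k => ew k * g) v : Lˣ) : L) := fun v hv =>
      chrOf_exp C (fun k => by rw [map_pow, Pi.pow_apply, hc₁', ← zpow_natCast, ← zpow_mul]) hv
    have hcastU : ∀ v, ((fnl E7.fast chevE7 (fun k => ew k * g) v : ℤ) : ZMod Mq) = U v := fun v => by
      rw [cast_fnl, hU]
      simp only [fnl, Finset.mul_sum]
      exact Finset.sum_congr rfl fun k _ => by rw [← hew]; push_cast; ring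
    have hU0 : ∀ v < chevE7.nroots, fnl E7.fast chevE7 lam v = 0 → C.chrOf (c₁ ^ g) v ≠ 1 := by
      intro v hv hv0 h1
      rw [hexpg v hv, Units.val_eq_one, ← zpow_zero γ, zpow_eq_iff γ hγo, hcastU, Int.cast_zero] at h1
      rcases (T'.zero v hv).1 hv0 with rfl | rfl | rfl | rfl | rfl | rfl
      · exact r1.1 h1
      · exact r1.1 (by rwa [hUneg _ m₁, neg_eq_zero] at h1)
      · exact r3.1 h1
      · exact r3.1 (by rwa [hUneg _ m₂, neg_eq_zero] at h1)
      · exact r2.1 h1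
      · exact r2.1 (by rwa [hUneg _ m₃, neg_eq_zero] at h1)
    have hexist : ∀ v, chevE7.IsPosRoot v → ∃ p ∈ ({(c, c), (c₁ ^ g, c₁ ^ g)} :
        Set ((Fin chevE7.rank → Lˣ) × (Fin chevE7.rank → Lˣ))), p.1 = p.2 ∧ C.chrOf p.1 v ≠ 1 := by
      intro v hv
      by_cases h : fnl E7.fast chevE7 lam v = 0
      · exact ⟨_, Or.inr rfl, rfl, hU0 v hv.1 h⟩
      · exact ⟨_, Or.inl rfl, rfl, fun h1 => h ((hone v hv.1).1.1 h1)⟩
    have hmono : mm ∈ chevE7.monomialSubgroup L := by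
      refine E7SixtyFive.mono_of_pairs C hmG {(c, c), (c₁ ^ g, c₁ ^ g)} ?_ ?_ ?_
      · rintro p (rfl | rfl)
        · exact hcomm
        · exact hcomm'
      · intro v hv
        obtain ⟨p, hp1, -, hp3⟩ := hexist v hv
        exact ⟨p, hp1, hp3⟩
      · intro v hv
        obtain ⟨p, hp1, hp2, hp3⟩ := hexist v hv
        exact ⟨p, hp1, hp2 ▸ hp3⟩
    have hlamfix : ∀ v < chevE7.nroots, fnl E7.fast chevE7 lam (C.sg mm v) = fnl E7.fast chevE7 lam v := by
      intro v hv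
      have h1 := (mono_torus_iff C hmono c c).1 hcomm.symm v hv
      rw [hcexp v hv, hcexp _ (C.sg_lt hmono hv)] at h1
      have h2 := (zpow_eq_iff ζ hζ _ _).1 (Units.ext h1)
      rwa [cast_fnl, cast_fnl] at h2
    have hUfix : ∀ v < chevE7.nroots, U (C.sg mm v) = U v := by
      intro v hv
      have h1 := (mono_torus_iff C hmono _ _).1 hcomm'.symm v hv
      rw [hexpg v hv, hexpg _ (C.sg_lt hmono hv)] at h1
      have h2 := (zpow_eq_iff γ hγo _ _).1 (Units.ext h1)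
      rwa [hcastU, hcastU] at h2
    have f1 : C.sg mm b₁ = b₁ := r1.2 _ (hsix _ (C.sg_lt hmono m₁) (by rw [hlamfix _ m₁, z₁])).1 (hUfix _ m₁)
    have f3 : C.sg mm b₃ = b₃ := r2.2 _ (hsix _ (C.sg_lt hmono m₃)
      (by rw [hlamfix _ m₃]; exact (T'.zero _ m₃).2 (by simp))).2.1 (hUfix _ m₃)
    have f2 : C.sg mm b₂ = b₂ := r3.2 _ (hsix _ (C.sg_lt hmono m₂)
      (by rw [hlamfix _ m₂]; exact (T'.zero _ m₂).2 (by simp))).2.2 (hUfix _ m₂)
    obtain ⟨bv, hh, hh0, -, -, hmod, hzero, hinv⟩ :=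
      E6Cyclic.exists_avg (F := L) C (by rw [rank_E7]; omega) hlam
    set B : Fin chevE7.rank → ℤ := fun k => 7 * bv k + (pairE b₁ k + pairE b₂ k + pairE b₃ k) with hB
    have hfB : ∀ v < chevE7.nroots, fnl E7.fast chevE7 B v =
        7 * fnl E7.fast chevE7 bv v + (pair chevE7 b₁ v + pair chevE7 b₂ v + pair chevE7 b₃ v) := by
      intro v hv
      rw [← fnl_pairE b₁ hv, ← fnl_pairE b₂ hv, ← fnl_pairE b₃ hv]
      simp only [fnl, hB, Finset.mul_sum, ← Finset.sum_add_distrib]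
      exact Finset.sum_congr rfl fun j _ => by ring
    have hdiag : mm ∈ chevE7.diagonalSubgroup L := by
      refine C.mem_diag_of_sg hmono fun v hv => fix_of_regular hmono B (fun v hv => ?_) (fun v hv => ?_) hv
      · rw [hfB v hv]
        by_cases hv0 : fnl E7.fast chevE7 lam v = 0
        · rw [hzero v hv hv0]
          have o := pair_comm m₁ m₂
          have o' := pair_comm m₁ m₃
          have o'' := pair_comm m₂ m₃
          rcases (T'.zero v hv).1 hv0 with rfl | rfl | rfl | rfl | rfl | rfl <;>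
            simp [C.pair_self, C.pair_neg, m₁, m₂, m₃, T'.o12, T'.o13, T'.o23, ← o, ← o', ← o'']
        · have h7 : fnl E7.fast chevE7 bv v ≠ 0 := fun h => by
            have := hmod v hv
            rw [h, Int.cast_zero] at this
            exact hv0 ((mul_eq_zero.1 this.symm).resolve_left hh0)
          have t1 := ((tbl m₁).1 v hv); have t2 := ((tbl m₂).1 v hv); have t3 := ((tbl m₃).1 v hv)
          omega
      · have hv' := C.sg_lt hmono hv
        rw [hfB _ hv', hfB v hv, hinv mm hmono hlamfix v hv]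
        have q1 := C.pair_sg hmono m₁ hv
        have q2 := C.pair_sg hmono m₂ hv
        have q3 := C.pair_sg hmono m₃ hv
        rw [f1] at q1; rw [f2] at q2; rw [f3] at q3
        rw [q1, q2, q3]
    obtain ⟨c₂, hc₂⟩ := C.exists_torus hdiag
    obtain ⟨e, he⟩ := exists_exp hγ (C.cartanMap c₂)
    have hG : Gi = P'⁻¹ * C.torus c₂ * P' := by rw [hc₂, hmm]; group
    have hker := (hfixiff e c₂ he).1 (by rw [← hG, hθ, hGi, gmap_gmap, hσi])
    obtain ⟨j, hj⟩ := AddSubgroup.mem_zmultiples_iff.1 (hwgen _ hker)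
    refine Subgroup.mem_zpowers_iff.2 ⟨j, gmap_injective i ?_⟩
    rw [map_zpow, ha₀', ← hGi, hG, hy₀]
    have hz : (P'⁻¹ * C.torus c₁ * P') ^ j = P'⁻¹ * C.torus c₁ ^ j * P' := by
      have := conj_zpow (a := P'⁻¹) (b := C.torus c₁) (i := j)
      simpa using this
    rw [hz, show C.torus c₁ ^ j = C.torus c₂ from ?_]
    rw [show C.torus c₁ ^ j = C.torus (c₁ ^ j) from (map_zpow C.torusHom c₁ j).symm, ← mul_inv_eq_one]
    show C.torusHom _ * (C.torusHom _)⁻¹ = 1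
    rw [← map_inv, ← map_mul]
    refine (C.torus_eq_one_iff _).2 ?_
    rw [map_mul, map_inv, mul_inv_eq_one]
    funext k
    rw [map_zpow, Pi.pow_apply, hc₁', he, ← zpow_mul, zpow_eq_iff γ hγo]
    have := congrFun hj k
    rw [Pi.smul_apply, zsmul_eq_mul, ← hew] at this
    push_cast
    rw [mul_comm]; exact this
  · have hod : Odd q := by
      rcases Nat.even_or_odd q with h | h
      · have h2 : 2 ∣ q - 1 := hg2 ▸ Nat.gcd_dvd_right 2 (q - 1)
        obtain ⟨k, hk⟩ := h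
        omega
      · exact h
    obtain ⟨K2, hK2⟩ : 2 ∣ K := Dvd.dvd.mul_right (Nat.Odd.sub_odd (hod.pow (n := 3)) odd_one).two_dvd _
    have hhalf : 2 * (N * K2) = Mq := by rw [← hNK, hK2]; ring
    have hu : (γ ^ ((q ^ 4 - q ^ 2 + 1) * K2)) ^ (q ^ 3 + 1) = γ ^ (N * K2) := by
      rw [← pow_mul, hNdef]; ring_nf
    have hne1 : γ ^ (N * K2) ≠ 1 := by
      rw [ne_eq, hpow]
      intro h
      have := Nat.le_of_dvd (by omega) h
      omega
    have hneg : γ ^ (N * K2) = -1 := by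
      have h1 : (γ ^ (N * K2)) * γ ^ (N * K2) = 1 := by rw [← pow_add, hpow, ← two_mul, hhalf]
      have h2 := congrArg Units.val h1
      rw [Units.val_mul, Units.val_one] at h2
      rcases mul_self_eq_one_iff.1 h2 with h | h
      · exact absurd (Units.ext h) hne1
      · exact Units.ext (by simpa using h)
    have hm1 : (-1 : Lˣ) ≠ 1 := fun h => hne1 (hneg.trans h)
    obtain ⟨a', c₂, ha', haL, haF⟩ := exists_outer i σ hσ hi hod hP'
      (by rw [← hθ, hnP]; exact hn') m₂ m₁ m₃ (by rw [← hθ, hnP]; exact hp23) (by rw [← hθ, hnP]; exact hp31)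
      (by rw [← hθ, hnP]; exact hp12') (by rw [pair_comm m₂ m₁, T'.o12]) T'.o23 T'.o13
      (fun v hv => by rw [add_comm (pair chevE7 b₂ v)]; exact hpar v hv)
      (hu.trans hneg) hm1
    obtain ⟨hax, haa⟩ := hcx c₂ a' ha'
    have hmem : a' ∈ Subgroup.zpowers a₀ := by
      have hker : θ (P'⁻¹ * C.torus c₂ * P') = P'⁻¹ * C.torus c₂ * P' := by rw [← ha', hθ, gmap_gmap, hσi]
      obtain ⟨e, he⟩ := exists_exp hγ (C.cartanMap c₂)
      obtain ⟨j, hj⟩ := AddSubgroup.mem_zmultiples_iff.1 (hwgen _ ((hfixiff e c₂ he).1 hker))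
      refine Subgroup.mem_zpowers_iff.2 ⟨j, gmap_injective i ?_⟩
      rw [map_zpow, ha₀', ha', hy₀]
      have hz : (P'⁻¹ * C.torus c₁ * P') ^ j = P'⁻¹ * C.torus c₁ ^ j * P' := by
        have := conj_zpow (a := P'⁻¹) (b := C.torus c₁) (i := j)
        simpa using this
      rw [hz, show C.torus c₁ ^ j = C.torus c₂ from ?_]
      rw [show C.torus c₁ ^ j = C.torus (c₁ ^ j) from (map_zpow C.torusHom c₁ j).symm, ← mul_inv_eq_one]
      show C.torusHom _ * (C.torusHom _)⁻¹ = 1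
      rw [← map_inv, ← map_mul]
      refine (C.torus_eq_one_iff _).2 ?_
      rw [map_mul, map_inv, mul_inv_eq_one]
      funext k
      rw [map_zpow, Pi.pow_apply, hc₁', he, ← zpow_mul, zpow_eq_iff γ hγo]
      have := congrFun hj k
      rw [Pi.smul_apply, zsmul_eq_mul, ← hew] at this
      push_cast
      rw [mul_comm]; exact this
    obtain ⟨j, rfl⟩ := Subgroup.mem_zpowers_iff.1 hmem
    exact haF (zpow_mem haG j)

end Cfsg.Agent.Lib.Chev.E7Cyclic
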