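import Cfsg.Agent.Lib.Chev.E7Cyclic.Span
import Cfsg.Agent.Lib.Chev.E6Cyclic.Regular

/-!
An element of W(E₇) with an eigenvector `a` of order `12` modulo a large prime: the roots killed by `a` are three
orthogonal pairs, permuted cyclically.
-/

set_option autoImplicit false
set_option maxRecDepth 4000

namespace Cfsg.Agent.Lib.Chev.E7Cyclic

open Cfsg.Lie Cfsg.Agent.Lib Cfsg.Agent.Lib.Chev Polynomial Homocyclic E6Cyclic
open Cfsg.Agent.Lib.Chev.CoxTorus (wMat fnl cV cV_sg fnl_simple wMat_pow exists_refl cast_aeval aeval_mulVec_eigen)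

abbrev C7 := E7.checked

theorem tbl {r : ℕ} (hr : r < chevE7.nroots) :
    (∀ s < chevE7.nroots, -2 ≤ pair chevE7 r s ∧ pair chevE7 r s ≤ 2 ∧ (pair chevE7 r s = 2 → r = s) ∧
      (pair chevE7 r s = -2 → s = chevE7.neg r)) ∧
    ((Finset.range chevE7.nroots).filter fun v => pair chevE7 r v = 0).card = 60 ∧
    ∃ v < chevE7.nroots, pair chevE7 r v = 1 := by
  have h := allBelow_iff.1 pairRow_all r (C7.tables.nroots ▸ hr)
  simp only [pairRow, Bool.and_eq_true, allBelow_iff, decide_eq_true_eq, Bool.or_eq_true, Bool.not_eq_true',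
    decide_eq_false_iff_not, Nat.beq_eq, List.any_eq_true, List.mem_range] at h
  obtain ⟨⟨h1, h2⟩, h3⟩ := h
  refine ⟨fun s hs => ?_, ?_, ?_⟩
  · obtain ⟨⟨ha, hb⟩, hc⟩ := h1 s (C7.tables.nroots ▸ hs)
    rw [C7.pr_eq hr hs] at ha hb hc
    refine ⟨by omega, by omega, fun e => (hb.resolve_left fun hn => hn e), fun e => ?_⟩
    rw [C7.tables.neg r hr]
    exact hc.resolve_left fun hn => hn e
  · rw [← h2, List.countP_eq_length_filter, ← C7.tables.nroots,
      ← List.toFinset_card_of_nodup (List.nodup_range.filter _)]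
    refine congrArg Finset.card ?_
    ext v
    simp only [Finset.mem_filter, Finset.mem_range, List.mem_toFinset, List.mem_filter, List.mem_range,
      decide_eq_true_eq]
    exact and_congr_right fun hv => by rw [C7.pr_eq hr hv]
  · obtain ⟨v, hv, e⟩ := h3
    rw [← C7.tables.nroots] at hv
    exact ⟨v, hv, by rwa [C7.pr_eq hr hv] at e⟩

theorem pair_eq {r s : ℕ} (hr : r < chevE7.nroots) (hs : s < chevE7.nroots) :
    pair chevE7 r s = bil (cV E7.fast chevE7 r) (cV E7.fast chevE7 s) := pair_bilin C7 laced_E7 hr hs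

theorem pair_comm {r s : ℕ} (hr : r < chevE7.nroots) (hs : s < chevE7.nroots) :
    pair chevE7 r s = pair chevE7 s r := by rw [pair_eq hr hs, pair_eq hs hr, bil_comm]

theorem cV_neg {r : ℕ} (hr : r < chevE7.nroots) : cV E7.fast chevE7 (chevE7.neg r) = -cV E7.fast chevE7 r :=
  funext fun k => C7.root.coef_neg hr k.2

theorem pair_neg_left {r s : ℕ} (hr : r < chevE7.nroots) (hs : s < chevE7.nroots) :
    pair chevE7 (chevE7.neg r) s = -pair chevE7 r s := by
  rw [pair_comm (C7.root.neg_lt r hr) hs, C7.pair_neg hr, pair_comm hr hs]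

theorem cV_ext {r s : ℕ} (hr : r < chevE7.nroots) (hs : s < chevE7.nroots)
    (h : cV E7.fast chevE7 r = cV E7.fast chevE7 s) : r = s :=
  C7.root_ext hr hs fun j hj => congrFun h ⟨j, hj⟩

theorem perm_three : ∀ σ : Fin 3 → Fin 3, Function.Injective σ → ∀ sb : Fin 3 → Bool,
    (σ 0 ≠ 0 ∧ σ (σ 0) ≠ 0 ∧ σ (σ (σ 0)) = 0) ∨ ∀ i c, σ (σ (σ (σ i))) = i ∧
      ((((c ^^ sb i) ^^ sb (σ i)) ^^ sb (σ (σ i))) ^^ sb (σ (σ (σ i)))) = c := by
  decide +kernel

variable {K : Type*} [Field K]

theorem bil_M {n : GL chevE7.Idx K} (hn : n ∈ chevE7.monomialSubgroup K) (x y : Fin chevE7.rank → ℤ) :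
    bil (Matrix.vecMul x (wMat C7 n)) (Matrix.vecMul y (wMat C7 n)) = bil x y := by
  simp only [bil]
  rw [← Matrix.mulVec_transpose (wMat C7 n) y, Matrix.dotProduct_mulVec, Matrix.vecMul_vecMul, Matrix.vecMul_vecMul,
    ← mul_assoc, isometry C7 laced_E7 hn]

/-- `P = Φ₁₂ (X³ + 1)` -/
noncomputable def pT : ℤ[X] := p12 * (X ^ 3 + 1)

/-- The three pairs of roots killed by the functional. -/
structure Triple (n : GL chevE7.Idx K) {r : ℕ} (a : Fin chevE7.rank → ZMod r) (a₁ a₂ a₃ : ℕ) : Prop where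
  h1 : a₁ < chevE7.nroots
  h2 : a₂ < chevE7.nroots
  h3 : a₃ < chevE7.nroots
  n1 : C7.sg n a₁ = a₃
  n3 : C7.sg n a₃ = a₂
  n2 : C7.sg n a₂ = a₁ ∨ C7.sg n a₂ = chevE7.neg a₁
  o12 : pair chevE7 a₁ a₂ = 0
  o13 : pair chevE7 a₁ a₃ = 0
  o23 : pair chevE7 a₂ a₃ = 0
  zero : ∀ v < chevE7.nroots, fnl E7.fast chevE7 a v = 0 ↔
    v = a₁ ∨ v = chevE7.neg a₁ ∨ v = a₂ ∨ v = chevE7.neg a₂ ∨ v = a₃ ∨ v = chevE7.neg a₃

theorem exists_triple {n : GL chevE7.Idx K} (hn : n ∈ chevE7.monomialSubgroup K) {r q : ℕ} [Fact r.Prime]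
    (hr : 12 < r) {a : Fin chevE7.rank → ZMod r} (ha : a ≠ 0) (hq : orderOf (q : ZMod r) = 12)
    (heig : ∀ v < chevE7.nroots, fnl E7.fast chevE7 a (C7.sg n v) = (q : ZMod r) * fnl E7.fast chevE7 a v) :
    (∃ a₁ a₂ a₃, Triple n a a₁ a₂ a₃) ∧
    ∀ a₁ a₂ a₃, a₁ < chevE7.nroots → a₂ < chevE7.nroots → a₃ < chevE7.nroots →
      C7.sg n a₁ = a₃ → C7.sg n a₃ = a₂ → C7.sg n a₂ = chevE7.neg a₁ →
      fnl E7.fast chevE7 a a₁ = 0 → pair chevE7 a₁ a₂ = 0 → pair chevE7 a₁ a₃ = 0 → pair chevE7 a₂ a₃ = 0 →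
      (wMat C7 n).charpoly = pT ∧ aeval (wMat C7 n) pT = 0 ∧
        ∀ v < chevE7.nroots, (2 : ℤ) ∣ pair chevE7 a₁ v + pair chevE7 a₂ v + pair chevE7 a₃ v := by
  classical
  set M := wMat C7 n with hM
  set cv := cV E7.fast chevE7 with hcv
  have hsgpow : ∀ (i : ℕ), ∀ v < chevE7.nroots, cv (C7.sg (n ^ i) v) = Matrix.vecMul (cv v) (M ^ i) :=
    fun i v hv => by rw [hcv, cV_sg C7 (pow_mem hn i) hv, wMat_pow C7 hn]
  have hlt := fun v (hv : v < chevE7.nroots) => C7.sg_lt hn hv
  have hsgneg := fun v (hv : v < chevE7.nroots) => C7.sg_neg hn hv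
  have hq0 : (q : ZMod r) ≠ 0 := fun h0 => by rw [h0, orderOf_zero] at hq; omega
  -- the integer functional
  obtain ⟨b, h, hh, hb0, hbk, -, hzero, -⟩ := exists_avg (F := K) C7 (r := r) (by rw [rank_E7]; omega) ha
  have hdot : ∀ v, fnl E7.fast chevE7 b v = cv v ⬝ᵥ b := fun v => by simp [fnl, hcv, cV, dotProduct]
  have hev : (M.map (Int.cast : ℤ → ZMod r)).mulVec a = (q : ZMod r) • a := mulVec_of_fnl C7 heig
  -- the annihilator of `b`
  set P := Nat.card (C7.W K) with hPdef
  have hP0 : 0 < P := Nat.card_pos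
  have hP : P = 2903040 := by
    have h2 : ((P : ℕ) : ℤ) = 2903040 := by rw [hPdef, C7.card_W, C7.tables.rank]; decide +kernel
    exact_mod_cast h2
  have hMP : M ^ P = 1 := wMat_pow_card C7 hn
  obtain ⟨s, hs, hchar, hsum⟩ := exists_multiset hP0 hMP
  have hrP : ¬ r ∣ P := by
    intro h
    rw [hP, show (2903040 : ℕ) = 2 ^ 10 * 3 ^ 4 * 5 * 7 by norm_num] at h
    have hp : r.Prime := Fact.out
    rcases (Nat.Prime.dvd_mul hp).1 h with h | h
    · rcases (Nat.Prime.dvd_mul hp).1 h with h | h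
      · rcases (Nat.Prime.dvd_mul hp).1 h with h | h
        · have := Nat.le_of_dvd (by norm_num) (hp.dvd_of_dvd_pow h); omega
        · have := Nat.le_of_dvd (by norm_num) (hp.dvd_of_dvd_pow h); omega
      · have := Nat.le_of_dvd (by norm_num) h; omega
    · have := Nat.le_of_dvd (by norm_num) h; omega
  have h12 : 1 ≤ s.count 12 := by
    refine le_trans ?_ (finrank_eigen_le hrP hs hchar hq)
    refine Nat.one_le_iff_ne_zero.2 fun h => ha ?_
    rw [Submodule.finrank_eq_zero, Submodule.eq_bot_iff] at h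
    exact h _ (by rw [Module.End.mem_eigenspace_iff, Matrix.toLin'_apply]; exact hev)
  obtain ⟨s₁, rfl⟩ := Multiset.exists_cons_of_mem (Multiset.count_pos.1 h12)
  rw [Multiset.map_cons, Multiset.sum_cons, show Nat.totient 12 = 4 by decide, rank_E7] at hsum
  set g : ℤ[X] := (s₁.map fun d => cyclotomic d ℤ).prod with hg
  have hcharM : M.charpoly = p12 * g := by
    rw [hchar, Multiset.map_cons, Multiset.prod_cons, cyclotomic_twelve]
  have hCH : aeval M (p12 * g) = 0 := by rw [← hcharM]; exact Matrix.aeval_self_charpoly M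
  have hgq : (g.map (Int.castRingHom (ZMod r))).eval (q : ZMod r) ≠ 0 := by
    rw [hg, Polynomial.map_multiset_prod, eval_multiset_prod, Multiset.map_map, Multiset.map_map]
    refine fun h0 => ?_
    obtain ⟨d, hd, hd0⟩ := Multiset.mem_map.1 (Multiset.prod_eq_zero_iff.1 h0)
    simp only [Function.comp, map_cyclotomic] at hd0
    have hdP : d ∣ P := hs d (Multiset.mem_cons_of_mem hd)
    have : NeZero (d : ZMod r) := ⟨fun e => hrP (((ZMod.natCast_eq_zero_iff d r).1 e).trans hdP)⟩
    have h1 : orderOf (q : ZMod r) = d := ((isRoot_cyclotomic_iff (R := ZMod r)).1 hd0).eq_orderOf.symm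
    rw [hq] at h1
    have := Multiset.le_sum_of_mem (Multiset.mem_map_of_mem Nat.totient hd)
    rw [← h1, show Nat.totient 12 = 4 by decide] at this
    omega
  have hgb : (aeval M g).mulVec b ≠ 0 := by
    intro h0
    have h2 := aeval_mulVec_eigen hev (g.map (Int.castRingHom (ZMod r)))
    rw [cast_aeval] at h2
    refine ha (funext fun j => ?_)
    have h3 := congrArg (fun x : ℤ => (x : ZMod r)) (congrFun h0 j)
    have h4 : ((Int.castRingHom (ZMod r)).mapMatrix (aeval M g)).mulVec (fun k => ((b k : ℤ) : ZMod r)) j = 0 := by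
      refine Eq.trans ?_ (h3.trans Int.cast_zero)
      exact (RingHom.map_mulVec (Int.castRingHom (ZMod r)) (aeval M g) b j).symm
    rw [show (fun k => ((b k : ℤ) : ZMod r)) = h • a from funext fun k => hbk k, Matrix.mulVec_smul, h2] at h4
    simp only [Pi.smul_apply, smul_eq_mul] at h4
    exact (mul_eq_zero.1 ((mul_eq_zero.1 h4).resolve_left hh)).resolve_left hgq
  have hkill : ∀ {f : ℤ[X]}, (aeval M f).mulVec b = 0 → p12 ∣ f := fun hf => kill_of_coprime hCH hgb hf
  have hindep : LinearIndependent ℤ (fun i : Fin 4 => (M ^ (i : ℕ)).mulVec b) := by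
    rw [Fintype.linearIndependent_iff]
    intro c hc i
    set f : ℤ[X] := ∑ i : Fin 4, monomial (i : ℕ) (c i)
    have hcoef : ∀ i : Fin 4, f.coeff i = c i := fun i => by
      simp only [f, finsetSum_coeff, coeff_monomial]
      rw [Finset.sum_eq_single i (fun j _ hj => if_neg fun h => hj (Fin.ext h))
        (fun h => absurd (Finset.mem_univ i) h), if_pos rfl]
    have hd : f.natDegree < 4 := by
      refine lt_of_le_of_lt (natDegree_sum_le_of_forall_le _ _ fun j _ => ?_) (by norm_num : 3 < 4)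
      exact (natDegree_monomial_le _).trans (by omega)
    have hf : (aeval M f).mulVec b = 0 := by
      rw [aeval_eq_sum M hd]; simp only [hcoef]; exact hc
    have := eq_zero_of_dvd_of_natDegree_lt (hkill hf) (by rw [p12_natDegree]; exact hd)
    rw [← hcoef, this, coeff_zero]
  -- the roots killed
  set Z := (Finset.range chevE7.nroots).filter fun v => fnl E7.fast chevE7 a v = 0 with hZ
  have hmemZ : ∀ v, v ∈ Z ↔ v < chevE7.nroots ∧ fnl E7.fast chevE7 a v = 0 := fun v => by simp [hZ]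
  have hpowa : ∀ (i : ℕ), ∀ v < chevE7.nroots,
      fnl E7.fast chevE7 a (C7.sg (n ^ i) v) = (q : ZMod r) ^ i * fnl E7.fast chevE7 a v := by
    intro i
    induction i with
    | zero => intro v hv; rw [pow_zero, C7.sg_one hv, pow_zero, one_mul]
    | succ i ih =>
      intro v hv
      rw [pow_succ', C7.sg_mul hn (pow_mem hn i) hv, heig _ (C7.sg_lt (pow_mem hn i) hv), ih v hv, pow_succ']
      ring
  let Wp : (Fin chevE7.rank → ℤ) → Prop := fun y => ∀ i : ℕ, y ⬝ᵥ (M ^ i).mulVec b = 0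
  have hZW : ∀ v ∈ Z, Wp (cv v) := fun v hv i => by
    obtain ⟨hv, hva⟩ := (hmemZ v).1 hv
    rw [Matrix.dotProduct_mulVec, ← hsgpow i v hv, ← hdot]
    exact hzero _ (C7.sg_lt (pow_mem hn i) hv) (by rw [hpowa i v hv, hva, mul_zero])
  have hdep : ∀ y : Fin 4 → Fin chevE7.rank → ℤ, (∀ i, Wp (y i)) →
      ∃ c : Fin 4 → ℤ, c ≠ 0 ∧ ∀ z, ∑ i, c i * bil (y i) z = 0 := by
    intro y hy
    obtain ⟨c, hc, hsum⟩ := dependent y _ hindep (fun i k => hy i k) (by simp [rank_E7])
    exact ⟨c, hc, fun z => by rw [← bil_sum, hsum]; simp [bil]⟩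
  -- the orbits outside have length divisible by twelve
  have horb : ∀ S : Finset ℕ, (∀ v ∈ S, v < chevE7.nroots ∧ fnl E7.fast chevE7 a v ≠ 0) →
      (∀ v ∈ S, C7.sg n v ∈ S) → 12 ∣ S.card := by
    intro S hS hSn
    let π : Equiv.Perm S := Equiv.ofBijective (fun v => ⟨C7.sg n v, hSn v v.2⟩) (Finite.injective_iff_bijective.1 (by
      rintro ⟨u, hu⟩ ⟨v, hv⟩ e
      have e' := congrArg (C7.sg n⁻¹) (congrArg Subtype.val e : C7.sg n u = C7.sg n v)
      rw [C7.sg_inv_sg hn (hS u hu).1, C7.sg_inv_sg hn (hS v hv).1] at e'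
      exact Subtype.ext e'))
    have hπ : ∀ (k : ℕ) (v : S), (((π ^ k) v : S) : ℕ) = C7.sg (n ^ k) v := by
      intro k
      induction k with
      | zero => intro v; simp [C7.sg_one (hS v v.2).1]
      | succ k ih =>
        intro v
        rw [pow_succ', Equiv.Perm.mul_apply, pow_succ', C7.sg_mul hn (pow_mem hn k) (hS v v.2).1, ← ih v]
        rfl
    have hfix : ∀ (v : S) (k : ℕ), (π ^ k) v = v → 12 ∣ k := by
      intro v k e
      have h1 := hpowa k v (hS v v.2).1
      rw [← hπ, e] at h1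
      rw [← hq, orderOf_dvd_iff_pow_eq_one]
      exact mul_right_cancel₀ (hS v v.2).2 (by rw [one_mul, ← h1])
    -- split into cycles
    have hcard : S.card = Fintype.card S := (Fintype.card_coe S).symm
    rw [hcard, Fintype.card_congr (MulAction.selfEquivSigmaOrbits (Subgroup.zpowers π) S), Fintype.card_sigma]
    refine Finset.dvd_sum fun ω _ => ?_
    set v₀ := Quotient.out ω
    rw [← MulAction.minimalPeriod_eq_card (a := π) (b := v₀)]
    refine hfix v₀ _ ?_
    have h1 := Function.isPeriodicPt_minimalPeriod (π • · : S → S) v₀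
    rw [Function.IsPeriodicPt, Function.IsFixedPt, smul_iterate] at h1
    exact h1
  have hZn : ∀ v ∈ Z, C7.sg n v ∈ Z := fun v hv => by
    obtain ⟨hv, hva⟩ := (hmemZ v).1 hv
    exact (hmemZ _).2 ⟨hlt v hv, by rw [heig v hv, hva, mul_zero]⟩
  have hZneg : ∀ v ∈ Z, chevE7.neg v ∈ Z := fun v hv => by
    obtain ⟨hv, hva⟩ := (hmemZ v).1 hv
    refine (hmemZ _).2 ⟨C7.root.neg_lt v hv, ?_⟩
    simp only [fnl, C7.root.coef_neg hv (Fin.is_lt _), Int.cast_neg, neg_mul, Finset.sum_neg_distrib]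
    rw [show (∑ x : Fin chevE7.rank, ((E7.fast.aux.coef v x : ℤ) : ZMod r) * a x) = 0 from hva, neg_zero]
  have hZ6 : Z.card % 12 = 6 := by
    have h1 := horb ((Finset.range chevE7.nroots).filter fun v => ¬ fnl E7.fast chevE7 a v = 0)
      (fun v hv => by simpa using hv) (fun v hv => by
        simp only [Finset.mem_filter, Finset.mem_range] at hv ⊢
        exact ⟨hlt v hv.1, by rw [heig v hv.1]; exact mul_ne_zero hq0 hv.2⟩)
    have h2 : Z.card + _ = (Finset.range chevE7.nroots).card :=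
      Finset.card_filter_add_card_filter_not (fun v => fnl E7.fast chevE7 a v = 0)
    rw [Finset.card_range, show chevE7.nroots = 126 from C7.tables.nroots] at h2
    obtain ⟨k, hk⟩ := h1
    rw [show Finset.range 126 = Finset.range chevE7.nroots by rw [C7.tables.nroots]; rfl] at *
    omega
  -- a fourth root in the span of three
  have hfour : ∀ u₁ u₂ u₃ e, u₁ ∈ Z → u₂ ∈ Z → u₃ ∈ Z → e ∈ Z →
      gDet (pair chevE7 u₁ u₂) (pair chevE7 u₁ u₃) (pair chevE7 u₂ u₃) ≠ 0 →
      gQuad (pair chevE7 u₁ u₂) (pair chevE7 u₁ u₃) (pair chevE7 u₂ u₃) (pair chevE7 u₁ e) (pair chevE7 u₂ e)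
        (pair chevE7 u₃ e) = 2 * gDet (pair chevE7 u₁ u₂) (pair chevE7 u₁ u₃) (pair chevE7 u₂ u₃) ∧
      ∀ e' ∈ Z, pair chevE7 u₁ e' = pair chevE7 u₁ e → pair chevE7 u₂ e' = pair chevE7 u₂ e →
        pair chevE7 u₃ e' = pair chevE7 u₃ e → e' = e := by
    intro u₁ u₂ u₃ e m₁ m₂ m₃ me hD
    obtain ⟨l₁, -⟩ := (hmemZ _).1 m₁
    obtain ⟨l₂, -⟩ := (hmemZ _).1 m₂
    obtain ⟨l₃, -⟩ := (hmemZ _).1 m₃
    set x := pair chevE7 u₁ u₂ with hx
    set y := pair chevE7 u₁ u₃ with hy
    set w := pair chevE7 u₂ u₃ with hw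
    have p11 : bil (cv u₁) (cv u₁) = 2 := by rw [← pair_eq l₁ l₁, C7.pair_self l₁]
    have p22 : bil (cv u₂) (cv u₂) = 2 := by rw [← pair_eq l₂ l₂, C7.pair_self l₂]
    have p33 : bil (cv u₃) (cv u₃) = 2 := by rw [← pair_eq l₃ l₃, C7.pair_self l₃]
    have p12' : bil (cv u₁) (cv u₂) = x := (pair_eq l₁ l₂).symm
    have p13 : bil (cv u₁) (cv u₃) = y := (pair_eq l₁ l₃).symm
    have p23 : bil (cv u₂) (cv u₃) = w := (pair_eq l₂ l₃).symm
    have key : ∀ z, Wp z → ∃ D c₁ c₂ c₃ : ℤ, D ≠ 0 ∧ ∀ t, D * bil z t + c₁ * bil (cv u₁) t + c₂ * bil (cv u₂) t +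
        c₃ * bil (cv u₃) t = 0 := by
      intro z hz
      obtain ⟨c, hc, hrel⟩ := hdep ![z, cv u₁, cv u₂, cv u₃] (fun i => by
        fin_cases i <;> [exact hz; exact hZW _ m₁; exact hZW _ m₂; exact hZW _ m₃])
      simp only [Fin.sum_univ_four, Matrix.cons_val_zero, Matrix.cons_val_one, Matrix.cons_val] at hrel
      refine ⟨c 0, c 1, c 2, c 3, fun h0 => hc ?_, hrel⟩
      have a1 := hrel (cv u₁)
      have a2 := hrel (cv u₂)
      have a3 := hrel (cv u₃)
      rw [h0, p11, bil_comm (cv u₂), p12', bil_comm (cv u₃), p13] at a1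
      rw [h0, p12', p22, bil_comm (cv u₃), p23] at a2
      rw [h0, p13, p23, p33] at a3
      have e1 : gDet x y w * c 1 = 0 := by
        unfold gDet; linear_combination (4 - w ^ 2) * a1 + (y * w - 2 * x) * a2 + (x * w - 2 * y) * a3
      have e2 : gDet x y w * c 2 = 0 := by
        unfold gDet; linear_combination (y * w - 2 * x) * a1 + (4 - y ^ 2) * a2 + (x * y - 2 * w) * a3
      have e3 : gDet x y w * c 3 = 0 := by
        unfold gDet; linear_combination (x * w - 2 * y) * a1 + (x * y - 2 * w) * a2 + (4 - x ^ 2) * a3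
      funext i
      fin_cases i
      exacts [h0, (mul_eq_zero.1 e1).resolve_left hD, (mul_eq_zero.1 e2).resolve_left hD,
        (mul_eq_zero.1 e3).resolve_left hD]
    obtain ⟨le, -⟩ := (hmemZ _).1 me
    refine ⟨?_, fun e' me' h1 h2 h3 => ?_⟩
    · obtain ⟨D, c₁, c₂, c₃, hD0, hrel⟩ := key (cv e) (hZW _ me)
      have a1 := hrel (cv u₁)
      have a2 := hrel (cv u₂)
      have a3 := hrel (cv u₃)
      have a0 := hrel (cv e)
      rw [p11, bil_comm (cv u₂), p12', bil_comm (cv u₃), p13, bil_comm (cv e)] at a1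
      rw [p12', p22, bil_comm (cv u₃), p23, bil_comm (cv e)] at a2
      rw [p13, p23, p33, bil_comm (cv e)] at a3
      rw [← pair_eq le le, C7.pair_self le] at a0
      rw [← pair_eq l₁ le] at a1 a0
      rw [← pair_eq l₂ le] at a2 a0
      rw [← pair_eq l₃ le] at a3 a0
      refine mul_left_cancel₀ hD0 ?_
      unfold gQuad gDet
      linear_combination ((4 - w ^ 2) * pair chevE7 u₁ e + (y * w - 2 * x) * pair chevE7 u₂ e +
          (x * w - 2 * y) * pair chevE7 u₃ e) * a1 +
        ((y * w - 2 * x) * pair chevE7 u₁ e + (4 - y ^ 2) * pair chevE7 u₂ e +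
          (x * y - 2 * w) * pair chevE7 u₃ e) * a2 +
        ((x * w - 2 * y) * pair chevE7 u₁ e + (x * y - 2 * w) * pair chevE7 u₂ e +
          (4 - x ^ 2) * pair chevE7 u₃ e) * a3 -
        (8 + 2 * x * y * w - 2 * x ^ 2 - 2 * y ^ 2 - 2 * w ^ 2) * a0
    · obtain ⟨le', -⟩ := (hmemZ _).1 me'
      obtain ⟨D, c₁, c₂, c₃, hD0, hrel⟩ := key (cv e' - cv e) (fun i => by
        rw [sub_dotProduct, hZW _ me' i, hZW _ me i, sub_zero])
      have hb : ∀ t, bil (cv e' - cv e) t = bil (cv e') t - bil (cv e) t := fun t => by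
        simp [bil, Matrix.sub_vecMul, sub_dotProduct]
      have a1 := hrel (cv u₁)
      have a2 := hrel (cv u₂)
      have a3 := hrel (cv u₃)
      rw [hb, p11, bil_comm (cv u₂), p12', bil_comm (cv u₃), p13, bil_comm (cv e'), bil_comm (cv e),
        ← pair_eq l₁ le, ← pair_eq l₁ le', h1] at a1
      rw [hb, p12', p22, bil_comm (cv u₃), p23, bil_comm (cv e'), bil_comm (cv e),
        ← pair_eq l₂ le, ← pair_eq l₂ le', h2] at a2
      rw [hb, p13, p23, p33, bil_comm (cv e'), bil_comm (cv e),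
        ← pair_eq l₃ le, ← pair_eq l₃ le', h3] at a3
      have e1 : gDet x y w * c₁ = 0 := by
        unfold gDet; linear_combination (4 - w ^ 2) * a1 + (y * w - 2 * x) * a2 + (x * w - 2 * y) * a3
      have e2 : gDet x y w * c₂ = 0 := by
        unfold gDet; linear_combination (y * w - 2 * x) * a1 + (4 - y ^ 2) * a2 + (x * y - 2 * w) * a3
      have e3 : gDet x y w * c₃ = 0 := by
        unfold gDet; linear_combination (x * w - 2 * y) * a1 + (x * y - 2 * w) * a2 + (4 - x ^ 2) * a3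
      have f1 := (mul_eq_zero.1 e1).resolve_left hD
      have f2 := (mul_eq_zero.1 e2).resolve_left hD
      have f3 := (mul_eq_zero.1 e3).resolve_left hD
      have a0 := hrel (cv e)
      rw [f1, f2, f3, hb, ← pair_eq le' le, ← pair_eq le le, C7.pair_self le] at a0
      have : pair chevE7 e' e = 2 := by
        have := (mul_eq_zero.1 (by linear_combination a0 : D * (pair chevE7 e' e - 2) = 0)).resolve_left hD0
        omega
      exact ((tbl le').1 e le).2.2.1 this
  have hpz : ∀ u ∈ Z, ∀ v ∈ Z, pair chevE7 u v ∈ small := fun u hu v hv => by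
    obtain ⟨a1, a2, -, -⟩ := (tbl ((hmemZ u).1 hu).1).1 v ((hmemZ v).1 hv).1
    simp only [small, Finset.mem_insert, Finset.mem_singleton]
    omega
  -- the pairings in `Z` vanish
  have horth : ∀ u ∈ Z, ∀ v ∈ Z, pair chevE7 u v ≠ -1 := by
    intro u hu v hv huv
    obtain ⟨lu, au⟩ := (hmemZ u).1 hu
    obtain ⟨lv, av⟩ := (hmemZ v).1 hv
    obtain ⟨m, hm, href⟩ := exists_refl (F := K) C7 lu
    set t := C7.sg m v with ht
    have lt' : t < chevE7.nroots := C7.sg_lt hm lv
    have hct : cv t = cv u + cv v := funext fun k => by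
      show E7.fast.aux.coef t k = _
      rw [ht, href v lv k k.2, huv]; simp [hcv, cV]; ring
    have htZ : t ∈ Z := (hmemZ t).2 ⟨lt', by
      have e : fnl E7.fast chevE7 a t = fnl E7.fast chevE7 a u + fnl E7.fast chevE7 a v := by
        simp only [fnl, ← Finset.sum_add_distrib, ← add_mul]
        refine Finset.sum_congr rfl fun k _ => ?_
        rw [show E7.fast.aux.coef t k = E7.fast.aux.coef u k + E7.fast.aux.coef v k from congrFun hct k]
        push_cast; rfl
      rw [e, au, av, add_zero]⟩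
    have hpt : ∀ x < chevE7.nroots, pair chevE7 x t = pair chevE7 x u + pair chevE7 x v := fun x hx => by
      rw [pair_eq hx lt', pair_eq hx lu, pair_eq hx lv, ← hcv, hct]; exact dotProduct_add _ _ _
    have hpu := C7.pair_self lu
    have hpv := C7.pair_self lv
    have hvu : pair chevE7 v u = -1 := by rw [pair_comm lv lu, huv]
    set six : Finset ℕ := {u, chevE7.neg u, v, chevE7.neg v, t, chevE7.neg t} with hsix
    have hsixZ : six ⊆ Z := by
      simp [hsix, Finset.insert_subset_iff, hu, hv, htZ, hZneg]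
    have hlt6 : ∀ x ∈ six, x < chevE7.nroots := fun x hx => ((hmemZ x).1 (hsixZ hx)).1
    have hpat : ∀ x ∈ six, pair chevE7 u x ≠ 0 ∧ pair chevE7 v x ≠ 0 ∧ pair chevE7 t x ≠ 0 := by
      have gu : pair chevE7 u t = 1 := by rw [hpt u lu, hpu, huv]; norm_num
      have gv : pair chevE7 v t = 1 := by rw [hpt v lv, hvu, hpv]; norm_num
      intro x hx
      simp only [hsix, Finset.mem_insert, Finset.mem_singleton] at hx
      rcases hx with rfl | rfl | rfl | rfl | rfl | rfl <;>
        simp [C7.pair_neg, lu, lv, lt', hpu, hpv, huv, hvu, gu, gv, C7.pair_self lt',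
          pair_comm lt' lu, pair_comm lt' lv]
    have h6card : six.card = 6 := by
      have d : ∀ {x y : ℕ}, x < chevE7.nroots → y < chevE7.nroots → ∀ w < chevE7.nroots,
          pair chevE7 w x ≠ pair chevE7 w y → x ≠ y := fun _ _ w _ h e => h (by rw [e])
      have gu : pair chevE7 u t = 1 := by rw [hpt u lu, hpu, huv]; norm_num
      have gv : pair chevE7 v t = 1 := by rw [hpt v lv, hvu, hpv]; norm_num
      have nu := C7.root.neg_lt u lu
      have nv := C7.root.neg_lt v lv
      have nt := C7.root.neg_lt t lt'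
      rw [hsix]
      repeat rw [Finset.card_insert_of_notMem]
      · rfl
      all_goals simp only [Finset.mem_insert, Finset.mem_singleton, not_or]
      all_goals repeat' apply And.intro
      all_goals first
        | (refine d (by assumption) (by assumption) u lu ?_
           simp [C7.pair_neg, lu, lv, lt', hpu, huv, gu]; done)
        | (refine d (by assumption) (by assumption) v lv ?_
           simp [C7.pair_neg, lu, lv, lt', hpv, hvu, gv]; done)
    by_cases hbig : ∃ e ∈ Z, e ∉ six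
    · obtain ⟨e, he, hne⟩ := hbig
      obtain ⟨le, -⟩ := (hmemZ e).1 he
      simp only [hsix, Finset.mem_insert, Finset.mem_singleton, not_or] at hne
      obtain ⟨e1, e2, e3, e4, e5, e6⟩ := hne
      have hone : ∀ z < chevE7.nroots, e ≠ z → e ≠ chevE7.neg z → pair chevE7 z e ∈ ({-1, 0, 1} : Finset ℤ) := by
        intro z hz n1 n2
        obtain ⟨b1, b2, b3, b4⟩ := (tbl hz).1 e le
        have := fun h => n1 (b3 h).symm
        have := fun h => n2 (b4 h)
        simp only [Finset.mem_insert, Finset.mem_singleton]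
        omega
      have hD : gDet (pair chevE7 u v) (pair chevE7 u e) (pair chevE7 v e) ≠ 0 := by
        intro h0
        rw [huv] at h0
        have hte : pair chevE7 t e = pair chevE7 u e + pair chevE7 v e := by
          rw [pair_comm lt' le, hpt e le, pair_comm le lu, pair_comm le lv]
        rcases gram_degenerate _ (hone u lu e1 e2) _ (hone v lv e3 e4) h0 with h | h
        · exact e5 (((tbl lt').1 e le).2.2.1 (hte.trans h)).symm
        · exact e6 (((tbl lt').1 e le).2.2.2 (hte.trans h))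
      have hle : Z.card ≤ 12 := by
        refine le_trans ?_ (gram_count _ (hone u lu e1 e2) _ (hone v lv e3 e4) (huv ▸ hD))
        refine Finset.card_le_card_of_injOn (fun z => (pair chevE7 u z, pair chevE7 v z, pair chevE7 e z)) ?_ ?_
        · intro z hz
          have := (hfour u v e z hu hv he hz hD).1
          rw [huv] at this
          simp only [Finset.coe_filter, Set.mem_setOf_eq, Finset.mem_product]
          exact ⟨⟨hpz u hu z hz, hpz v hv z hz, hpz e he z hz⟩, this⟩
        · intro z hz z' hz' hzz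
          simp only [Prod.mk.injEq] at hzz
          exact ((hfour u v e z hu hv he hz hD).2 z' hz' hzz.1.symm hzz.2.1.symm hzz.2.2.symm).symm
      have : six.card < Z.card := Finset.card_lt_card ⟨hsixZ, fun h => by
        have := h he
        simp [hsix, e1, e2, e3, e4, e5, e6] at this⟩
      omega
    · push Not at hbig
      have hZsix : Z = six := le_antisymm hbig hsixZ
      set U := Finset.range chevE7.nroots
      set O := U.filter fun x => pair chevE7 u x = 0 ∧ pair chevE7 v x = 0 with hO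
      have hO12 : 12 ∣ O.card := by
        refine horb O (fun x hx => ?_) (fun x hx => ?_)
        · simp only [hO, U, Finset.mem_filter, Finset.mem_range] at hx
          refine ⟨hx.1, fun h0 => (hpat x (hZsix ▸ (hmemZ x).2 ⟨hx.1, h0⟩)).1 hx.2.1⟩
        · simp only [hO, U, Finset.mem_filter, Finset.mem_range] at hx ⊢
          obtain ⟨hx, hxu, hxv⟩ := hx
          have hsgx : ∀ z ∈ six, pair chevE7 z (C7.sg n x) = 0 := by
            intro z hz
            have hz' : C7.sg n⁻¹ z ∈ six := by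
              rw [← hZsix]
              have lz := hlt6 z hz
              refine (hmemZ _).2 ⟨C7.sg_lt (inv_mem hn) lz, ?_⟩
              have h1 := heig _ (C7.sg_lt (inv_mem hn) lz)
              rw [C7.sg_sg_inv hn lz, ((hmemZ z).1 (hsixZ hz)).2] at h1
              exact (mul_eq_zero.1 h1.symm).resolve_left hq0
            rw [← C7.sg_sg_inv hn (hlt6 z hz), C7.pair_sg hn (hlt6 _ hz') hx]
            have hxt : pair chevE7 t x = 0 := by
              rw [pair_comm lt' hx, hpt x hx, pair_comm hx lu, hxu, pair_comm hx lv, hxv, add_zero]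
            generalize C7.sg n⁻¹ z = w at hz'
            simp only [hsix, Finset.mem_insert, Finset.mem_singleton] at hz'
            rcases hz' with rfl | rfl | rfl | rfl | rfl | rfl <;> simp [pair_neg_left, lu, lv, lt', hx, hxu, hxv, hxt]
          exact ⟨hlt x hx, hsgx u (by simp [hsix]), hsgx v (by simp [hsix])⟩
      have hsum : ∀ x ∈ U, ((if pair chevE7 u x = 0 then 1 else 0) + (if pair chevE7 v x = 0 then 1 else 0) +
          (if pair chevE7 t x = 0 then 1 else 0) : ℕ) + (if x ∈ six then 1 else 0) =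
            1 + 2 * (if pair chevE7 u x = 0 ∧ pair chevE7 v x = 0 then 1 else 0) := by
        intro x hx
        have hx := Finset.mem_range.1 hx
        have hxt : pair chevE7 t x = pair chevE7 u x + pair chevE7 v x := by
          rw [pair_comm lt' hx, hpt x hx, pair_comm hx lu, pair_comm hx lv]
        by_cases hxs : x ∈ six
        · obtain ⟨p1, p2, p3⟩ := hpat x hxs
          simp [hxs, p1, p2, p3]
        · have q1 := (tbl lu).1 x hx
          have q2 := (tbl lv).1 x hx
          have q3 := (tbl lt').1 x hx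
          simp only [hsix, Finset.mem_insert, Finset.mem_singleton, not_or] at hxs
          obtain ⟨x1, x2, x3, x4, x5, x6⟩ := hxs
          have r1 : pair chevE7 u x ≠ 2 ∧ pair chevE7 u x ≠ -2 :=
            ⟨fun h => x1 (q1.2.2.1 h).symm, fun h => x2 (q1.2.2.2 h)⟩
          have r2 : pair chevE7 v x ≠ 2 ∧ pair chevE7 v x ≠ -2 :=
            ⟨fun h => x3 (q2.2.2.1 h).symm, fun h => x4 (q2.2.2.2 h)⟩
          have r3 : pair chevE7 t x ≠ 2 ∧ pair chevE7 t x ≠ -2 :=
            ⟨fun h => x5 (q3.2.2.1 h).symm, fun h => x6 (q3.2.2.2 h)⟩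
          simp only [hsix, Finset.mem_insert, Finset.mem_singleton, x1, x2, x3, x4, x5, x6, or_self, if_false]
          split_ifs <;> omega
      have hs := Finset.sum_congr rfl hsum
      simp only [Finset.sum_add_distrib, ← Finset.mul_sum, Finset.sum_boole, Nat.cast_id, Finset.sum_const,
        smul_eq_mul, mul_one] at hs
      rw [(tbl lu).2.1, (tbl lv).2.1, (tbl lt').2.1, Finset.filter_mem_eq_inter,
        Finset.inter_eq_right.2 (fun x hx => Finset.mem_range.2 (hlt6 x hx)), h6card, Finset.card_range,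
        show chevE7.nroots = 126 from C7.tables.nroots] at hs
      have e30 : O.card = 30 := by rw [hO]; simp only [U, show chevE7.nroots = 126 from C7.tables.nroots] at hs ⊢; omega
      omega
  have hpair0 : ∀ u ∈ Z, ∀ v ∈ Z, v ≠ u → v ≠ chevE7.neg u → pair chevE7 u v = 0 := by
    intro u hu v hv h1 h2
    have lu := ((hmemZ u).1 hu).1
    have lv := ((hmemZ v).1 hv).1
    obtain ⟨b1, b2, e2, e3⟩ := (tbl lu).1 v lv
    have := horth u hu v hv
    have h4 := horth _ (hZneg u hu) v hv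
    rw [pair_neg_left lu lv] at h4
    have h5 : pair chevE7 u v ≠ 2 := fun h => h1 (e2 h).symm
    have h6 : pair chevE7 u v ≠ -2 := fun h => h2 (e3 h)
    omega
  -- membership in the span of three orthogonal roots of `Z`
  have hspan : ∀ x₁ x₂ x₃, x₁ ∈ Z → x₂ ∈ Z → x₃ ∈ Z → pair chevE7 x₁ x₂ = 0 → pair chevE7 x₁ x₃ = 0 →
      pair chevE7 x₂ x₃ = 0 → ∀ y, Wp y → ∀ z, 2 * bil y z =
        bil y (cv x₁) * bil (cv x₁) z + bil y (cv x₂) * bil (cv x₂) z + bil y (cv x₃) * bil (cv x₃) z := by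
    intro x₁ x₂ x₃ m₁ m₂ m₃ o12 o13 o23 y hy z
    have l₁ := ((hmemZ _).1 m₁).1
    have l₂ := ((hmemZ _).1 m₂).1
    have l₃ := ((hmemZ _).1 m₃).1
    obtain ⟨c, hc, hrel⟩ := hdep ![y, cv x₁, cv x₂, cv x₃] (fun i => by
      fin_cases i <;> [exact hy; exact hZW _ m₁; exact hZW _ m₂; exact hZW _ m₃])
    simp only [Fin.sum_univ_four, Matrix.cons_val_zero, Matrix.cons_val_one, Matrix.cons_val] at hrel
    have a1 := hrel (cv x₁)
    have a2 := hrel (cv x₂)
    have a3 := hrel (cv x₃)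
    rw [bil_comm (cv x₂) (cv x₁), bil_comm (cv x₃) (cv x₁), ← pair_eq l₁ l₁, ← pair_eq l₁ l₂, ← pair_eq l₁ l₃,
      C7.pair_self l₁, o12, o13] at a1
    rw [bil_comm (cv x₃) (cv x₂), ← pair_eq l₂ l₂, ← pair_eq l₁ l₂, ← pair_eq l₂ l₃, C7.pair_self l₂, o12, o23] at a2
    rw [← pair_eq l₃ l₃, ← pair_eq l₁ l₃, ← pair_eq l₂ l₃, C7.pair_self l₃, o13, o23] at a3
    have h0 : c 0 ≠ 0 := fun h0 => hc (by
      rw [h0] at a1 a2 a3
      funext i; fin_cases i <;> simp <;> omega)
    refine mul_left_cancel₀ h0 ?_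
    linear_combination 2 * hrel z - (bil (cv x₁) z) * a1 - (bil (cv x₂) z) * a2 - (bil (cv x₃) z) * a3
  have hkill12 : ∀ x₁ x₂ x₃, x₁ ∈ Z → x₂ ∈ Z → x₃ ∈ Z → pair chevE7 x₁ x₂ = 0 → pair chevE7 x₁ x₃ = 0 →
      pair chevE7 x₂ x₃ = 0 → (aeval M p12).mulVec b = 0 := by
    intro x₁ x₂ x₃ m₁ m₂ m₃ o12 o13 o23
    have l₁ := ((hmemZ _).1 m₁).1
    have l₂ := ((hmemZ _).1 m₂).1
    have l₃ := ((hmemZ _).1 m₃).1
    have hd3 : LinearIndependent ℤ ![cv x₁, cv x₂, cv x₃] := by
      rw [Fintype.linearIndependent_iff]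
      intro c hc
      have t : ∀ w, c 0 * bil (cv x₁) w + c 1 * bil (cv x₂) w + c 2 * bil (cv x₃) w = 0 := fun w => by
        have := bil_sum Finset.univ c ![cv x₁, cv x₂, cv x₃] w
        rw [hc] at this
        simpa [bil, Fin.sum_univ_three] using this.symm
      have t1 := t (cv x₁); have t2 := t (cv x₂); have t3 := t (cv x₃)
      rw [bil_comm (cv x₂) (cv x₁), bil_comm (cv x₃) (cv x₁), ← pair_eq l₁ l₁, ← pair_eq l₁ l₂, ← pair_eq l₁ l₃,
        C7.pair_self l₁, o12, o13] at t1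
      rw [bil_comm (cv x₃) (cv x₂), ← pair_eq l₁ l₂, ← pair_eq l₂ l₂, ← pair_eq l₂ l₃, C7.pair_self l₂, o12, o23] at t2
      rw [← pair_eq l₁ l₃, ← pair_eq l₂ l₃, ← pair_eq l₃ l₃, C7.pair_self l₃, o13, o23] at t3
      intro i; fin_cases i <;> simp <;> omega
    obtain ⟨c, hc, hcs⟩ := dependent (fun i : Fin 5 => (M ^ (i : ℕ)).mulVec b) _ hd3 (fun i k => by
      rw [dotProduct_comm]
      fin_cases k <;> [exact hZW _ m₁ _; exact hZW _ m₂ _; exact hZW _ m₃ _]) (by simp [rank_E7])
    set f : ℤ[X] := ∑ i : Fin 5, monomial (i : ℕ) (c i)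
    have hcoef : ∀ i : Fin 5, f.coeff i = c i := fun i => by
      simp only [f, finsetSum_coeff, coeff_monomial]
      rw [Finset.sum_eq_single i (fun j _ hj => if_neg fun h => hj (Fin.ext h))
        (fun h => absurd (Finset.mem_univ i) h), if_pos rfl]
    have hd : f.natDegree < 5 := by
      refine lt_of_le_of_lt (natDegree_sum_le_of_forall_le _ _ fun j _ => ?_) (by norm_num : 4 < 5)
      exact (natDegree_monomial_le _).trans (by omega)
    have hf : (aeval M f).mulVec b = 0 := by rw [aeval_eq_sum M hd]; simp only [hcoef]; exact hcs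
    have hf0 : f ≠ 0 := fun h => hc (funext fun i => by rw [← hcoef, h, coeff_zero]; rfl)
    obtain ⟨k, hk⟩ := hkill hf
    have hk0 : k ≠ 0 := fun h => hf0 (by rw [hk, h, mul_zero])
    have hk1 : k.natDegree = 0 := by
      have := congrArg natDegree hk
      rw [natDegree_mul p12_monic.ne_zero hk0, p12_natDegree] at this
      omega
    obtain ⟨k₀, rfl⟩ := natDegree_eq_zero.1 hk1
    rw [hk, mul_comm, aeval_mul_mulVec, aeval_C, Algebra.algebraMap_eq_smul_one, Matrix.smul_mulVec,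
      Matrix.one_mulVec] at hf
    exact (smul_eq_zero.1 hf).resolve_left fun e => hk0 (by rw [e, C_0])
  have hbilneg : ∀ y x, bil y (-x) = -bil y x := fun y x => by simp [bil, dotProduct_neg]
  refine ⟨?_, ?_⟩
  · obtain ⟨a₁, ha₁⟩ : Z.Nonempty := Finset.card_pos.1 (by omega)
    obtain ⟨l₁, z₁⟩ := (hmemZ a₁).1 ha₁
    set a₃ := C7.sg n a₁ with h31
    set a₂ := C7.sg n a₃ with h23
    have ha₃ := hZn _ ha₁
    have ha₂ := hZn _ ha₃
    have l₃ := ((hmemZ a₃).1 ha₃).1
    have l₂ := ((hmemZ a₂).1 ha₂).1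
    have hsub : ∀ u ∈ Z, ({u, chevE7.neg u} : Finset ℕ) ⊆ Z := fun u hu => by
      simp [Finset.insert_subset_iff, hu, hZneg u hu]
    have hpc : ∀ u ∈ Z, ({u, chevE7.neg u} : Finset ℕ).card = 2 := fun u hu => by
      rw [Finset.card_pair (C7.root.neg_ne ((hmemZ u).1 hu).1).symm]
    -- three orthogonal roots and no fourth
    obtain ⟨x, hx⟩ : (Z \ {a₁, chevE7.neg a₁}).Nonempty := Finset.card_pos.1 (by
      rw [Finset.card_sdiff_of_subset (hsub _ ha₁), hpc _ ha₁]; omega)
    simp only [Finset.mem_sdiff, Finset.mem_insert, Finset.mem_singleton, not_or] at hx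
    obtain ⟨y, hy⟩ : (Z \ ({a₁, chevE7.neg a₁} ∪ {x, chevE7.neg x})).Nonempty := Finset.card_pos.1 (by
      rw [Finset.card_sdiff_of_subset (Finset.union_subset (hsub _ ha₁) (hsub _ hx.1))]
      have := Finset.card_union_le ({a₁, chevE7.neg a₁} : Finset ℕ) {x, chevE7.neg x}
      rw [hpc _ ha₁, hpc _ hx.1] at this
      omega)
    simp only [Finset.mem_sdiff, Finset.mem_union, Finset.mem_insert, Finset.mem_singleton, not_or] at hy
    have oa := hpair0 a₁ ha₁ x hx.1 hx.2.1 hx.2.2
    have ob := hpair0 a₁ ha₁ y hy.1 hy.2.1.1 hy.2.1.2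
    have oc := hpair0 x hx.1 y hy.1 hy.2.2.1 hy.2.2.2
    have lx := ((hmemZ x).1 hx.1).1
    have ly := ((hmemZ y).1 hy.1).1
    have hall : ∀ e ∈ Z, e = a₁ ∨ e = chevE7.neg a₁ ∨ e = x ∨ e = chevE7.neg x ∨ e = y ∨ e = chevE7.neg y := by
      intro e he
      by_contra hne
      simp only [not_or] at hne
      have le := ((hmemZ e).1 he).1
      have h := hspan a₁ x y ha₁ hx.1 hy.1 oa ob oc (cv e) (hZW _ he) (cv e)
      rw [bil_comm (cv e) (cv a₁), bil_comm (cv e) (cv x), bil_comm (cv e) (cv y), ← pair_eq le le, ← pair_eq l₁ le,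
        ← pair_eq lx le, ← pair_eq ly le, C7.pair_self le, hpair0 a₁ ha₁ e he hne.1 hne.2.1,
        hpair0 x hx.1 e he hne.2.2.1 hne.2.2.2.1, hpair0 y hy.1 e he hne.2.2.2.2.1 hne.2.2.2.2.2] at h
      norm_num at h
    have h4 : ¬ (∀ u ∈ Z, C7.sg (n ^ 4) u = u) := by
      intro hfix
      obtain ⟨v, lv, hv1⟩ := (tbl l₁).2.2
      set M4 := M ^ 4
      set z := cv v + Matrix.vecMul (cv v) (M ^ 4) + Matrix.vecMul (cv v) (M ^ 8) with hz
      have hWz : Wp z := by
        intro i
        have h0 := hkill12 a₁ x y ha₁ hx.1 hy.1 oa ob oc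
        have h1 : (aeval M (X ^ i * (1 + X ^ 4 + X ^ 8) : ℤ[X])).mulVec b = 0 := by
          rw [show (X ^ i * (1 + X ^ 4 + X ^ 8) : ℤ[X]) = X ^ i * (1 + X ^ 2 + X ^ 4) * p12 by rw [p12]; ring,
            aeval_mul_mulVec, h0, Matrix.mulVec_zero]
        have h2 : cv v ⬝ᵥ (aeval M (X ^ i * (1 + X ^ 4 + X ^ 8) : ℤ[X])).mulVec b = 0 := by
          rw [h1, dotProduct_zero]
        rw [show (X ^ i * (1 + X ^ 4 + X ^ 8) : ℤ[X]) = X ^ i + X ^ (4 + i) + X ^ (8 + i) by ring, map_add, map_add,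
          map_pow, map_pow, map_pow, aeval_X, Matrix.add_mulVec, Matrix.add_mulVec, dotProduct_add, dotProduct_add,
          pow_add, pow_add, ← Matrix.mulVec_mulVec, ← Matrix.mulVec_mulVec,
          Matrix.dotProduct_mulVec (cv v) (M ^ 4), Matrix.dotProduct_mulVec (cv v) (M ^ 8)] at h2
        rw [hz, add_dotProduct, add_dotProduct]
        exact h2
      have hp : ∀ u ∈ Z, bil z (cv u) = 3 * pair chevE7 v u := by
        intro u hu
        have lu := ((hmemZ u).1 hu).1
        have e : bil z (cv u) = pair chevE7 v u + pair chevE7 (C7.sg (n ^ 4) v) (C7.sg (n ^ 4) u) +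
            pair chevE7 (C7.sg (n ^ 8) v) (C7.sg (n ^ 8) u) := by
          have h8 : C7.sg (n ^ 8) u = u := by
            rw [show n ^ 8 = n ^ 4 * n ^ 4 from pow_add n 4 4, C7.sg_mul (pow_mem hn 4) (pow_mem hn 4) lu,
              hfix u hu, hfix u hu]
          rw [hfix u hu, h8, pair_eq lv lu, pair_eq (C7.sg_lt (pow_mem hn 4) lv) lu,
            pair_eq (C7.sg_lt (pow_mem hn 8) lv) lu, ← hcv, hsgpow 4 v lv, hsgpow 8 v lv, hz]
          simp [bil, Matrix.add_vecMul, add_dotProduct]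
        rw [e, C7.pair_sg (pow_mem hn 4) lv lu, C7.pair_sg (pow_mem hn 8) lv lu]
        ring
      have h := hspan a₁ x y ha₁ hx.1 hy.1 oa ob oc z hWz z
      rw [bil_comm (cv a₁) z, bil_comm (cv x) z, bil_comm (cv y) z, hp _ ha₁, hp _ hx.1, hp _ hy.1,
        pair_comm lv l₁, hv1] at h
      obtain ⟨k, hk⟩ := bil_even z
      rw [hk] at h
      have key : ∀ A B k : ZMod 4, 2 * (2 * k) = 3 * 1 * (3 * 1) + 3 * A * (3 * A) + 3 * B * (3 * B) →
          1 ^ 2 + A ^ 2 + B ^ 2 = 0 := by decide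
      have h' := congrArg (fun z : ℤ => (z : ZMod 4)) h
      push_cast at h'
      exact absurd (form_mod_four 1 _ _ (key ((pair chevE7 v x : ℤ) : ZMod 4) ((pair chevE7 v y : ℤ) : ZMod 4) (k : ZMod 4)
        (by linear_combination h'))) (by decide)
    -- the permutation of the pairs
    let bs : Fin 3 → ℕ := ![a₁, x, y]
    let rt : Fin 3 → Bool → ℕ := fun i c => if c then chevE7.neg (bs i) else bs i
    have hbZ : ∀ i, bs i ∈ Z := fun i => by fin_cases i <;> [exact ha₁; exact hx.1; exact hy.1]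
    have lb : ∀ i, bs i < chevE7.nroots := fun i => ((hmemZ _).1 (hbZ i)).1
    have hbo : ∀ i j, i ≠ j → pair chevE7 (bs i) (bs j) = 0 := by
      intro i j hij
      fin_cases i <;> fin_cases j <;> simp [bs] at hij ⊢
      exacts [oa, ob, by rw [pair_comm lx l₁, oa], oc, by rw [pair_comm ly l₁, ob], by rw [pair_comm ly lx, oc]]
    have hcover : ∀ e ∈ Z, ∃ i c, e = rt i c := by
      intro e he
      rcases hall e he with h | h | h | h | h | h
      exacts [⟨0, false, h⟩, ⟨0, true, h⟩, ⟨1, false, h⟩, ⟨1, true, h⟩, ⟨2, false, h⟩, ⟨2, true, h⟩]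
    have hstep : ∀ i, ∃ j c, C7.sg n (bs i) = rt j c := fun i => hcover _ (hZn _ (hbZ i))
    choose σ sb hσ using hstep
    have hrt : ∀ i c, C7.sg n (rt i c) = rt (σ i) (c ^^ sb i) := by
      intro i c
      cases c
      · simpa [rt] using hσ i
      · simp only [rt, if_true]
        rw [hsgneg _ (lb i), hσ i]
        cases hsb : sb i <;> simp [rt, C7.root.neg_neg' (lb (σ i))]
    have hσinj : Function.Injective σ := by
      intro i j hij
      by_contra hne
      have h2 := C7.pair_sg hn (lb i) (lb j)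
      rw [hbo i j hne, hσ i, hσ j, hij] at h2
      cases hi : sb i <;> cases hj : sb j <;>
        simp [rt, hi, hj, pair_neg_left, C7.pair_neg, lb, C7.pair_self (lb (σ j)), C7.root.neg_lt] at h2
    have hit : ∀ i c, C7.sg n (C7.sg n (C7.sg n (C7.sg n (rt i c)))) =
        rt (σ (σ (σ (σ i)))) ((((c ^^ sb i) ^^ sb (σ i)) ^^ sb (σ (σ i))) ^^ sb (σ (σ (σ i)))) := by
      intro i c; rw [hrt, hrt, hrt, hrt]
    obtain ⟨k1, k2, k3⟩ : σ 0 ≠ 0 ∧ σ (σ 0) ≠ 0 ∧ σ (σ (σ 0)) = 0 := by
      rcases perm_three σ hσinj sb with h | h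
      · exact h
      · refine absurd (fun u hu => ?_) h4
        obtain ⟨i, c, rfl⟩ := hcover u hu
        have lr := ((hmemZ _).1 hu).1
        rw [show n ^ 4 = n * (n * (n * n)) by rw [pow_succ', pow_succ', pow_two],
          C7.sg_mul hn (mul_mem hn (mul_mem hn hn)) lr, C7.sg_mul hn (mul_mem hn hn) lr, C7.sg_mul hn hn lr, hit,
          (h i c).1, (h i c).2]
    have k4 : σ (σ 0) ≠ σ 0 := fun e => k1 (hσinj e)
    have e₃ : a₃ = rt (σ 0) (sb 0) := h31.trans (hσ 0)
    have e₂ : a₂ = rt (σ (σ 0)) (sb 0 ^^ sb (σ 0)) := by rw [h23, e₃, hrt]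
    have hpr : ∀ i j c d, i ≠ j → pair chevE7 (rt i c) (rt j d) = 0 := by
      intro i j c d hij
      cases c <;> cases d <;> simp [rt, pair_neg_left, C7.pair_neg, lb, C7.root.neg_lt, hbo i j hij]
    have er : a₁ = rt 0 false := rfl
    have o13 : pair chevE7 a₁ a₃ = 0 := by rw [er, e₃]; exact hpr _ _ _ _ k1.symm
    have o12 : pair chevE7 a₁ a₂ = 0 := by rw [er, e₂]; exact hpr _ _ _ _ k2.symm
    have o23 : pair chevE7 a₂ a₃ = 0 := by rw [e₂, e₃]; exact hpr _ _ _ _ k4
    have hback : C7.sg n a₂ = a₁ ∨ C7.sg n a₂ = chevE7.neg a₁ := by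
      rw [e₂, hrt, k3]
      cases ((sb 0 ^^ sb (σ 0)) ^^ sb (σ (σ 0))) <;> simp [rt, bs]
    refine ⟨a₁, a₂, a₃, ⟨l₁, l₂, l₃, h31.symm, h23.symm, hback, o12, o13, o23, fun v hv => ⟨fun hv0 => ?_, ?_⟩⟩⟩
    · have hvZ := (hmemZ v).2 ⟨hv, hv0⟩
      by_contra hn'
      simp only [not_or] at hn'
      have h := hspan a₁ a₂ a₃ ha₁ ha₂ ha₃ o12 o13 o23 (cv v) (hZW _ hvZ) (cv v)
      rw [bil_comm (cv v) (cv a₁), bil_comm (cv v) (cv a₂), bil_comm (cv v) (cv a₃), ← pair_eq hv hv, ← pair_eq l₁ hv,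
        ← pair_eq l₂ hv, ← pair_eq l₃ hv, C7.pair_self hv, hpair0 a₁ ha₁ v hvZ hn'.1 hn'.2.1,
        hpair0 a₂ ha₂ v hvZ hn'.2.2.1 hn'.2.2.2.1, hpair0 a₃ ha₃ v hvZ hn'.2.2.2.2.1 hn'.2.2.2.2.2] at h
      norm_num at h
    · rintro (rfl | rfl | rfl | rfl | rfl | rfl)
      exacts [((hmemZ _).1 ha₁).2, ((hmemZ _).1 (hZneg _ ha₁)).2, ((hmemZ _).1 ha₂).2, ((hmemZ _).1 (hZneg _ ha₂)).2,
        ((hmemZ _).1 ha₃).2, ((hmemZ _).1 (hZneg _ ha₃)).2]
  · intro a₁ a₂ a₃ l₁ l₂ l₃ e1 e3 e2 z₁ o12 o13 o23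
    have m₁ := (hmemZ a₁).2 ⟨l₁, z₁⟩
    have m₃ : a₃ ∈ Z := e1 ▸ hZn _ m₁
    have m₂ : a₂ ∈ Z := e3 ▸ hZn _ m₃
    have hb12 := hkill12 a₁ a₂ a₃ m₁ m₂ m₃ o12 o13 o23
    have v1 : Matrix.vecMul (cv a₁) M = cv a₃ := by rw [hcv, hM, ← cV_sg C7 hn l₁, e1]
    have v3 : Matrix.vecMul (cv a₃) M = cv a₂ := by rw [hcv, hM, ← cV_sg C7 hn l₃, e3]
    have v2 : Matrix.vecMul (cv a₂) M = -cv a₁ := by rw [hcv, hM, ← cV_sg C7 hn l₂, e2, cV_neg l₁]
    have bM : ∀ u w, bil (Matrix.vecMul u M) (Matrix.vecMul w M) = bil u w := fun u w => bil_M hn u w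
    -- pairings of the images
    have s1 : ∀ u, bil (Matrix.vecMul u M) (cv a₁) = -bil u (cv a₂) := fun u => by
      rw [show cv a₁ = Matrix.vecMul (-cv a₂) M by rw [Matrix.neg_vecMul, v2, neg_neg], bM, hbilneg]
    have s3 : ∀ u, bil (Matrix.vecMul u M) (cv a₃) = bil u (cv a₁) := fun u => by rw [← v1, bM]
    have s2 : ∀ u, bil (Matrix.vecMul u M) (cv a₂) = bil u (cv a₃) := fun u => by rw [← v3, bM]
    have hsp := hspan a₁ a₂ a₃ m₁ m₂ m₃ o12 o13 o23
    have hWy : ∀ (y : Fin chevE7.rank → ℤ) (f : ℤ[X]), Wp (Matrix.vecMul y (aeval M (f * p12))) := by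
      intro y f i
      rw [← Matrix.dotProduct_mulVec, show (M ^ i).mulVec b = (aeval M (X ^ i : ℤ[X])).mulVec b by rw [map_pow, aeval_X],
        ← aeval_mul_mulVec, show f * p12 * X ^ i = f * X ^ i * p12 by ring, aeval_mul_mulVec, hb12,
        Matrix.mulVec_zero, dotProduct_zero]
    have hpT : aeval M pT = 0 := by
      have hrow : ∀ y : Fin chevE7.rank → ℤ, Matrix.vecMul y (aeval M pT) = 0 := by
        intro y
        set w := Matrix.vecMul y (aeval M pT) with hw
        have hwW : Wp w := by rw [hw, pT, mul_comm]; exact hWy y _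
        set u := Matrix.vecMul y (aeval M p12)
        have hwu : w = Matrix.vecMul (Matrix.vecMul (Matrix.vecMul u M) M) M + u := by
          rw [hw, pT, map_mul, map_add, map_pow, map_one, aeval_X, ← Matrix.vecMul_vecMul, Matrix.vecMul_add,
            Matrix.vecMul_one]
          simp only [u, Matrix.vecMul_vecMul, pow_succ, pow_zero, one_mul, mul_assoc]
        have hw0 : ∀ z, bil w z = 0 := by
          intro z
          have e : ∀ t, bil w t = bil (Matrix.vecMul (Matrix.vecMul (Matrix.vecMul u M) M) M) t + bil u t :=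
            fun t => by rw [hwu]; simp [bil, Matrix.add_vecMul, add_dotProduct]
          have h := hsp w hwW z
          rw [e (cv a₁), e (cv a₂), e (cv a₃), s1, s2, s3, s2, s3, s1, s3, s1, s2] at h
          linarith
        funext k
        have h0 : Matrix.vecMul (Matrix.vecMul w (cMat chevE7)) bMat7 = 0 := by
          have : Matrix.vecMul w (cMat chevE7) = 0 := funext fun j => by
            have := hw0 (Pi.single j 1)
            simpa [bil] using this
          rw [this, Matrix.zero_vecMul]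
        rw [Matrix.vecMul_vecMul, cMat_bMat7, Matrix.vecMul_smul, Matrix.vecMul_one] at h0
        have := congrFun h0 k
        simp only [Pi.smul_apply, smul_eq_mul, Pi.zero_apply] at this ⊢
        omega
      exact Matrix.ext_of_single_vecMul fun i => by rw [hrow, Matrix.vecMul_zero]
    refine ⟨?_, hpT, fun v hv => ?_⟩
    · -- both factors divide the characteristic polynomial
      have hmon3 : (X ^ 3 + 1 : ℤ[X]).Monic := by simpa using monic_X_pow_add_C (1 : ℤ) (n := 3) (by norm_num)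
      have hd3 : (X ^ 3 + 1 : ℤ[X]) ∣ M.charpoly := by
        set f := M.charpoly %ₘ (X ^ 3 + 1) with hf
        refine (modByMonic_eq_zero_iff_dvd hmon3).1 ?_
        rw [← hf]
        have hdeg : f.natDegree < 3 := by
          have := natDegree_modByMonic_lt M.charpoly hmon3 (fun h => by
            have := congrArg natDegree h; rw [natDegree_add_eq_left_of_natDegree_lt (by simp)] at this; simp at this)
          rwa [natDegree_add_eq_left_of_natDegree_lt (by simp), natDegree_pow, natDegree_X, mul_one] at this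
        have hkz : Matrix.vecMul (cv a₁) (aeval M (X ^ 3 + 1 : ℤ[X])) = 0 := by
          rw [map_add, map_pow, aeval_X, map_one, Matrix.vecMul_add, Matrix.vecMul_one, pow_three,
            ← Matrix.vecMul_vecMul, ← Matrix.vecMul_vecMul, v1, v3, v2, neg_add_cancel]
        have hf0 : Matrix.vecMul (cv a₁) (aeval M f) = 0 := by
          have e := congrArg (fun p : ℤ[X] => Matrix.vecMul (cv a₁) (aeval M p)) (modByMonic_add_div M.charpoly (X ^ 3 + 1))
          beta_reduce at e
          rw [map_add (aeval M), map_mul (aeval M), Matrix.vecMul_add, ← Matrix.vecMul_vecMul, hkz, Matrix.zero_vecMul,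
            add_zero, Matrix.aeval_self_charpoly, Matrix.vecMul_zero] at e
          exact e
        rw [aeval_eq_sum_range' hdeg, Matrix.vecMul_sum, Finset.sum_range_succ, Finset.sum_range_succ,
          Finset.sum_range_one, Matrix.vecMul_smul, Matrix.vecMul_smul, Matrix.vecMul_smul, pow_zero, pow_one,
          Matrix.vecMul_one, pow_two, ← Matrix.vecMul_vecMul, v1, v3] at hf0
        have hb : ∀ t, f.coeff 0 * bil (cv a₁) t + f.coeff 1 * bil (cv a₃) t + f.coeff 2 * bil (cv a₂) t = 0 := fun t => by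
          have := congrArg (fun u => bil u t) hf0
          simp only [bil, Matrix.add_vecMul, Matrix.smul_vecMul, add_dotProduct, smul_dotProduct, smul_eq_mul,
            Matrix.zero_vecMul, zero_dotProduct] at this ⊢
          exact this
        have t1 := hb (cv a₁); have t2 := hb (cv a₂); have t3 := hb (cv a₃)
        rw [bil_comm (cv a₃) (cv a₁), bil_comm (cv a₂) (cv a₁), ← pair_eq l₁ l₁, ← pair_eq l₁ l₃, ← pair_eq l₁ l₂,
          C7.pair_self l₁, o13, o12] at t1
        rw [bil_comm (cv a₃) (cv a₂), ← pair_eq l₁ l₂, ← pair_eq l₂ l₃, ← pair_eq l₂ l₂, C7.pair_self l₂, o12, o23] at t2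
        rw [← pair_eq l₁ l₃, ← pair_eq l₃ l₃, ← pair_eq l₂ l₃, C7.pair_self l₃, o13, o23] at t3
        ext j
        rcases j with _ | _ | _ | j
        · simp only [coeff_zero, zero_add, Nat.reduceAdd]; omega
        · simp only [coeff_zero, zero_add, Nat.reduceAdd]; omega
        · simp only [coeff_zero, zero_add, Nat.reduceAdd]; omega
        · rw [coeff_eq_zero_of_natDegree_lt (by omega), coeff_zero]
      have hd12 : p12 ∣ M.charpoly := by rw [hcharM]; exact dvd_mul_right _ _
      obtain ⟨k, hk⟩ := hd3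
      have hres : p12 ∣ k := by
        obtain ⟨i12, -⟩ := irreducible_cyclotomic_rat (by norm_num) cyclotomic_twelve
        have h1 : p12.map (Int.castRingHom ℚ) ∣ (X ^ 3 + 1 : ℤ[X]).map (Int.castRingHom ℚ) * k.map (Int.castRingHom ℚ) := by
          rw [← Polynomial.map_mul, ← hk]; exact Polynomial.map_dvd _ hd12
        refine (Polynomial.map_dvd_map (Int.castRingHom ℚ) (Int.castRingHom ℚ).injective_int p12_monic).1
          ((i12.prime.dvd_or_dvd h1).resolve_left fun h2 => ?_)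
        have h3 : (X ^ 3 + 1 : ℤ[X]).map (Int.castRingHom ℚ) ≠ 0 :=
          (Polynomial.map_ne_zero_iff (Int.castRingHom ℚ).injective_int).2 hmon3.ne_zero
        have := natDegree_le_of_dvd h2 h3
        rw [natDegree_map_eq_of_injective (Int.castRingHom ℚ).injective_int,
          natDegree_map_eq_of_injective (Int.castRingHom ℚ).injective_int, p12_natDegree,
          natDegree_add_eq_left_of_natDegree_lt (by simp), natDegree_pow, natDegree_X] at this
        omega
      obtain ⟨k', rfl⟩ := hres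
      have hmT : pT.Monic := p12_monic.mul hmon3
      have hdT : pT ∣ M.charpoly := ⟨k', by rw [hk, pT]; ring⟩
      refine eq_of_monic_of_dvd_of_natDegree_le hmT M.charpoly_monic hdT ?_
      rw [Matrix.charpoly_natDegree_eq_dim, Fintype.card_fin, rank_E7, pT, natDegree_mul p12_monic.ne_zero hmon3.ne_zero,
        p12_natDegree, natDegree_add_eq_left_of_natDegree_lt (by simp), natDegree_pow, natDegree_X]
    · set z := Matrix.vecMul (cv v) (aeval M p12) with hz
      have hWz : Wp z := by rw [hz, ← one_mul p12]; exact hWy _ _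
      have hz' : z = Matrix.vecMul (Matrix.vecMul (Matrix.vecMul (Matrix.vecMul (cv v) M) M) M) M -
          Matrix.vecMul (Matrix.vecMul (cv v) M) M + cv v := by
        rw [hz, show p12 = X ^ 4 - X ^ 2 + 1 from rfl, map_add, map_sub, map_pow, map_pow, aeval_X, map_one,
          Matrix.vecMul_add, Matrix.vecMul_sub, Matrix.vecMul_one, Matrix.vecMul_vecMul, Matrix.vecMul_vecMul,
          Matrix.vecMul_vecMul]
        simp only [pow_succ, pow_zero, one_mul, mul_assoc, Matrix.vecMul_vecMul]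
      have e : ∀ t, bil z t = bil (Matrix.vecMul (Matrix.vecMul (Matrix.vecMul (Matrix.vecMul (cv v) M) M) M) M) t -
          bil (Matrix.vecMul (Matrix.vecMul (cv v) M) M) t + bil (cv v) t := fun t => by
        rw [hz']; simp [bil, Matrix.add_vecMul, add_dotProduct, Matrix.sub_vecMul, sub_dotProduct]
      have h := hsp z hWz z
      rw [bil_comm (cv a₁) z, bil_comm (cv a₂) z, bil_comm (cv a₃) z, e (cv a₁), e (cv a₂), e (cv a₃)] at h
      simp only [s1, s2, s3] at h
      obtain ⟨k, hk⟩ := bil_even z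
      rw [hk, ← pair_eq hv l₁, ← pair_eq hv l₂, ← pair_eq hv l₃, pair_comm hv l₁, pair_comm hv l₂, pair_comm hv l₃] at h
      generalize pair chevE7 a₁ v = A at h ⊢
      generalize pair chevE7 a₂ v = B at h ⊢
      generalize pair chevE7 a₃ v = D at h ⊢
      refine (ZMod.intCast_zmod_eq_zero_iff_dvd _ 2).1 ?_
      have h' := congrArg (fun z : ℤ => (z : ZMod 2)) h
      push_cast at h' ⊢
      have key : ∀ A B D : ZMod 2, ∀ k : ZMod 2, 2 * (2 * k) = (A + B + D) * (A + B + D) + (A + B + D) * (A + B + D) +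
          (A + B + D) * (A + B + D) → A + B + D = 0 := by decide
      refine key _ _ _ (k : ZMod 2) ?_
      have f2 : (2 : ZMod 2) = 0 := by decide
      linear_combination h' - (2 * (B : ZMod 2) * D + 4 * (B : ZMod 2) * A + 2 * (D : ZMod 2) * A) * f2

end Cfsg.Agent.Lib.Chev.E7Cyclic
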