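import Cfsg.Agent.Lib.Chev.SLTwoHom
import Mathlib.RingTheory.IntegralDomain
import Mathlib.LinearAlgebra.LinearIndependent.Basic
import Mathlib.FieldTheory.Fixed
import Mathlib.LinearAlgebra.Matrix.GeneralLinearGroup.Defs

/-!
A semilinear map of order four on a plane has a point of period two; hence three commuting copies of `SL₂`
permuted cyclically by a twisted Frobenius have a stable torus on which the cube of the map is the inversion.
-/

set_option autoImplicit false

namespace Cfsg.Agent.Lib.Chev.E7Cyclic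

open RootPair (upT loT val_upT val_loT)
open scoped MatrixGroups

variable {L : Type*} [Field L]

/-- `D S D⁻¹` -/
def cj (D : GL (Fin 2) L) : SL(2, L) →* SL(2, L) where
  toFun S := ⟨(D : Matrix (Fin 2) (Fin 2) L) * S.1 * ((D⁻¹ : GL (Fin 2) L) : Matrix (Fin 2) (Fin 2) L), by
    rw [Matrix.det_mul, Matrix.det_mul, S.2, mul_one, ← Matrix.det_mul, ← Units.val_mul, mul_inv_cancel,
      Units.val_one, Matrix.det_one]⟩
  map_one' := Subtype.ext (by simp [← Units.val_mul])
  map_mul' S S' := Subtype.ext (by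
    show _ = (_ * _ * _ : Matrix (Fin 2) (Fin 2) L) * (_ * _ * _)
    simp only [Matrix.SpecialLinearGroup.coe_mul, mul_assoc]
    congr 2
    rw [← mul_assoc ((D⁻¹ : GL (Fin 2) L) : Matrix (Fin 2) (Fin 2) L) (D : Matrix (Fin 2) (Fin 2) L),
      ← Units.val_mul, inv_mul_cancel, Units.val_one, one_mul])

theorem val_cj (D : GL (Fin 2) L) (S : SL(2, L)) :
    (cj D S).1 = (D : Matrix (Fin 2) (Fin 2) L) * S.1 * ((D⁻¹ : GL (Fin 2) L) : Matrix (Fin 2) (Fin 2) L) := rfl

theorem cj_mul (A B : GL (Fin 2) L) (S : SL(2, L)) : cj (A * B) S = cj A (cj B S) :=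
  Subtype.ext (by simp [val_cj, mul_assoc])

theorem cj_one (S : SL(2, L)) : cj (1 : GL (Fin 2) L) S = S := Subtype.ext (by simp [val_cj])

/-- diagonal (`false`) or antidiagonal (`true`) -/
def Mono2 (b : Bool) (M : Matrix (Fin 2) (Fin 2) L) : Prop :=
  if b then M 0 0 = 0 ∧ M 1 1 = 0 else M 0 1 = 0 ∧ M 1 0 = 0

theorem Mono2.mul {a b : Bool} {M N : Matrix (Fin 2) (Fin 2) L} (h : Mono2 a M) (h' : Mono2 b N) :
    Mono2 (a ^^ b) (M * N) := by
  cases a <;> cases b <;> simp_all [Mono2, Matrix.mul_apply, Fin.sum_univ_two]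

theorem Mono2.inv {a : Bool} {D : GL (Fin 2) L} (h : Mono2 a (D : Matrix (Fin 2) (Fin 2) L)) :
    Mono2 a ((D⁻¹ : GL (Fin 2) L) : Matrix (Fin 2) (Fin 2) L) := by
  rw [Matrix.coe_units_inv, Matrix.inv_def, Matrix.adjugate_fin_two]
  cases a <;> simp_all [Mono2]

theorem Mono2.map {a : Bool} {M : Matrix (Fin 2) (Fin 2) L} (h : Mono2 a M) (f : L →+* L) :
    Mono2 a (M.map f) := by
  cases a <;> simp_all [Mono2]

variable (σ : L ≃+* L)

/-- `σ` on `GL₂` -/
def sG : GL (Fin 2) L →* GL (Fin 2) L := Units.map (σ.toRingHom.mapMatrix).toMonoidHom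

/-- `σ` on `SL₂` -/
def sS : SL(2, L) →* SL(2, L) := Matrix.SpecialLinearGroup.map σ.toRingHom

theorem val_sG (D : GL (Fin 2) L) :
    ((sG σ D : GL (Fin 2) L) : Matrix (Fin 2) (Fin 2) L) = (D : Matrix (Fin 2) (Fin 2) L).map σ.toRingHom := rfl

theorem val_sS (S : SL(2, L)) : (sS σ S).1 = S.1.map σ.toRingHom := rfl

theorem sS_cj (D : GL (Fin 2) L) (S : SL(2, L)) : sS σ (cj D S) = cj (sG σ D) (sS σ S) :=
  Subtype.ext (by
    rw [val_sS, val_cj, val_cj, val_sS, val_sG, ← map_inv, val_sG, Matrix.map_mul, Matrix.map_mul])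

/-- A commuting image forces a scalar matrix. -/
theorem scalar_of_cj {A : GL (Fin 2) L} (h : ∀ S, (cj A S).1 = S.1 ∨ (cj A S).1 = -S.1) :
    ∃ c : L, c ≠ 0 ∧ (A : Matrix (Fin 2) (Fin 2) L) = c • 1 := by
  have hc : ∀ S : SL(2, L), S.1 0 0 + S.1 1 1 = 2 →
      (A : Matrix (Fin 2) (Fin 2) L) * S.1 = S.1 * (A : Matrix (Fin 2) (Fin 2) L) := by
    intro S htr
    have h1 : (cj A S).1 = S.1 := by
      rcases h S with e | e
      · exact e
      · have h2 : Matrix.trace (cj A S).1 = Matrix.trace S.1 := by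
          rw [val_cj, Matrix.trace_mul_cycle, ← Units.val_mul, inv_mul_cancel, Units.val_one, one_mul]
        rw [e, Matrix.trace_neg, Matrix.trace_fin_two, htr] at h2
        have h22 : (2 : L) * 2 = 0 := by linear_combination -h2
        rcases mul_eq_zero.1 h22 with h3 | h3 <;>
        · have hneg : ∀ x : L, -x = x := fun x => by linear_combination (-x) * h3
          rw [e]
          ext i j
          exact hneg _
    conv_rhs => rw [← h1, val_cj, mul_assoc, ← Units.val_mul, inv_mul_cancel, Units.val_one, mul_one]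
  have e1 := hc (upT 1) (by norm_num [val_upT])
  have e2 := hc (loT 1) (by norm_num [val_loT])
  rw [val_upT] at e1
  rw [val_loT] at e2
  have a1 := congrFun (congrFun e1 0) 0
  have a2 := congrFun (congrFun e1 0) 1
  have b1 := congrFun (congrFun e2 0) 0
  simp [Matrix.mul_apply, Fin.sum_univ_two] at a1 a2 b1
  refine ⟨(A : Matrix (Fin 2) (Fin 2) L) 0 0, fun h0 => ?_, ?_⟩
  · have hd := (Matrix.isUnits_det_units A).ne_zero
    rw [Matrix.det_fin_two] at hd
    apply hd
    rw [h0, b1]; ring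
  · ext i j
    fin_cases i <;> fin_cases j <;> simp [a1, b1]
    linear_combination -a2

/-- A semilinear map whose fourth power is a scalar swaps two points. -/
theorem exists_swap [Fintype L] (τ : L ≃+* L) (h4 : ∀ x, τ (τ (τ (τ x))) = x) (h2 : ∃ x, τ (τ x) ≠ x)
    (hnorm : ∀ c : L, c ≠ 0 → τ c = c → ∃ l, l * τ l * τ (τ l) * τ (τ (τ l)) = c)
    {t : L} (ht2 : τ (τ t) = t) (ht1 : τ t ≠ t) (K : GL (Fin 2) L) {c : L} (hc : c ≠ 0)
    (hK : ((K * sG τ K * sG τ (sG τ K) * sG τ (sG τ (sG τ K)) : GL (Fin 2) L) : Matrix (Fin 2) (Fin 2) L)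
      = c • 1) :
    ∃ S : SL(2, L), Mono2 true (((S⁻¹ : SL(2, L)).1) * (K : Matrix (Fin 2) (Fin 2) L) * (sS τ S).1) := by
  classical
  set Km := (K : Matrix (Fin 2) (Fin 2) L) with hKm
  let mp : Matrix (Fin 2) (Fin 2) L → Matrix (Fin 2) (Fin 2) L := fun M => M.map τ
  have hmp : ∀ M N, mp (M * N) = mp M * mp N := fun M N => Matrix.map_mul (f := τ.toRingHom)
  have hK' : Km * mp Km * mp (mp Km) * mp (mp (mp Km)) = c • 1 := by
    rw [← hK]; rfl
  have hτc : τ c = c := by
    have h1 := congrArg mp hK'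
    rw [hmp, hmp, hmp] at h1
    have e4 : mp (mp (mp (mp Km))) = Km := by ext i j; exact h4 _
    rw [e4] at h1
    have h2 : Km * (mp Km * mp (mp Km) * mp (mp (mp Km)) * Km) = Km * mp (c • 1) := by rw [h1]
    rw [show Km * (mp Km * mp (mp Km) * mp (mp (mp Km)) * Km) =
      (Km * mp Km * mp (mp Km) * mp (mp (mp Km))) * Km by noncomm_ring, hK'] at h2
    have e5 : mp (c • (1 : Matrix (Fin 2) (Fin 2) L)) = τ c • 1 := by
      ext i j; fin_cases i <;> fin_cases j <;> simp [mp]
    rw [e5, Matrix.smul_mul, one_mul, Matrix.mul_smul, mul_one] at h2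
    have hK0 : Km ≠ 0 := Units.ne_zero K
    by_contra hne
    exact hK0 ((smul_eq_zero.1 (by rw [sub_smul, h2, sub_self] : (c - τ c) • Km = 0)).resolve_left
      (sub_ne_zero.2 fun h => hne h.symm))
  obtain ⟨l, hl⟩ := hnorm c⁻¹ (inv_ne_zero hc) (by rw [map_inv₀, hτc])
  have hl0 : l ≠ 0 := fun h => inv_ne_zero hc (by rw [← hl, h]; simp)
  set K1 := l • Km with hK1
  let ρ : (Fin 2 → L) → (Fin 2 → L) := fun v => K1.mulVec fun i => τ (v i)
  have hτv : ∀ (M : Matrix (Fin 2) (Fin 2) L) (v : Fin 2 → L),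
      (fun i => τ (M.mulVec v i)) = (mp M).mulVec fun i => τ (v i) := fun M v => by
    funext i; simp [mp, Matrix.mulVec, dotProduct, map_sum]
  have hρ4 : ∀ v, ρ (ρ (ρ (ρ v))) = v := by
    intro v
    simp only [ρ, hτv, Matrix.mulVec_mulVec]
    have e1 : K1 * (mp K1 * (mp (mp K1) * mp (mp (mp K1)))) = 1 := by
      have hs : ∀ (a : L) (M : Matrix (Fin 2) (Fin 2) L), mp (a • M) = τ a • mp M := fun a M => by
        ext i j; simp [mp]
      simp only [hK1, hs, Matrix.smul_mul, Matrix.mul_smul, smul_smul]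
      rw [show Km * (mp Km * (mp (mp Km) * mp (mp (mp Km)))) = c • 1 by rw [← hK']; noncomm_ring, smul_smul]
      convert one_smul L (1 : Matrix (Fin 2) (Fin 2) L) using 2
      rw [← inv_mul_cancel₀ hc, ← hl]; ring
    simp only [hmp, ← mul_assoc] at e1 ⊢
    rw [e1, Matrix.one_mulVec]
    funext i; exact h4 _
  have hρa : ∀ v w, ρ (v + w) = ρ v + ρ w := fun v w => by
    simp only [ρ, ← Matrix.mulVec_add]; congr 1; funext i; exact map_add τ _ _
  have hρs : ∀ (a : L) v, ρ (a • v) = τ a • ρ v := fun a v => by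
    simp only [ρ, ← Matrix.mulVec_smul]; congr 1; funext i; exact map_mul τ _ _
  let V : Submodule L (Fin 2 → L) := Submodule.span L {v | ρ v = v}
  have hV : V = ⊤ := by
    by_contra hne
    obtain ⟨f, hf0, hfV⟩ := V.exists_le_ker_of_lt_top (lt_top_iff_ne_top.2 hne)
    refine hf0 (LinearMap.ext fun v => ?_)
    let ch : Fin 4 → (L →* L) := fun k => ![MonoidHom.id L, (τ : L →* L),
      ((τ : L →* L).comp (τ : L →* L)), ((τ : L →* L).comp ((τ : L →* L).comp (τ : L →* L)))] k
    have hinj : Function.Injective ch := by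
      obtain ⟨x, hx⟩ := h2
      intro a b hab
      have et := DFunLike.congr_fun hab t
      have ex := DFunLike.congr_fun hab x
      have h3 : ∀ y, τ (τ (τ y)) = y → τ y = y := fun y hy => by
        conv_rhs => rw [← h4 y]
        rw [hy]
      fin_cases a <;> fin_cases b <;> simp [ch] at et ex ⊢
      all_goals first
        | exact ht1 et | exact ht1 et.symm | exact hx ex | exact hx ex.symm
        | exact ht1 (τ.injective et) | exact ht1 (τ.injective et.symm)
        | exact hx (τ.injective ex) | exact hx (τ.injective ex.symm)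
        | exact ht1 (τ.injective (τ.injective et)) | exact ht1 (τ.injective (τ.injective et.symm))
        | exact ht1 (h3 t et) | exact ht1 (h3 t et.symm)
    have hli := (linearIndependent_monoidHom L L).comp ch hinj
    rw [Fintype.linearIndependent_iff] at hli
    refine hli ![f v, f (ρ v), f (ρ (ρ v)), f (ρ (ρ (ρ v)))] (funext fun a => ?_) 0
    have hfix : ρ (a • v + τ a • ρ v + τ (τ a) • ρ (ρ v) + τ (τ (τ a)) • ρ (ρ (ρ v))) =
        a • v + τ a • ρ v + τ (τ a) • ρ (ρ v) + τ (τ (τ a)) • ρ (ρ (ρ v)) := by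
      simp only [hρa, hρs, hρ4, h4]; abel
    have h0 := LinearMap.mem_ker.1 (hfV (Submodule.subset_span hfix))
    simp only [map_add, map_smul, smul_eq_mul] at h0
    simp [ch, Fin.sum_univ_four, Function.comp]
    linear_combination h0
  obtain ⟨e, he, f, hf, hdet⟩ : ∃ e, ρ e = e ∧ ∃ f, ρ f = f ∧ e 0 * f 1 - f 0 * e 1 ≠ 0 := by
    by_contra hno
    push Not at hno
    obtain ⟨e, he, he0⟩ : ∃ e, ρ e = e ∧ e ≠ 0 := by
      by_contra hh
      push Not at hh
      have : V = ⊥ := Submodule.span_eq_bot.2 hh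
      rw [hV] at this
      exact top_ne_bot this
    have hsub : ∀ w ∈ V, e 0 * w 1 - w 0 * e 1 = 0 := by
      intro w hw
      induction hw using Submodule.span_induction with
      | mem w hw => exact hno e he w hw
      | zero => simp
      | add u w _ _ hu hw => simp only [Pi.add_apply]; linear_combination hu + hw
      | smul a w _ hw => simp only [Pi.smul_apply, smul_eq_mul]; linear_combination a * hw
    have h1 := hsub ![0, 1] (by rw [hV]; trivial)
    have h0 := hsub ![1, 0] (by rw [hV]; trivial)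
    simp at h1 h0
    exact he0 (funext fun i => by fin_cases i <;> simp [h1, h0])
  set Em : Matrix (Fin 2) (Fin 2) L := !![e 0, f 0; e 1, f 1] with hEm
  set W : Matrix (Fin 2) (Fin 2) L := !![1, 1; t, τ t] with hW
  set S0 := Em * W with hS0
  have hd0 : S0.det ≠ 0 := by
    rw [hS0, Matrix.det_mul, hEm, hW, Matrix.det_fin_two_of, Matrix.det_fin_two_of]
    exact mul_ne_zero hdet (by simpa [sub_eq_zero] using ht1)
  set Dg : Matrix (Fin 2) (Fin 2) L := !![S0.det⁻¹, 0; 0, 1] with hDg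
  let S : SL(2, L) := ⟨S0 * Dg, by
    rw [Matrix.det_mul, hDg, Matrix.det_fin_two_of]; field_simp; ring⟩
  refine ⟨S, ?_⟩
  have hE : K1 * mp Em = Em := by
    have a0 := congrFun he 0
    have a1 := congrFun he 1
    have b0 := congrFun hf 0
    have b1 := congrFun hf 1
    simp [ρ, Matrix.mulVec, dotProduct, Fin.sum_univ_two] at a0 a1 b0 b1
    ext i j
    fin_cases i <;> fin_cases j <;>
      simp [hEm, mp, Matrix.mul_apply, Fin.sum_univ_two] <;> assumption
  have hWs : mp W = W * !![0, 1; 1, 0] := by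
    ext i j
    fin_cases i <;> fin_cases j <;> simp [hW, mp, Matrix.mul_apply, Fin.sum_univ_two, ht2]
  have hdiag : Mono2 false Dg := by simp [Mono2, hDg]
  have key : Km * mp (S0 * Dg) = l⁻¹ • (S0 * (!![0, 1; 1, 0] * mp Dg)) := by
    have : K1 * mp (S0 * Dg) = S0 * (!![0, 1; 1, 0] * mp Dg) := by
      rw [hS0, hmp, hmp, ← mul_assoc, ← mul_assoc, hE, hWs]; noncomm_ring
    rw [← this, hK1, Matrix.smul_mul, smul_smul, inv_mul_cancel₀ hl0, one_smul]
  show Mono2 true ((S⁻¹).1 * Km * mp (S0 * Dg))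
  rw [mul_assoc, key, Matrix.mul_smul]
  have hinv : (S⁻¹).1 * (S0 * Dg) = 1 := by
    exact congrArg Subtype.val (inv_mul_cancel S)
  let Di : Matrix (Fin 2) (Fin 2) L := !![S0.det, 0; 0, 1]
  have hDD : Dg * Di = 1 := by
    ext i j; fin_cases i <;> fin_cases j <;> simp [hDg, Di, Matrix.mul_apply, Fin.sum_univ_two, hd0]
  have e : (S⁻¹).1 * (S0 * (!![0, 1; 1, 0] * mp Dg)) = Di * (!![0, 1; 1, 0] * mp Dg) := by
    calc _ = (S⁻¹).1 * (S0 * (Dg * Di) * (!![0, 1; 1, 0] * mp Dg)) := by rw [hDD, mul_one]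
      _ = ((S⁻¹).1 * (S0 * Dg)) * Di * (!![0, 1; 1, 0] * mp Dg) := by noncomm_ring
      _ = _ := by rw [hinv, one_mul]
  rw [e]
  have hm := (show Mono2 false Di by simp [Mono2, Di]).mul
    ((show Mono2 true (!![0, 1; 1, 0] : Matrix (Fin 2) (Fin 2) L) by simp [Mono2]).mul (hdiag.map τ.toRingHom))
  simp only [Bool.false_xor, Bool.xor_false] at hm
  obtain ⟨m0, m1⟩ := hm
  exact ⟨mul_eq_zero_of_right _ m0, mul_eq_zero_of_right _ m1⟩

end Cfsg.Agent.Lib.Chev.E7Cyclic
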