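import Cfsg.Agent.Lib.Chev.E7Cyclic.Cent
import Mathlib.FieldTheory.Finite.Extension
import Mathlib.GroupTheory.QuotientGroup.Basic

/-!
E₇(q) has a self-centralizing cyclic subgroup of order `(q⁴ - q² + 1)(q³ + 1) / gcd(2, q - 1)`.
-/

set_option autoImplicit false
set_option maxRecDepth 8000

namespace Cfsg.Agent.Lib.Chev.E7Cyclic

open Cfsg.Lie Cfsg.Agent.Lib Cfsg.Agent.Lib.Chev Polynomial Homocyclic
open Cfsg.Agent.Lib.Chev.E6Cyclic (IsTor cast_expr p12)

theorem exists_cartan_sq {K : Type*} [Field K] (z : Fin chevE7.rank → Kˣ) :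
    ∃ y, C7.cartanMap y = fun k => z k ^ 2 := by
  obtain ⟨y, hy⟩ := E6Cyclic.exists_cartan C7 z bMat7 ((2 : ℤ) • 1) (by decide +kernel)
  refine ⟨y, funext fun j => ?_⟩
  rw [hy, Finset.prod_eq_single j (fun k _ hk => by simp [hk]) (by simp)]
  simp only [Matrix.smul_apply, Matrix.one_apply_eq, smul_eq_mul, mul_one]
  exact zpow_natCast (z j) 2

theorem card_ker_E7 {K : Type*} [Field K] [Fintype K] :
    Nat.card (C7.cartanMap (F := K)).ker = Nat.gcd 2 (Fintype.card K - 1) := by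
  rw [C7.card_ker_cartanMap smith_E7, show E7.fast.l = 7 from rfl, Nat.gcd_comm]
  simp [Finset.prod_range_succ]

theorem mod_three_p12 : ∀ t : ZMod 3, t ^ 4 - t ^ 2 + 1 ≠ 0 := by decide

theorem exists_cyclic {F : Type*} [Field F] [Fintype F] (q : ℕ) (hF : Fintype.card F = q) :
    ∃ H : Subgroup ↥(chevE7.group F), IsCyclic ↥H ∧
      Nat.card ↥H = (q ^ 4 - q ^ 2 + 1) * (q ^ 3 + 1) / Nat.gcd 2 (q - 1) ∧
      Subgroup.centralizer (H : Set ↥(chevE7.group F)) = H := by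
  classical
  set C := C7 with hC
  have hq2 : 2 ≤ q := hF ▸ Fintype.one_lt_card
  obtain ⟨r, hr, hrdvd⟩ := Nat.exists_prime_and_dvd (n := q ^ 4 - q ^ 2 + 1) (by
    have := Nat.pow_lt_pow_right (by omega : 1 < q) (by norm_num : 2 < 4)
    omega)
  have := Fact.mk hr
  have hev : (q : ZMod r) ^ 4 - (q : ZMod r) ^ 2 + 1 = 0 := by
    rw [← cast_expr]; exact (ZMod.natCast_eq_zero_iff _ r).2 hrdvd
  have hr2 : r ≠ 2 := by rintro rfl; exact mod_two_seven _ hev
  have hr3 : r ≠ 3 := by rintro rfl; exact mod_three_p12 _ hev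
  have : NeZero ((12 : ℕ) : ZMod r) := ⟨fun h => by
    have h1 : r ∣ 2 * 2 * 3 := (ZMod.natCast_eq_zero_iff 12 r).1 h
    rcases (Nat.Prime.dvd_mul hr).1 h1 with h | h
    · rcases (Nat.Prime.dvd_mul hr).1 h with h | h <;>
        exact hr2 ((Nat.prime_dvd_prime_iff_eq hr Nat.prime_two).1 h)
    · exact hr3 ((Nat.prime_dvd_prime_iff_eq hr Nat.prime_three).1 h)⟩
  have hord : orderOf (q : ZMod r) = 12 := by
    have h : (cyclotomic 12 (ZMod r)).IsRoot (q : ZMod r) := by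
      rw [← map_cyclotomic_int, E6Cyclic.cyclotomic_twelve, IsRoot, p12]
      simpa using hev
    exact (isRoot_cyclotomic_iff.1 h).eq_orderOf.symm
  have hr12 : 12 < r := by
    have hq0 : (q : ZMod r) ≠ 0 := fun h0 => by rw [h0, orderOf_zero] at hord; omega
    have h1 := Nat.le_of_dvd (by have := hr.two_le; omega) (ZMod.orderOf_dvd_card_sub_one hq0)
    omega
  -- the extension
  obtain ⟨p, hchar⟩ := CharP.exists F
  have : Fact p.Prime := ⟨CharP.char_is_prime F p⟩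
  let L := FiniteField.Extension F p 12
  let _ : Fintype L := Fintype.ofFinite L
  have hL : Fintype.card L = q ^ 12 := by
    rw [← Nat.card_eq_fintype_card, FiniteField.natCard_extension, Nat.card_eq_fintype_card, hF]
  obtain ⟨σ, hσ⟩ : ∃ σ : L ≃+* L, ∀ t, σ t = t ^ q :=
    exists_frob (hF ▸ Fintype.isPrimePow_card_of_field) (by norm_num) hL
  let i : F →+* L := algebraMap F L
  have hsub : Set.range i ⊆ {t : L | t ^ q = t} := by
    rintro _ ⟨a, rfl⟩
    show i a ^ q = i a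
    rw [← map_pow, ← hF, FiniteField.pow_card]
  have hrange : Set.range i = {t : L | t ^ q = t} := by
    refine Set.eq_of_subset_of_ncard_le hsub (le_of_eq ?_) (Set.toFinite _)
    rw [← Nat.card_coe_set_eq, ← Nat.card_coe_set_eq]
    exact (card_frob_fixed (d := 12) (by omega) hL).trans
      (by rw [Nat.card_range_of_injective i.injective, Nat.card_eq_fintype_card, hF])
  have hi : ∀ t : L, σ t = t ↔ t ∈ i.range := fun t => by
    rw [hσ]; exact (Set.ext_iff.1 hrange t).symm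
  -- the adjoint group
  let A : Subgroup (GL chevE7.Idx F) := (chevE7.group L).comap (gmap chevE7 i)
  have hGA : chevE7.group F ≤ A := fun a ha => C.gmap_group i ha
  let GA : Subgroup ↥A := (chevE7.group F).subgroupOf A
  have hmemGA : ∀ a : ↥A, a ∈ GA ↔ (a : GL chevE7.Idx F) ∈ chevE7.group F := fun a => Subgroup.mem_subgroupOf
  have hnorm : ∀ a : ↥A, ∀ g ∈ chevE7.group F,
      (a : GL chevE7.Idx F) * g * (a : GL chevE7.Idx F)⁻¹ ∈ chevE7.group F := by
    intro a g hg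
    obtain ⟨k₁, hk₁, h, z, hh, k₂, hk₂, e⟩ := E6Cyclic.exists_tor C i σ hi a.2
    rw [e, show k₁ * h * k₂ * g * (k₁ * h * k₂)⁻¹ = k₁ * (h * (k₂ * g * k₂⁻¹) * h⁻¹) * k₁⁻¹ by group]
    exact mul_mem (mul_mem hk₁ (hh.conj_mem (mul_mem (mul_mem hk₂ hg) (inv_mem hk₂)))) (inv_mem hk₁)
  have : GA.Normal := ⟨fun n hn a => (hmemGA _).2 (hnorm a _ ((hmemGA n).1 hn))⟩
  let φ := QuotientGroup.mk' GA
  have hφ : ∀ a : ↥A, φ a = 1 ↔ (a : GL chevE7.Idx F) ∈ chevE7.group F := fun a => by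
    rw [show φ a = (a : ↥A ⧸ GA) from rfl, QuotientGroup.eq_one_iff]; exact hmemGA a
  set g := Nat.gcd 2 (q - 1) with hgdef
  have hg12 : g = 1 ∨ g = 2 := (Nat.dvd_prime Nat.prime_two).1 (Nat.gcd_dvd_left _ _)
  have hpowg : ∀ a : ↥A, φ a ^ g = 1 := by
    intro a
    obtain ⟨k₁, hk₁, h, z, hh, k₂, hk₂, e⟩ := E6Cyclic.exists_tor C i σ hi a.2
    have hhA : h ∈ A := by
      have : h = k₁⁻¹ * (a : GL chevE7.Idx F) * k₂⁻¹ := by rw [e]; group
      rw [this]; exact mul_mem (mul_mem (inv_mem (hGA hk₁)) a.2) (inv_mem (hGA hk₂))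
    have e' : a = ⟨k₁, hGA hk₁⟩ * ⟨h, hhA⟩ * ⟨k₂, hGA hk₂⟩ := Subtype.ext e
    rw [e', map_mul, map_mul, (hφ ⟨k₁, hGA hk₁⟩).2 hk₁, (hφ ⟨k₂, hGA hk₂⟩).2 hk₂, one_mul, mul_one, ← map_pow, hφ,
      Subgroup.coe_pow]
    have hz : ∃ w : Fin chevE7.rank → Fˣ, (fun k => w k ^ 2) = z ^ g := by
      rcases hg12 with h1 | h2
      · have hcop : ∀ k, ∃ m : ℕ, (z k ^ 2) ^ m = z k := fun k =>
          exists_pow_eq_self_of_coprime (Nat.Coprime.coprime_dvd_right (by
            rw [← hF, ← Fintype.card_units]; exact orderOf_dvd_card) h1)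
        choose m hm using hcop
        exact ⟨fun k => z k ^ m k, funext fun k => by
          rw [h1, pow_one, ← pow_mul, mul_comm, pow_mul, hm]⟩
      · exact ⟨z, by rw [h2]; rfl⟩
    obtain ⟨w, hw⟩ := hz
    obtain ⟨y, hy⟩ := exists_cartan_sq w
    refine IsTor.mem_group (C := C) (i := i) (y := y) ?_
    rw [hy, hw]
    exact hh.pow g
  -- an element of order `r`
  have hker : Nat.card (C.cartanMap (F := F)).ker = g := by
    rw [hC, card_ker_E7, hF]
  have hrg : ¬ r ∣ g := by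
    rcases hg12 with h | h <;> rw [h] <;> intro hd
    · have := Nat.le_of_dvd (by norm_num) hd; omega
    · have := Nat.le_of_dvd (by norm_num) hd; omega
  have hrG : r ∣ Nat.card ↥GA := by
    rw [Nat.card_congr (Subgroup.subgroupOfEquivOfLe hGA).toEquiv, ← ZMod.natCast_eq_zero_iff]
    have h1 := congrArg (fun z : ℤ => (z : ZMod r))
      (C.card_eq (F := F) (degs := [2, 6, 8, 10, 12, 14, 18]) (by decide +kernel) (by simp) hker)
    simp only [Int.cast_natCast, Int.cast_mul, ← Int.coe_castRingHom, map_list_prod, List.map_map] at h1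
    refine (mul_eq_zero.1 (h1.trans (mul_eq_zero_of_right _ (List.prod_eq_zero (List.mem_map.2 ⟨12, by simp, ?_⟩))))).resolve_left
      fun h => hrg ((ZMod.natCast_eq_zero_iff g r).1 h)
    simp [hF, orderOf_dvd_iff_pow_eq_one.1 hord.dvd]
  obtain ⟨x₀, hx₀⟩ := exists_prime_orderOf_dvd_card' (G := ↥GA) r hrG
  set x : GL chevE7.Idx F := ((x₀ : ↥A) : GL chevE7.Idx F) with hxdef
  have hxG : x ∈ chevE7.group F := (hmemGA _).1 x₀.2
  have hxo : orderOf x = r := by rw [hxdef, Subgroup.orderOf_coe, Subgroup.orderOf_coe, hx₀]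
  obtain ⟨a₁, ha₁A, ha₁o, ha₁x, ha₁max, hout⟩ := exists_gen hq2 hr12 hord hL i σ hσ hi hxG hxo
  set N := (q ^ 4 - q ^ 2 + 1) * (q ^ 3 + 1) with hNdef
  set aA : ↥A := ⟨a₁, ha₁A⟩ with haA
  have hYG : a₁ ^ g ∈ chevE7.group F := by
    have := (hφ (aA ^ g)).1 (by rw [map_pow]; exact hpowg aA)
    simpa [haA] using this
  set Y : ↥(chevE7.group F) := ⟨a₁ ^ g, hYG⟩ with hY
  have hgN : g ∣ N := by
    rcases hg12 with h | h <;> rw [h]
    · exact one_dvd _
    · refine Dvd.dvd.mul_left ?_ _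
      have h2 : 2 ∣ q - 1 := h ▸ Nat.gcd_dvd_right 2 (q - 1)
      have hodd : Odd q := by
        rcases Nat.even_or_odd q with ⟨k, hk⟩ | h'
        · omega
        · exact h'
      exact (Odd.add_odd (hodd.pow (n := 3)) odd_one).two_dvd
  have hYo : orderOf Y = N / g := by
    rw [← Subgroup.orderOf_coe, hY]
    show orderOf (a₁ ^ g) = _
    rw [orderOf_pow, ha₁o, Nat.gcd_eq_right hgN]
  have key : ∀ w : ↥(chevE7.group F), (w : GL chevE7.Idx F) * x = x * (w : GL chevE7.Idx F) →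
      (w : GL chevE7.Idx F) * a₁ ^ g = a₁ ^ g * (w : GL chevE7.Idx F) → w ∈ Subgroup.zpowers Y := by
    intro w hw hw'
    obtain ⟨j, hj⟩ := Subgroup.mem_zpowers_iff.1 (ha₁max _ (hGA w.2) hw hw')
    have hgj : (g : ℤ) ∣ j := by
      rcases hg12 with h | h
      · rw [h]; exact one_dvd _
      · have h1 : φ aA ^ j = 1 := by
          rw [← map_zpow, hφ]
          rw [Subgroup.coe_zpow]
          show a₁ ^ j ∈ chevE7.group F
          rw [hj]; exact w.2
        have h2 : orderOf (φ aA) = 2 := by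
          refine orderOf_eq_prime (h ▸ hpowg aA) fun h' => hout h ((hφ aA).1 h')
        rw [h, show ((2 : ℕ) : ℤ) = (orderOf (φ aA) : ℤ) by rw [h2], orderOf_dvd_iff_zpow_eq_one, h1]
    obtain ⟨j', rfl⟩ := hgj
    refine Subgroup.mem_zpowers_iff.2 ⟨j', Subtype.ext ?_⟩
    rw [Subgroup.coe_zpow, hY, ← hj]
    show (a₁ ^ g) ^ j' = _
    rw [zpow_mul, zpow_natCast]
  have hxY : (⟨x, hxG⟩ : ↥(chevE7.group F)) ∈ Subgroup.zpowers Y :=
    key ⟨x, hxG⟩ rfl ((Commute.pow_left (show Commute a₁ x from ha₁x) g).eq.symm)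
  refine ⟨Subgroup.zpowers Y, inferInstance, by rw [Nat.card_zpowers, hYo], le_antisymm (fun w hw => ?_) ?_⟩
  · have h1 := congrArg Subtype.val (Subgroup.mem_centralizer_iff.1 hw _ hxY)
    have h2 := congrArg Subtype.val (Subgroup.mem_centralizer_iff.1 hw _ (Subgroup.mem_zpowers Y))
    exact key w h1.symm h2.symm
  · intro w hw
    rw [Subgroup.mem_centralizer_iff]
    intro z hz
    obtain ⟨j, rfl⟩ := hw
    obtain ⟨j', rfl⟩ := hz
    exact (Commute.zpow_zpow_self Y j' j).eq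

end Cfsg.Agent.Lib.Chev.E7Cyclic
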