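import Cfsg.Agent.Lib.Chev.E7Cyclic.Descent

/-!
Three commuting copies of `SL₂` permuted cyclically.
-/

set_option autoImplicit false

namespace Cfsg.Agent.Lib.Chev.E7Cyclic

open RootPair (upT loT val_upT val_loT)
open scoped MatrixGroups

variable {L : Type*} [Field L] {G : Type*} [Group G]

/-- The kernel of a map of `SL₂` separating opposite root elements is scalar. -/
theorem ker_scalar (φ : SL(2, L) →* G) (hXY : ∀ u t : L, φ (upT u) = φ (loT t) → t = 0) {k : SL(2, L)}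
    (hk : φ k = 1) : k.1 = 1 ∨ k.1 = -1 := by
  have hker : ∀ A, φ (A * k * A⁻¹) = 1 := fun A => by rw [map_mul, map_mul, hk, mul_one, ← map_mul, mul_inv_cancel, map_one]
  have hd := RootPair.det_eq k
  -- upper triangular
  have hc : k.1 1 0 = 0 := by
    by_contra hc
    set c := k.1 1 0
    set A := upT (-(k.1 0 0 / c)) with hA
    have h1 : φ (A * k) = φ A := by rw [map_mul, hk, mul_one]
    set m := A * k * upT (-(k.1 1 1 / c)) with hm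
    have h2 : φ m = φ (upT (-(k.1 0 0 / c) + -(k.1 1 1 / c))) := by
      rw [hm, map_mul, h1, hA, ← map_mul]; congr 1
      ext i j; fin_cases i <;> fin_cases j <;> simp [val_upT, Matrix.mul_apply, Fin.sum_univ_two, add_comm]
    set s := -(k.1 0 0 / c) + -(k.1 1 1 / c)
    have hc' : k.1 1 0 ≠ 0 := hc
    have hdd : k.1 0 0 * k.1 1 1 - k.1 0 1 * k.1 1 0 = 1 := hd
    have hmv : m.1 = !![0, -c⁻¹; c, 0] := by
      ext i j
      fin_cases i <;> fin_cases j <;>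
        simp [hm, hA, val_upT, val_loT, Matrix.mul_apply, Matrix.vecMul, dotProduct, Fin.sum_univ_two, c] <;>
          field_simp <;> first | ring1 | linear_combination hd | linear_combination -hdd |
            linear_combination ((k.1 1 0 - 1) * hdd) | linear_combination (k.1 1 0 * hdd) | linear_combination (-k.1 1 0 * hdd)
    have hm2 : m * upT 1 = loT (-c ^ 2) * m := by
      ext i j
      fin_cases i <;> fin_cases j <;>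
        simp [hmv, val_upT, val_loT, Matrix.mul_apply, Fin.sum_univ_two] <;> field_simp [hc] <;> ring
    have h3 := congrArg φ hm2
    rw [map_mul φ m, map_mul φ _ m, h2] at h3
    have h4 : φ (upT 1) = φ (loT (-c ^ 2)) := by
      rw [← mul_inv_eq_iff_eq_mul, ← map_mul, ← map_inv, ← map_mul] at h3
      rw [← h3]; congr 1
      rw [eq_mul_inv_iff_mul_eq]
      ext i j; fin_cases i <;> fin_cases j <;> simp [val_upT, Matrix.mul_apply, Fin.sum_univ_two, add_comm]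
    exact hc (pow_eq_zero_iff two_ne_zero |>.1 (neg_eq_zero.1 (hXY _ _ h4)))
  -- lower triangular
  have hb : k.1 0 1 = 0 := by
    by_contra hb
    set b := k.1 0 1
    set A := loT (-(k.1 1 1 / b)) with hA
    set m := A * k * loT (-(k.1 0 0 / b)) with hm
    set s := -(k.1 1 1 / b) + -(k.1 0 0 / b)
    have h2 : φ m = φ (loT s) := by
      rw [hm, map_mul, map_mul, hk, mul_one, hA, ← map_mul]; congr 1
      ext i j; fin_cases i <;> fin_cases j <;> simp [s, val_loT, Matrix.mul_apply, Fin.sum_univ_two]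
    have hb' : k.1 0 1 ≠ 0 := hb
    have hdd : k.1 0 0 * k.1 1 1 - k.1 0 1 * k.1 1 0 = 1 := hd
    have hmv : m.1 = !![0, b; -b⁻¹, 0] := by
      ext i j
      fin_cases i <;> fin_cases j <;>
        simp [hm, hA, val_upT, val_loT, Matrix.mul_apply, Matrix.vecMul, dotProduct, Fin.sum_univ_two, b] <;>
          field_simp <;> first | ring1 | linear_combination hd | linear_combination -hdd |
            linear_combination ((k.1 0 1 - 1) * hdd) | linear_combination (k.1 0 1 * hdd) | linear_combination (-k.1 0 1 * hdd)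
    have hm2 : m * loT 1 = upT (-b ^ 2) * m := by
      ext i j
      fin_cases i <;> fin_cases j <;>
        simp [hmv, val_upT, val_loT, Matrix.mul_apply, Fin.sum_univ_two] <;> field_simp [hb] <;> ring
    have h3 := congrArg φ hm2
    rw [map_mul φ m, map_mul φ _ m, h2] at h3
    have h4 : φ (loT 1) = φ (upT (-b ^ 2)) := by
      rw [← mul_inv_eq_iff_eq_mul, ← map_mul, ← map_inv, ← map_mul] at h3
      rw [← h3]; congr 1
      rw [eq_mul_inv_iff_mul_eq]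
      ext i j; fin_cases i <;> fin_cases j <;> simp [val_loT, Matrix.mul_apply, Fin.sum_univ_two, add_comm]
    exact one_ne_zero (hXY _ _ h4.symm)
  have hh : k * upT 1 = upT (k.1 0 0 ^ 2) * k := by
    rw [hc, mul_zero, sub_zero] at hd
    ext i j
    fin_cases i <;> fin_cases j <;> simp [val_upT, Matrix.mul_apply, Fin.sum_univ_two, hb, hc]
    linear_combination (-k.1 0 0) * hd
  have h5 : φ (upT 1) = φ (upT (k.1 0 0 ^ 2)) := by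
    have := congrArg φ hh
    rwa [map_mul, map_mul, hk, one_mul, mul_one] at this
  have h6 : k.1 0 0 ^ 2 = 1 := by
    have h7 : φ (upT (k.1 0 0 ^ 2 - 1)) = φ (loT 0) := by
      have e : upT (k.1 0 0 ^ 2 - 1) * upT 1 = upT (k.1 0 0 ^ 2) := by
        ext i j; fin_cases i <;> fin_cases j <;> simp [val_upT, Matrix.mul_apply, Fin.sum_univ_two]
      have e0 : (loT 0 : SL(2, L)) = 1 := by ext i j; fin_cases i <;> fin_cases j <;> simp [val_loT]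
      have := congrArg φ e
      rw [map_mul, ← h5, mul_eq_right] at this
      rw [this, e0, map_one]
    by_contra hne
    set z := k.1 0 0 ^ 2 - 1
    have hz : z ≠ 0 := sub_ne_zero.2 hne
    set W : SL(2, L) := RootPair.wT
    have e : W * upT z = loT (-z) * W := by
      ext i j; fin_cases i <;> fin_cases j <;> simp [W, RootPair.val_wT, val_upT, val_loT, Matrix.mul_apply, Fin.sum_univ_two]
    have e0 : (loT 0 : SL(2, L)) = 1 := by ext i j; fin_cases i <;> fin_cases j <;> simp [val_loT]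
    have h8 := congrArg φ e
    rw [map_mul, map_mul, h7, e0, map_one, mul_one, eq_comm, mul_eq_right] at h8
    exact hz (neg_eq_zero.1 (hXY 0 _ (by
      rw [h8, show (upT 0 : SL(2, L)) = 1 by ext i j; fin_cases i <;> fin_cases j <;> simp [val_upT], map_one])))
  rw [hc, mul_zero, sub_zero] at hd
  have h11 : k.1 1 1 = k.1 0 0 := by linear_combination k.1 0 0 * hd - k.1 1 1 * h6
  rcases sq_eq_one_iff.1 h6 with e | e
  · left; ext i j; fin_cases i <;> fin_cases j <;> simp [hb, hc, h11, e]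
  · right; ext i j; fin_cases i <;> fin_cases j <;> simp [hb, hc, h11, e]

theorem cj_mono_up {b : Bool} {D : GL (Fin 2) L} (h : Mono2 b (D : Matrix (Fin 2) (Fin 2) L)) :
    ∃ c : L, cj D (upT 1) = if b then loT c else upT c := by
  have hd := (Matrix.isUnits_det_units D).ne_zero
  rw [Matrix.det_fin_two] at hd
  have hi : ((D⁻¹ : GL (Fin 2) L) : Matrix (Fin 2) (Fin 2) L) =
      ((D : Matrix (Fin 2) (Fin 2) L).det)⁻¹ • (D : Matrix (Fin 2) (Fin 2) L).adjugate := by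
    rw [Matrix.coe_units_inv, Matrix.inv_def, Ring.inverse_eq_inv']
  rw [Matrix.det_fin_two, Matrix.adjugate_fin_two] at hi
  cases b <;> simp only [Mono2, Bool.false_eq_true, if_false, if_true] at h ⊢ <;> obtain ⟨x, y⟩ := h <;>
    rw [x, y] at hd hi <;> simp only [mul_zero, zero_mul, sub_zero, zero_sub, neg_ne_zero, mul_ne_zero_iff] at hd
  · refine ⟨(D : Matrix (Fin 2) (Fin 2) L) 0 0 / (D : Matrix (Fin 2) (Fin 2) L) 1 1, Subtype.ext ?_⟩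
    rw [val_cj, hi]
    ext i j
    fin_cases i <;> fin_cases j <;>
      simp [val_upT, Matrix.mul_apply, Fin.sum_univ_two, x, y] <;> field_simp [hd.1, hd.2]
  · refine ⟨(D : Matrix (Fin 2) (Fin 2) L) 1 0 / (D : Matrix (Fin 2) (Fin 2) L) 0 1, Subtype.ext ?_⟩
    rw [val_cj, hi]
    ext i j
    fin_cases i <;> fin_cases j <;>
      simp [val_upT, val_loT, Matrix.mul_apply, Fin.sum_univ_two, x, y] <;> field_simp [hd.1, hd.2]

/-- The inclusion of `SL₂` in `GL₂`. -/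
def inc : SL(2, L) →* GL (Fin 2) L := Matrix.SpecialLinearGroup.toGL

theorem val_inc (S : SL(2, L)) : ((inc S : GL (Fin 2) L) : Matrix (Fin 2) (Fin 2) L) = S.1 := rfl

theorem cj_inc (S T : SL(2, L)) : cj (inc S) T = S * T * S⁻¹ :=
  Subtype.ext (by rw [val_cj, ← map_inv, val_inc, val_inc]; rfl)

theorem sG_inc (σ : L ≃+* L) (S : SL(2, L)) : sG σ (inc S) = inc (sS σ S) := Units.ext rfl

theorem exists_frame [Fintype L] (σ τ : L ≃+* L) (hτ : ∀ x, τ x = σ (σ (σ x)))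
    (h4 : ∀ x, τ (τ (τ (τ x))) = x) (h2 : ∃ x, τ (τ x) ≠ x)
    (hnorm : ∀ c : L, c ≠ 0 → τ c = c → ∃ l, l * τ l * τ (τ l) * τ (τ (τ l)) = c)
    {t : L} (ht2 : τ (τ t) = t) (ht1 : τ t ≠ t)
    (θ : G →* G) (φ₁ φ₂ φ₃ : SL(2, L) →* G) (h12 : ∀ a b, Commute (φ₁ a) (φ₂ b))
    (h13 : ∀ a b, Commute (φ₁ a) (φ₃ b)) (h23 : ∀ a b, Commute (φ₂ a) (φ₃ b))
    (e1 : ∀ S, θ (φ₁ S) = φ₁ (sS σ S)) (e2 : ∀ S, θ (φ₂ S) = φ₂ (sS σ S)) (e3 : ∀ S, θ (φ₃ S) = φ₃ (sS σ S))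
    (hXY : ∀ u t : L, φ₁ (upT u) = φ₁ (loT t) → t = 0)
    (n n₀ : G) (D₁ D₂ D₃ : GL (Fin 2) L) {b₁ b₂ b₃ : Bool} (hD₁ : Mono2 b₁ (D₁ : Matrix (Fin 2) (Fin 2) L))
    (hD₂ : Mono2 b₂ (D₂ : Matrix (Fin 2) (Fin 2) L)) (hD₃ : Mono2 b₃ (D₃ : Matrix (Fin 2) (Fin 2) L))
    (c1 : ∀ S, n * φ₂ S * n⁻¹ = φ₁ (cj D₁ S)) (c2 : ∀ S, n * φ₃ S * n⁻¹ = φ₂ (cj D₂ S))
    (c3 : ∀ S, n * φ₁ S * n⁻¹ = φ₃ (cj D₃ S))
    (Z₁ Z₂ Z₃ : SL(2, L)) (hn₀ : n₀ = φ₁ Z₁ * φ₂ Z₂ * φ₃ Z₃ * n)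
    (hper : ∀ x, (fun y => n₀⁻¹ * θ y * n₀)^[12] x = x) :
    ∃ (g₁ g₂ g₃ m : SL(2, L)) (b : Bool), Mono2 b m.1 ∧
      (θ (φ₁ g₁ * φ₂ g₂ * φ₃ g₃))⁻¹ * n₀ * (φ₁ g₁ * φ₂ g₂ * φ₃ g₃) = φ₃ m * n ∧
      ∃ c : L, (φ₃ m * n) * (φ₃ m * n) * (φ₃ m * n) * φ₁ (upT 1) * ((φ₃ m * n) * (φ₃ m * n) * (φ₃ m * n))⁻¹
        = φ₁ (loT c) := by
  classical
  set K : GL (Fin 2) L := D₃⁻¹ * (inc Z₃)⁻¹ * sG σ (D₂⁻¹ * (inc Z₂)⁻¹) * sG σ (sG σ (D₁⁻¹ * (inc Z₁)⁻¹)) with hK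
  have hss : ∀ S, sS τ S = sS σ (sS σ (sS σ S)) := fun S => by ext i j; exact hτ _
  have hsG : ∀ A, sG τ A = sG σ (sG σ (sG σ A)) := fun A => by ext i j; exact hτ _
  set Ψ : G → G := fun y => n₀⁻¹ * θ y * n₀ with hΨ
  have step1 : ∀ S, Ψ (φ₁ S) = φ₂ (cj (D₁⁻¹ * (inc Z₁)⁻¹) (sS σ S)) := fun S => by
    show n₀⁻¹ * θ (φ₁ S) * n₀ = _
    rw [e1, hn₀, cj_mul, ← map_inv inc, cj_inc]
    have k1 := c1 (cj D₁⁻¹ (Z₁⁻¹ * sS σ S * Z₁⁻¹⁻¹))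
    rw [← cj_mul, mul_inv_cancel, cj_one, inv_inv] at k1
    rw [inv_inv]
    calc (φ₁ Z₁ * φ₂ Z₂ * φ₃ Z₃ * n)⁻¹ * φ₁ (sS σ S) * (φ₁ Z₁ * φ₂ Z₂ * φ₃ Z₃ * n)
        = n⁻¹ * ((φ₂ Z₂ * φ₃ Z₃)⁻¹ * ((φ₁ Z₁)⁻¹ * φ₁ (sS σ S) * φ₁ Z₁) * (φ₂ Z₂ * φ₃ Z₃)) * n := by group
      _ = n⁻¹ * ((φ₁ Z₁)⁻¹ * φ₁ (sS σ S) * φ₁ Z₁) * n := by
          have hcm : Commute (φ₂ Z₂ * φ₃ Z₃) ((φ₁ Z₁)⁻¹ * φ₁ (sS σ S) * φ₁ Z₁) := by
            rw [← map_inv, ← map_mul, ← map_mul]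
            exact ((h12 _ _).symm).mul_left (h13 _ _).symm
          rw [hcm.inv_left.eq, inv_mul_cancel_right]
      _ = _ := by rw [← map_inv, ← map_mul, ← map_mul, ← k1]; group
  have step2 : ∀ S, Ψ (φ₂ S) = φ₃ (cj (D₂⁻¹ * (inc Z₂)⁻¹) (sS σ S)) := fun S => by
    show n₀⁻¹ * θ (φ₂ S) * n₀ = _
    rw [e2, hn₀, cj_mul, ← map_inv inc, cj_inc]
    have k1 := c2 (cj D₂⁻¹ (Z₂⁻¹ * sS σ S * Z₂⁻¹⁻¹))
    rw [← cj_mul, mul_inv_cancel, cj_one, inv_inv] at k1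
    rw [inv_inv]
    calc (φ₁ Z₁ * φ₂ Z₂ * φ₃ Z₃ * n)⁻¹ * φ₂ (sS σ S) * (φ₁ Z₁ * φ₂ Z₂ * φ₃ Z₃ * n)
        = n⁻¹ * ((φ₃ Z₃)⁻¹ * ((φ₂ Z₂)⁻¹ * ((φ₁ Z₁)⁻¹ * φ₂ (sS σ S) * φ₁ Z₁) * φ₂ Z₂) * φ₃ Z₃) * n := by group
      _ = n⁻¹ * ((φ₂ Z₂)⁻¹ * φ₂ (sS σ S) * φ₂ Z₂) * n := by
          rw [((h12 Z₁ (sS σ S)).inv_left).eq, inv_mul_cancel_right]
          have hcm : Commute (φ₃ Z₃) ((φ₂ Z₂)⁻¹ * φ₂ (sS σ S) * φ₂ Z₂) := by
            rw [← map_inv, ← map_mul, ← map_mul]; exact (h23 _ _).symm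
          rw [hcm.inv_left.eq, inv_mul_cancel_right]
      _ = _ := by rw [← map_inv, ← map_mul, ← map_mul, ← k1]; group
  have step3 : ∀ S, Ψ (φ₃ S) = φ₁ (cj (D₃⁻¹ * (inc Z₃)⁻¹) (sS σ S)) := fun S => by
    show n₀⁻¹ * θ (φ₃ S) * n₀ = _
    rw [e3, hn₀, cj_mul, ← map_inv inc, cj_inc]
    have k1 := c3 (cj D₃⁻¹ (Z₃⁻¹ * sS σ S * Z₃⁻¹⁻¹))
    rw [← cj_mul, mul_inv_cancel, cj_one, inv_inv] at k1
    rw [inv_inv]
    calc (φ₁ Z₁ * φ₂ Z₂ * φ₃ Z₃ * n)⁻¹ * φ₃ (sS σ S) * (φ₁ Z₁ * φ₂ Z₂ * φ₃ Z₃ * n)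
        = n⁻¹ * ((φ₃ Z₃)⁻¹ * ((φ₁ Z₁ * φ₂ Z₂)⁻¹ * φ₃ (sS σ S) * (φ₁ Z₁ * φ₂ Z₂)) * φ₃ Z₃) * n := by group
      _ = n⁻¹ * ((φ₃ Z₃)⁻¹ * φ₃ (sS σ S) * φ₃ Z₃) * n := by
          rw [((h13 Z₁ (sS σ S)).mul_left (h23 Z₂ (sS σ S))).inv_left.eq, inv_mul_cancel_right]
      _ = _ := by rw [← map_inv, ← map_mul, ← map_mul, ← k1]; group
  have step : ∀ S, Ψ (Ψ (Ψ (φ₁ S))) = φ₁ (cj K (sS τ S)) := fun S => by
    rw [step1, step2, step3, hss, hK]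
    simp only [sS_cj, ← cj_mul]
    congr 2
    simp only [map_mul, map_inv]
    group
  have hiter : ∀ S, φ₁ (cj (K * sG τ K * sG τ (sG τ K) * sG τ (sG τ (sG τ K))) S) = φ₁ S := fun S => by
    have h := hper (φ₁ S)
    simp only [Function.iterate_succ, Function.iterate_zero, id_eq, Function.comp] at h
    change Ψ (Ψ (Ψ (Ψ (Ψ (Ψ (Ψ (Ψ (Ψ (Ψ (Ψ (Ψ (φ₁ S)))))))))))) = φ₁ S at h
    rw [step, step, step, step] at h
    simp only [sS_cj, ← cj_mul] at h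
    have e4 : sS τ (sS τ (sS τ (sS τ S))) = S := by ext i j; exact h4 _
    rw [e4] at h
    convert h using 3
    simp only [map_mul, mul_assoc]
  obtain ⟨c, hc, hKc⟩ := scalar_of_cj (A := K * sG τ K * sG τ (sG τ K) * sG τ (sG τ (sG τ K))) fun S => by
    set A := K * sG τ K * sG τ (sG τ K) * sG τ (sG τ (sG τ K))
    have hk : φ₁ (cj A S * S⁻¹) = 1 := by rw [map_mul, hiter S, ← map_mul, mul_inv_cancel, map_one]
    have e : (cj A S).1 = (cj A S * S⁻¹).1 * S.1 := by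
      rw [← Matrix.SpecialLinearGroup.coe_mul, inv_mul_cancel_right]
    rcases ker_scalar φ₁ hXY hk with h | h
    · left; rw [e, h, one_mul]
    · right; rw [e, h, neg_one_mul]
  obtain ⟨S, hS⟩ := exists_swap τ h4 h2 hnorm ht2 ht1 K hc hKc
  set g₂ : SL(2, L) := cj D₁⁻¹ (Z₁⁻¹ * sS σ S) with hg₂
  -- the twisted `cj` keeps determinants, so these are products in `SL₂`
  set g₃ : SL(2, L) := cj D₂⁻¹ (Z₂⁻¹ * sS σ g₂) with hg₃
  set m : SL(2, L) := (sS σ g₃)⁻¹ * Z₃ * cj D₃ S with hm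
  set E : GL (Fin 2) L := D₁ * D₂ * inc m * D₃ with hE
  have hmid : Mono2 true (((inc S)⁻¹ * K * inc (sS τ S) : GL (Fin 2) L) : Matrix (Fin 2) (Fin 2) L) := by
    rw [Units.val_mul, Units.val_mul, ← map_inv, val_inc, val_inc]; exact hS
  have hmid' := hmid.inv
  have hcj : ∀ (D : GL (Fin 2) L) (T : SL(2, L)), inc (cj D T) = D * inc T * D⁻¹ := fun D T => Units.ext rfl
  obtain ⟨bm, hbm, hEb⟩ : ∃ bm, Mono2 bm m.1 ∧ Mono2 true (E : Matrix (Fin 2) (Fin 2) L) := by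
    have e : inc m = sG σ D₂⁻¹ * sG σ (sG σ D₁⁻¹) * ((inc S)⁻¹ * K * inc (sS τ S))⁻¹ * D₃⁻¹ := by
      rw [hm, hg₃, hg₂, hK, hss]
      simp only [map_mul, map_inv, hcj, sS_cj, ← sG_inc]
      group
    have hm2 : Mono2 (((b₂ ^^ b₁) ^^ true) ^^ b₃) ((inc m : GL (Fin 2) L) : Matrix (Fin 2) (Fin 2) L) := by
      rw [e, Units.val_mul, Units.val_mul, Units.val_mul, val_sG, val_sG, val_sG]
      exact (((hD₂.inv.map σ.toRingHom).mul ((hD₁.inv.map σ.toRingHom).map σ.toRingHom)).mul hmid').mul hD₃.inv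
    refine ⟨_, hm2, ?_⟩
    rw [hE, Units.val_mul, Units.val_mul, Units.val_mul]
    have := ((hD₁.mul hD₂).mul hm2).mul hD₃
    cases b₁ <;> cases b₂ <;> cases b₃ <;> simpa using this
  refine ⟨S, g₂, g₃, m, bm, hbm, ?_, ?_⟩
  · have ka : n * φ₁ S = φ₃ (cj D₃ S) * n := by rw [← c3]; group
    have kb : n * φ₂ g₂ = φ₁ (Z₁⁻¹ * sS σ S) * n := by
      rw [← cj_one (Z₁⁻¹ * sS σ S), ← mul_inv_cancel D₁, cj_mul, ← hg₂, ← c1]; group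
    have kc : n * φ₃ g₃ = φ₂ (Z₂⁻¹ * sS σ g₂) * n := by
      rw [← cj_one (Z₂⁻¹ * sS σ g₂), ← mul_inv_cancel D₂, cj_mul, ← hg₃, ← c2]; group
    rw [map_mul θ, map_mul θ, e1, e2, e3, hn₀]
    have right : n * (φ₁ S * φ₂ g₂ * φ₃ g₃) =
        φ₃ (cj D₃ S) * φ₁ (Z₁⁻¹ * sS σ S) * φ₂ (Z₂⁻¹ * sS σ g₂) * n := by
      rw [← mul_assoc, ← mul_assoc, ka, mul_assoc (φ₃ _) n, kb, ← mul_assoc, mul_assoc _ n, kc, ← mul_assoc]
    rw [mul_assoc _ _ (φ₁ S * φ₂ g₂ * φ₃ g₃), mul_assoc _ n, right, ← mul_assoc (φ₁ Z₁ * φ₂ Z₂ * φ₃ Z₃),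
      ← mul_assoc _ _ n]
    congr 1
    rw [inv_mul_eq_iff_eq_mul]
    have hP : ∀ a b c a' b' c' : SL(2, L), φ₁ a * φ₂ b * φ₃ c * (φ₁ a' * φ₂ b' * φ₃ c') =
        φ₁ (a * a') * φ₂ (b * b') * φ₃ (c * c') := fun a b c a' b' c' => by
      calc φ₁ a * φ₂ b * φ₃ c * (φ₁ a' * φ₂ b' * φ₃ c')
          = φ₁ a * φ₂ b * (φ₃ c * (φ₁ a' * φ₂ b')) * φ₃ c' := by group
        _ = φ₁ a * (φ₂ b * φ₁ a') * φ₂ b' * (φ₃ c * φ₃ c') := by
            rw [← ((h13 a' c).mul_left (h23 b' c)).eq]; group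
        _ = φ₁ a * φ₁ a' * (φ₂ b * φ₂ b') * (φ₃ c * φ₃ c') := by rw [← (h12 a' b).eq]; group
        _ = _ := by rw [map_mul φ₁, map_mul φ₂, map_mul φ₃]
    have hre : φ₃ (cj D₃ S) * φ₁ (Z₁⁻¹ * sS σ S) * φ₂ (Z₂⁻¹ * sS σ g₂) =
        φ₁ (Z₁⁻¹ * sS σ S) * φ₂ (Z₂⁻¹ * sS σ g₂) * φ₃ (cj D₃ S) := by
      rw [mul_assoc, ← ((h13 _ _).mul_left (h23 _ _)).eq]
    rw [hre, hP, mul_inv_cancel_left, mul_inv_cancel_left]
    have hR : φ₃ m = φ₁ 1 * φ₂ 1 * φ₃ m := by rw [map_one φ₁, map_one φ₂, one_mul, one_mul]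
    rw [hR, hP, mul_one, mul_one, hm, ← mul_assoc, mul_inv_cancel_left]
  · obtain ⟨c, hcE⟩ := cj_mono_up hEb
    refine ⟨c, ?_⟩
    rw [show (loT c : SL(2, L)) = cj E (upT 1) by simpa using hcE.symm, hE, cj_mul, cj_mul, cj_mul]
    set T := upT (1 : L)
    have conjm1 : ∀ X, φ₃ m * φ₁ X * (φ₃ m)⁻¹ = φ₁ X := fun X => by rw [← (h13 X m).eq, mul_inv_cancel_right]
    have conjm2 : ∀ X, φ₃ m * φ₂ X * (φ₃ m)⁻¹ = φ₂ X := fun X => by rw [← (h23 X m).eq, mul_inv_cancel_right]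
    calc φ₃ m * n * (φ₃ m * n) * (φ₃ m * n) * φ₁ T * (φ₃ m * n * (φ₃ m * n) * (φ₃ m * n))⁻¹
        = φ₃ m * (n * (φ₃ m * (n * (φ₃ m * (n * φ₁ T * n⁻¹) * (φ₃ m)⁻¹) * n⁻¹) * (φ₃ m)⁻¹) * n⁻¹) * (φ₃ m)⁻¹ := by group
      _ = φ₃ m * (n * (φ₃ m * (n * φ₃ (m * cj D₃ T * m⁻¹) * n⁻¹) * (φ₃ m)⁻¹) * n⁻¹) * (φ₃ m)⁻¹ := by
          rw [c3, ← map_inv, ← map_mul, ← map_mul]
      _ = _ := by rw [c2, conjm2, c1, conjm1, cj_inc]

end Cfsg.Agent.Lib.Chev.E7Cyclic
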