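import Cfsg.Agent.Lib.Chev.E7Cyclic.Descent
import Cfsg.Agent.Lib.Chev.E7Cyclic.Triple
import Cfsg.Agent.Lib.Chev.E7Cyclic.Combi
import Cfsg.Agent.Lib.Chev.E6Cyclic.Setup
import Cfsg.Agent.Lib.Chev.SLTwoHom

/-!
The copies of `SL₂` attached to the roots of E₇ and the elements intertwining two torus elements.
-/

set_option autoImplicit false

namespace Cfsg.Agent.Lib.Chev.E7Cyclic

open Cfsg.Lie Cfsg.Agent.Lib Cfsg.Agent.Lib.Chev Homocyclic
open Cfsg.Agent.Lib.Chev.RootPair (upT loT wT val_upT val_loT val_wT)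
open Cfsg.Agent.Lib.Chev.CoxTorus (cV mono_torus_iff)
open scoped MatrixGroups

variable {L : Type*} [Field L]

theorem wT_eq : (wT : SL(2, L)) = upT 1 * loT (-1) * upT 1 := by
  refine Subtype.ext ?_
  rw [Matrix.SpecialLinearGroup.coe_mul, Matrix.SpecialLinearGroup.coe_mul, val_wT, val_upT, val_loT]
  ext a b
  fin_cases a <;> fin_cases b <;> simp [Matrix.mul_apply, Fin.sum_univ_two]

theorem closure_uplo : Subgroup.closure (Set.range (upT (F := L)) ∪ Set.range loT) = ⊤ := by
  rw [eq_top_iff, ← RootPair.closure_eq_top, Subgroup.closure_le]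
  rintro g (hg | hg)
  · exact Subgroup.subset_closure (Or.inl hg)
  · rw [Set.mem_singleton_iff.1 hg, wT_eq]
    exact mul_mem (mul_mem (Subgroup.subset_closure (Or.inl ⟨_, rfl⟩)) (Subgroup.subset_closure (Or.inr ⟨_, rfl⟩)))
      (Subgroup.subset_closure (Or.inl ⟨_, rfl⟩))

theorem hom_ext {G : Type*} [Group G] {f g : SL(2, L) →* G} (h1 : ∀ t, f (upT t) = g (upT t))
    (h2 : ∀ t, f (loT t) = g (loT t)) : f = g :=
  MonoidHom.eq_of_eqOn_dense closure_uplo (by rintro x (⟨t, rfl⟩ | ⟨t, rfl⟩) <;> [exact h1 t; exact h2 t])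

theorem range_le {G : Type*} [Group G] {f : SL(2, L) →* G} {K : Subgroup G} (h1 : ∀ t, f (upT t) ∈ K)
    (h2 : ∀ t, f (loT t) ∈ K) : ∀ S, f S ∈ K := fun S => by
  have : Subgroup.closure (Set.range (upT (F := L)) ∪ Set.range loT) ≤ K.comap f := by
    rw [Subgroup.closure_le]; rintro x (⟨t, rfl⟩ | ⟨t, rfl⟩) <;> [exact h1 t; exact h2 t]
  exact this (by rw [closure_uplo]; trivial)

theorem exists_phi {r : ℕ} (hr : r < chevE7.nroots) : ∃ φ : SL(2, L) →* GL chevE7.Idx L,
    ∀ t : L, φ (upT t) = C7.xg r t ∧ φ (loT t) = C7.xg (chevE7.neg r) t := by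
  obtain ⟨φ, -, h⟩ := C7.exists_slTwo_hom (F := L) (en_simple_of C7 en_simple_E7) hr
  exact ⟨φ, h⟩

/-- The copy of `SL₂` of a root. -/
noncomputable def phi {r : ℕ} (hr : r < chevE7.nroots) : SL(2, L) →* GL chevE7.Idx L := (exists_phi hr).choose

theorem phi_up {r : ℕ} (hr : r < chevE7.nroots) (t : L) : phi hr (upT t) = C7.xg r t :=
  ((exists_phi hr).choose_spec t).1

theorem phi_lo {r : ℕ} (hr : r < chevE7.nroots) (t : L) : phi hr (loT t) = C7.xg (chevE7.neg r) t :=
  ((exists_phi hr).choose_spec t).2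

theorem phi_mem_group {r : ℕ} (hr : r < chevE7.nroots) (S : SL(2, L)) : phi hr S ∈ chevE7.group L :=
  range_le (fun t => by rw [phi_up]; exact C7.xg_mem_group hr t)
    (fun t => by rw [phi_lo]; exact C7.xg_mem_group (C7.root.neg_lt r hr) t) S

theorem phi_XY {r : ℕ} (hr : r < chevE7.nroots) (u t : L) (h : phi hr (upT u) = phi hr (loT t)) : t = 0 := by
  rw [phi_up, phi_lo] at h
  exact C7.eq_zero_of_xg_eq (C7.root.neg_lt r hr) hr (C7.root.neg_ne hr) h.symm

theorem commTerms_orth {r s : ℕ} (hr : r < chevE7.nroots) (hs : s < chevE7.nroots) (h : pair chevE7 r s = 0) :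
    chevE7.commTerms r s = [] := by
  refine List.eq_nil_iff_forall_not_mem.2 fun c hc => ?_
  obtain ⟨a, b, ha, hb, -, hcf⟩ := C7.commTerms_comb hr hs c hc
  have hc1 := C7.commTerms_lt hr hs c hc
  have e : cV E7.fast chevE7 c.1 = a • cV E7.fast chevE7 r + b • cV E7.fast chevE7 s :=
    funext fun j => hcf j j.2
  have h2 := C7.pair_self hc1
  have hrs : bil (cV E7.fast chevE7 s) (cV E7.fast chevE7 r) = 0 := by rw [← pair_eq hs hr, pair_comm hs hr, h]
  rw [pair_eq hc1 hc1, e] at h2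
  simp only [bil, Matrix.add_vecMul, Matrix.smul_vecMul, add_dotProduct, dotProduct_add, smul_dotProduct,
    dotProduct_smul, smul_eq_mul] at h2 hrs
  have q1 := C7.pair_self hr; have q2 := C7.pair_self hs
  rw [pair_eq hr hr] at q1
  rw [pair_eq hs hs] at q2
  rw [pair_eq hr hs] at h
  simp only [bil] at q1 q2 h
  rw [q1, q2, h, hrs] at h2
  nlinarith

theorem xg_commute {r s : ℕ} (hr : r < chevE7.nroots) (hs : s < chevE7.nroots) (h : pair chevE7 r s = 0)
    (t u : L) : Commute (C7.xg r t) (C7.xg s u) := by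
  have hne : s ≠ r := fun e => by rw [e, C7.pair_self hr] at h; norm_num at h
  have hneg : s ≠ chevE7.neg r := fun e => by rw [e, C7.pair_neg hr, C7.pair_self hr] at h; norm_num at h
  have h1 := C7.comm hr hs hne hneg t u
  rw [ChevalleyDatum.commWord, commTerms_orth hr hs h, List.map_nil, C7.wg_nil, mul_one] at h1
  exact h1.symm

theorem phi_commute {r s : ℕ} (hr : r < chevE7.nroots) (hs : s < chevE7.nroots) (h : pair chevE7 r s = 0)
    (A B : SL(2, L)) : Commute (phi hr A) (phi hs B) := by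
  have hr' := C7.root.neg_lt r hr
  have hs' := C7.root.neg_lt s hs
  have h1 : pair chevE7 (chevE7.neg r) s = 0 := by rw [pair_neg_left hr hs, h, neg_zero]
  have h2 : ∀ x, x < chevE7.nroots → pair chevE7 x s = 0 → ∀ t u : L,
      Commute (C7.xg x t) (C7.xg (chevE7.neg s) u) := fun x hx hxs => xg_commute hx hs' (by
    rw [C7.pair_neg hs, hxs, neg_zero])
  have key : ∀ x, x < chevE7.nroots → pair chevE7 x s = 0 → ∀ (t : L) (B : SL(2, L)), Commute (C7.xg x t) (phi hs B) := by
    intro x hx hxs t B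
    refine range_le (f := phi hs) (K := Subgroup.centralizer {C7.xg x t}) ?_ ?_ B _ rfl
    · intro u
      rw [Subgroup.mem_centralizer_iff]
      rintro _ rfl
      rw [phi_up]; exact xg_commute hx hs hxs t u
    · intro u
      rw [Subgroup.mem_centralizer_iff]
      rintro _ rfl
      rw [phi_lo]; exact h2 x hx hxs t u
  exact (range_le (f := phi hr) (K := Subgroup.centralizer {phi hs B}) (fun t => by
    rw [Subgroup.mem_centralizer_iff]; rintro _ rfl; rw [phi_up]; exact (key r hr h t B).symm) (fun t => by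
    rw [Subgroup.mem_centralizer_iff]; rintro _ rfl; rw [phi_lo]; exact (key _ hr' h1 t B).symm) A _ rfl).symm

theorem phi_gmap (σ : L ≃+* L) {r : ℕ} (hr : r < chevE7.nroots) (S : SL(2, L)) :
    gmap chevE7 σ.toRingHom (phi hr S) = phi hr (sS σ S) := by
  refine DFunLike.congr_fun (hom_ext (f := (gmap chevE7 σ.toRingHom).comp (phi hr)) (g := (phi hr).comp (sS σ))
    (fun t => ?_) fun t => ?_) S
  · have e : sS σ (upT t) = upT (σ t) := Subtype.ext (by ext a b; fin_cases a <;> fin_cases b <;> simp [val_sS, val_upT])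
    rw [MonoidHom.comp_apply, MonoidHom.comp_apply, e, phi_up, phi_up, C7.gmap_xg _ hr]; rfl
  · have e : sS σ (loT t) = loT (σ t) := Subtype.ext (by ext a b; fin_cases a <;> fin_cases b <;> simp [val_sS, val_loT])
    rw [MonoidHom.comp_apply, MonoidHom.comp_apply, e, phi_lo, phi_lo, C7.gmap_xg _ (C7.root.neg_lt r hr)]; rfl

/-- the conjugation part of a monomial element -/
theorem conj_core {G : Type*} [Group G] (ψ φ : SL(2, L) →* G)
    (hXY : ∀ u t : L, φ (upT u) = φ (loT t) → t = 0) {c c' : L} (hc : c ≠ 0)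
    (h1 : ∀ t, ψ (upT t) = φ (upT (c * t))) (h2 : ∀ t, ψ (loT t) = φ (loT (c' * t))) :
    ∃ D : GL (Fin 2) L, Mono2 false (D : Matrix (Fin 2) (Fin 2) L) ∧ ∀ S, ψ S = φ (cj D S) := by
  have e0 : upT (1 : L) * loT (-1) * upT 1 = loT (-1) * upT 1 * loT (-1) := by
    refine Subtype.ext ?_
    simp only [Matrix.SpecialLinearGroup.coe_mul, val_upT, val_loT]
    ext a b
    fin_cases a <;> fin_cases b <;> simp [Matrix.mul_apply, Fin.sum_univ_two]
  have e1 : φ (upT c * loT (-c') * upT c) = φ (loT (-c') * upT c * loT (-c')) := by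
    have := congrArg ψ e0
    simp only [map_mul, h1, h2, mul_one, mul_neg] at this
    simp only [map_mul]
    exact this
  set A := upT c * loT (-c') * upT c
  set B := loT (-c') * upT c * loT (-c')
  have hk : φ (A * B⁻¹) = 1 := by rw [map_mul, map_inv, e1, mul_inv_cancel]
  have hcc : c * c' = 1 := by
    have hA : A.1 = (A * B⁻¹).1 * B.1 := by
      rw [← Matrix.SpecialLinearGroup.coe_mul, inv_mul_cancel_right]
    rcases ker_scalar φ hXY hk with h | h <;> rw [h] at hA
    · have := congrFun (congrFun hA 0) 1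
      simp [A, B, val_upT, val_loT, Matrix.mul_apply, Fin.sum_univ_two] at this
      rcases this with this | this
      · linear_combination -this
      · exact absurd this hc
    · have h00 := congrFun (congrFun hA 0) 0
      have h01 := congrFun (congrFun hA 0) 1
      simp [A, B, val_upT, val_loT, Matrix.mul_apply, Fin.sum_univ_two] at h00 h01
      have h3 : c * c' = 3 := mul_left_cancel₀ hc (by linear_combination -h01)
      have h4 : (4 : L) = 0 := by linear_combination -h00 - 2 * h3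
      have h2' : (2 : L) = 0 := by
        rcases mul_eq_zero.1 (show (2 : L) * 2 = 0 by linear_combination h4) with h | h <;> exact h
      linear_combination h3 + h2'
  set D : GL (Fin 2) L := Matrix.GeneralLinearGroup.mkOfDetNeZero !![c, 0; 0, 1] (by simp [hc])
  have hDv : (D : Matrix (Fin 2) (Fin 2) L) = !![c, 0; 0, 1] := rfl
  have hDi : ((D⁻¹ : GL (Fin 2) L) : Matrix (Fin 2) (Fin 2) L) = !![c⁻¹, 0; 0, 1] := by
    rw [Matrix.coe_units_inv, hDv]
    refine Matrix.inv_eq_right_inv ?_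
    ext a b
    fin_cases a <;> fin_cases b <;> simp [Matrix.mul_apply, Fin.sum_univ_two, hc]
  refine ⟨D, by simp [Mono2, hDv], fun S => DFunLike.congr_fun (hom_ext (f := ψ) (g := φ.comp (cj D)) (fun t => ?_)
    fun t => ?_) S⟩
  · rw [h1, MonoidHom.comp_apply]
    congr 1
    refine Subtype.ext ?_
    rw [val_cj, hDv, hDi, val_upT, val_upT]
    ext a b
    fin_cases a <;> fin_cases b <;> simp [Matrix.mul_apply, Fin.sum_univ_two, hc]
  · rw [h2, MonoidHom.comp_apply]
    congr 1
    refine Subtype.ext ?_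
    rw [val_cj, hDv, hDi, val_loT, val_loT]
    ext a b
    fin_cases a <;> fin_cases b <;> simp [Matrix.mul_apply, Fin.sum_univ_two, hc]
    field_simp
    linear_combination t * hcc

theorem phi_conj {n : GL chevE7.Idx L} (hn : n ∈ chevE7.monomialSubgroup L) {r s : ℕ} (hr : r < chevE7.nroots)
    (hs : s < chevE7.nroots) (h : C7.sg n r = s ∨ C7.sg n r = chevE7.neg s) :
    ∃ (D : GL (Fin 2) L) (b : Bool), Mono2 b (D : Matrix (Fin 2) (Fin 2) L) ∧
      ∀ S, n * phi hr S * n⁻¹ = phi hs (cj D S) := by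
  obtain ⟨c, hc, hcc⟩ := C7.sg_conj (F := L) hn hr
  obtain ⟨c', -, hcc'⟩ := C7.sg_conj (F := L) hn (C7.root.neg_lt r hr)
  rw [C7.sg_neg hn hr] at hcc'
  let ψ : SL(2, L) →* GL chevE7.Idx L := (MulAut.conj n).toMonoidHom.comp (phi hr)
  have hψ : ∀ S, ψ S = n * phi hr S * n⁻¹ := fun S => rfl
  rcases h with h | h
  · obtain ⟨D, hD, e⟩ := conj_core ψ (phi hs) (phi_XY hs) hc
      (fun t => by rw [hψ, phi_up, phi_up, hcc, h]) (fun t => by rw [hψ, phi_lo, phi_lo, hcc', h])
    exact ⟨D, false, hD, fun S => by rw [← hψ, e]⟩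
  · set W : GL (Fin 2) L := Matrix.GeneralLinearGroup.mkOfDetNeZero !![0, 1; 1, 0] (by simp)
    have hWv : (W : Matrix (Fin 2) (Fin 2) L) = !![0, 1; 1, 0] := rfl
    have hWi : ((W⁻¹ : GL (Fin 2) L) : Matrix (Fin 2) (Fin 2) L) = !![0, 1; 1, 0] := by
      rw [Matrix.coe_units_inv, hWv]
      refine Matrix.inv_eq_right_inv ?_
      ext a b
      fin_cases a <;> fin_cases b <;> simp [Matrix.mul_apply, Fin.sum_univ_two]
    have w1 : ∀ t : L, cj W (upT t) = loT t := fun t => Subtype.ext (by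
      rw [val_cj, hWv, hWi, val_upT, val_loT]
      ext a b; fin_cases a <;> fin_cases b <;> simp [Matrix.mul_apply, Fin.sum_univ_two])
    have w2 : ∀ t : L, cj W (loT t) = upT t := fun t => Subtype.ext (by
      rw [val_cj, hWv, hWi, val_upT, val_loT]
      ext a b; fin_cases a <;> fin_cases b <;> simp [Matrix.mul_apply, Fin.sum_univ_two])
    obtain ⟨D, hD, e⟩ := conj_core ψ ((phi hs).comp (cj W))
      (fun u t e => by
        rw [MonoidHom.comp_apply, MonoidHom.comp_apply, w1, w2, phi_lo, phi_up] at e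
        exact C7.eq_zero_of_xg_eq hs (C7.root.neg_lt s hs) (C7.root.neg_ne hs).symm e.symm) hc
      (fun t => by rw [hψ, phi_up, MonoidHom.comp_apply, w1, phi_lo, hcc, h])
      (fun t => by rw [hψ, phi_lo, MonoidHom.comp_apply, w2, phi_up, hcc', h, C7.root.neg_neg' hs])
    refine ⟨W * D, true ^^ false, ?_, fun S => by rw [← hψ, e, MonoidHom.comp_apply, cj_mul]⟩
    rw [Units.val_mul]
    exact (show Mono2 true (W : Matrix (Fin 2) (Fin 2) L) by simp [Mono2, hWv]).mul hD

theorem phi_mono {r : ℕ} (hr : r < chevE7.nroots) {b : Bool} {m : SL(2, L)} (hm : Mono2 b m.1) :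
    phi hr m ∈ chevE7.monomialSubgroup L := by
  have hn : ∀ x : L, phi hr (upT x * loT (-x⁻¹) * upT x) = C7.wg (chevE7.nWord r x) := fun x => by
    simp only [map_mul, phi_up, phi_lo, ChevalleyDatum.nWord, Checked.wg_cons, Checked.wg_nil, mul_one, mul_assoc]
  have hn1 : phi hr (upT (1 : L) * loT (-1⁻¹) * upT 1) ∈ chevE7.monomialSubgroup L := by
    rw [hn]
    refine Subgroup.mem_sup_right (Subgroup.subset_closure ⟨r, hr, ?_⟩)
    rw [Checked.val_wg]; rfl
  have hh : ∀ x : L, x ≠ 0 → phi hr ((upT x * loT (-x⁻¹) * upT x) * (upT (-1) * loT (-(-1)⁻¹) * upT (-1))) ∈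
      chevE7.monomialSubgroup L := fun x hx => by
    rw [map_mul, hn, hn, show C7.wg (chevE7.nWord r x) * C7.wg (chevE7.nWord r (-1)) = C7.hg r x by
      simp [Checked.hg, ChevalleyDatum.hWord, Checked.wg, List.prod_append]]
    exact C7.diag_le_monomial (C7.hg_mem hr hx)
  have hdet : m.1 0 0 * m.1 1 1 - m.1 0 1 * m.1 1 0 = 1 := RootPair.det_eq m
  cases b <;> simp only [Mono2, Bool.false_eq_true, if_false, if_true] at hm <;> obtain ⟨x, y⟩ := hm <;>
    rw [x, y] at hdet
  · have hu : m.1 0 0 * m.1 1 1 = 1 := by linear_combination hdet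
    have h0 : m.1 0 0 ≠ 0 := left_ne_zero_of_mul_eq_one hu
    have e : m = (upT (m.1 0 0) * loT (-(m.1 0 0)⁻¹) * upT (m.1 0 0)) *
        (upT (-1) * loT (-(-1)⁻¹) * upT (-1)) := by
      refine Subtype.ext ?_
      simp only [Matrix.SpecialLinearGroup.coe_mul, val_upT, val_loT]
      ext a b
      fin_cases a <;> fin_cases b <;>
        simp [Matrix.mul_apply, Fin.sum_univ_two, h0, x, y, eq_inv_of_mul_eq_one_right hu]
    rw [e]; exact hh _ h0
  · have hu : m.1 0 1 * m.1 1 0 = -1 := by linear_combination -hdet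
    have h0 : m.1 0 1 ≠ 0 := left_ne_zero_of_mul (by rw [hu]; exact neg_ne_zero.2 one_ne_zero)
    have e : m = ((upT (m.1 0 1) * loT (-(m.1 0 1)⁻¹) * upT (m.1 0 1)) *
        (upT (-1) * loT (-(-1)⁻¹) * upT (-1))) * (upT (1 : L) * loT (-1⁻¹) * upT 1) := by
      have h10 : m.1 1 0 = -(m.1 0 1)⁻¹ := by
        field_simp
        linear_combination hu
      refine Subtype.ext ?_
      simp only [Matrix.SpecialLinearGroup.coe_mul, val_upT, val_loT]
      ext a b
      fin_cases a <;> fin_cases b <;> simp [Matrix.mul_apply, Fin.sum_univ_two, h0, x, y, h10]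
    rw [e, map_mul]; exact mul_mem (hh _ h0) hn1

/-- The root subgroups fixed by a torus element. -/
def fixGrp (c : Fin chevE7.rank → Lˣ) : Subgroup (GL chevE7.Idx L) :=
  Subgroup.closure {g | ∃ (r : ℕ) (t : L), r < chevE7.nroots ∧ C7.chrOf c r = 1 ∧ g = C7.xg r t}

set_option maxHeartbeats 800000 in
/-- An element intertwining two torus elements is a monomial element up to the fixed root subgroups. -/
theorem decomp_fixed {g : GL chevE7.Idx L} (hg : g ∈ chevE7.group L) {c c' : Fin chevE7.rank → Lˣ}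
    (hc : C7.torus c' * g = g * C7.torus c) :
    ∃ n ∈ chevE7.monomialSubgroup L, (∀ r < chevE7.nroots, C7.chrOf c' (C7.sg n r) = C7.chrOf c r) ∧
      g * n⁻¹ ∈ fixGrp c' := by
  set C := C7
  obtain ⟨b, hb, n, hn, u, hu, rfl⟩ := C.exists_bnu hg
  obtain ⟨v, hv, d, hd, rfl⟩ := C.mem_borel.1 hb
  set h := C.torus c with hhdef
  set h' := C.torus c' with hh'def
  have hh : h ∈ chevE7.diagonalSubgroup L := C.torus_mem c
  have hh' : h' ∈ chevE7.diagonalSubgroup L := C.torus_mem c'
  have hconj : ∀ (e : Fin chevE7.rank → Lˣ) (t : ℕ → L) (l : List ℕ), (∀ r ∈ l, r < chevE7.nroots) →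
      C.torus e * C.wg (l.map fun r => (r, t r)) * (C.torus e)⁻¹ =
        C.wg (l.map fun r => (r, C.chrOf e r * t r)) := by
    intro e t l
    induction l with
    | nil => intro _; simp [C.wg_nil]
    | cons r l ih =>
      intro hl
      rw [List.map_cons, List.map_cons, C.wg_cons, C.wg_cons, ← C.torus_xg e (hl r (by simp)),
        ← ih fun x hx => hl x (by simp [hx])]
      group
  have htriv : ∀ (e : Fin chevE7.rank → Lˣ) (w : GL chevE7.Idx L), w ∈ chevE7.posUnipotent L →
      C.torus e * w * (C.torus e)⁻¹ = w → w ∈ fixGrp e := by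
    intro e w hw hfix
    rw [posUnipotent_eq] at hw
    obtain ⟨t, -, rfl⟩ := C.exists_coord C.closedSet_pos hw
    rw [hconj e t _ fun r hr => (C.mem_rootList.1 hr).1] at hfix
    rw [Checked.wg]
    refine Subgroup.list_prod_mem _ fun g hg => ?_
    simp only [List.map_map, List.mem_map, Function.comp_apply] at hg
    obtain ⟨r, hr, rfl⟩ := hg
    have h1 := C.ordered_inj _ (C.rootList_sorted _) (fun x hx => (C.mem_rootList.1 hx).2)
      (fun x => C.chrOf e x * t x) t hfix r hr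
    by_cases h2 : t r = 0
    · simp [h2, C.xg_zero]
    · exact Subgroup.subset_closure ⟨r, t r, (C.mem_rootList.1 hr).1, mul_right_cancel₀ h2 (by rwa [one_mul]), rfl⟩
  set k := h' * n * h⁻¹ * n⁻¹ with hk
  have hkd : k ∈ chevE7.diagonalSubgroup L := by
    have := mul_mem hh' (C.mono_conj_diag hn _ (inv_mem hh))
    convert this using 1
    rw [hk]; group
  have hu' : h * u * h⁻¹ ∈ grp chevE7 L (C.inv n) := C.diag_normalizes (fun r hr => hr.1.1) hh hu
  have hb' : h' * (v * d) * h'⁻¹ * k ∈ chevE7.borelSubgroup L :=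
    mul_mem (mul_mem (mul_mem (Subgroup.mem_sup_right hh') hb) (inv_mem (Subgroup.mem_sup_right hh')))
      (Subgroup.mem_sup_right hkd)
  have e : (h' * (v * d) * h'⁻¹ * k) * n * (h * u * h⁻¹) = v * d * n * u := by
    calc (h' * (v * d) * h'⁻¹ * k) * n * (h * u * h⁻¹) = h' * (v * d * n * u) * h⁻¹ := by rw [hk]; group
      _ = v * d * n * u := by rw [hc, mul_inv_cancel_right]
  obtain ⟨hbb, huu⟩ := (C.bnu_unique hb' hb hn hn hu' hu e).2 rfl
  have hdh : h' * d * h'⁻¹ = d := by rw [C.diag_comm hh' hd, mul_inv_cancel_right]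
  have hz : v⁻¹ * (h' * v * h'⁻¹) = d * (d * k)⁻¹ := by
    calc v⁻¹ * (h' * v * h'⁻¹) = v⁻¹ * (h' * (v * d) * h'⁻¹ * k) * (h' * d * h'⁻¹ * k)⁻¹ := by group
      _ = d * (d * k)⁻¹ := by rw [hbb, hdh]; group
  have hz1 : v⁻¹ * (h' * v * h'⁻¹) = 1 :=
    C.eq_one_of_uni_mono (mul_mem (inv_mem hv) (C.diag_normalizes_pos hh' hv))
      (hz ▸ C.diag_le_monomial (mul_mem hd (inv_mem (mul_mem hd hkd))))
  have hk1 : k = 1 := by
    rw [hz1] at hz
    exact mul_eq_left.1 (mul_inv_eq_one.1 hz.symm).symm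
  have hnh : n * h = h' * n := by
    rw [hk, mul_inv_eq_one, mul_inv_eq_iff_eq_mul] at hk1
    exact hk1.symm
  have hrel := (mono_torus_iff C hn c c').1 hnh
  have hd' := C.diag_le_monomial hd
  have hsg : ∀ r < chevE7.nroots, C.sg (d * n) r = C.sg n r := fun r hr => by
    rw [C.sg_mul hd' hn hr, C.sg_diag hd (C.sg_lt hn hr)]
  refine ⟨d * n, mul_mem hd' hn, fun r hr => by rw [hsg r hr]; exact hrel r hr, ?_⟩
  have hupos : u ∈ chevE7.posUnipotent L := by
    rw [posUnipotent_eq]; exact grp_mem_mono hu fun r hr => hr.1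
  have hv1 : v ∈ fixGrp c' := htriv c' v hv (inv_mul_eq_one.1 hz1).symm
  have hu1 : u ∈ fixGrp c := htriv c u hupos huu
  have hconjm : ∀ w ∈ fixGrp c, (d * n) * w * (d * n)⁻¹ ∈ fixGrp c' := by
    intro w hw
    have : fixGrp c ≤ (fixGrp c').comap (MulAut.conj (d * n)).toMonoidHom := by
      rw [fixGrp, Subgroup.closure_le]
      rintro _ ⟨r, t, hr, hr1, rfl⟩
      obtain ⟨a, -, ha⟩ := C.sg_conj (F := L) (mul_mem hd' hn) hr
      show (d * n) * C.xg r t * (d * n)⁻¹ ∈ fixGrp c'
      rw [ha]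
      exact Subgroup.subset_closure ⟨_, _, C.sg_lt (mul_mem hd' hn) hr, by rw [hsg r hr, hrel r hr, hr1], rfl⟩
    exact this hw
  rw [show v * d * n * u * (d * n)⁻¹ = v * ((d * n) * u * (d * n)⁻¹) by group]
  exact mul_mem hv1 (hconjm u hu1)

end Cfsg.Agent.Lib.Chev.E7Cyclic
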