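import Cfsg.Agent.Lib.Chev.E7Cyclic.Tables
import Cfsg.Agent.Lib.Chev.E6Cyclic.Regular
import Mathlib.LinearAlgebra.Matrix.Rank

/-!
The vectors orthogonal to the orbit of a functional with annihilator `Φ₁₂`: a space of dimension three.
-/

set_option autoImplicit false

namespace Cfsg.Agent.Lib.Chev.E7Cyclic

open Cfsg.Lie Cfsg.Agent.Lib Cfsg.Agent.Lib.Chev Polynomial Homocyclic E6Cyclic
open Cfsg.Agent.Lib.Chev.CoxTorus (cast_aeval aeval_mulVec_eigen)

variable {l : ℕ}

/-- the Cartan form -/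
def bil (x y : Fin chevE7.rank → ℤ) : ℤ := Matrix.vecMul x (cMat chevE7) ⬝ᵥ y

theorem bil_sum {ι : Type*} (s : Finset ι) (c : ι → ℤ) (x : ι → Fin chevE7.rank → ℤ) (y : Fin chevE7.rank → ℤ) :
    bil (∑ i ∈ s, c i • x i) y = ∑ i ∈ s, c i * bil (x i) y := by
  simp only [bil, Matrix.sum_vecMul, Matrix.smul_vecMul, sum_dotProduct, smul_dotProduct, smul_eq_mul]

theorem bil_comm (x y : Fin chevE7.rank → ℤ) : bil x y = bil y x := by
  rw [bil, bil, ← Matrix.dotProduct_mulVec, dotProduct_comm]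
  conv_lhs => rw [← cMat_symm E7.checked laced_E7]
  rw [Matrix.mulVec_transpose]

theorem bil_even (y : Fin chevE7.rank → ℤ) : (2 : ℤ) ∣ bil y y := by
  refine (ZMod.intCast_zmod_eq_zero_iff_dvd _ 2).1 ?_
  have h := form_even fun i => (y i : ZMod 2)
  simpa [bil, Matrix.vecMul, dotProduct, Int.cast_sum, Int.cast_mul] using h

/-- dependence over `ℤ` of vectors killed by independent functionals -/
theorem dependent {ι κ : Type} [Fintype ι] [Fintype κ] (V : ι → Fin l → ℤ) (B : κ → Fin l → ℤ)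
    (hB : LinearIndependent ℤ B) (h : ∀ i k, V i ⬝ᵥ B k = 0) (hcard : l < Fintype.card ι + Fintype.card κ) :
    ∃ c : ι → ℤ, c ≠ 0 ∧ ∑ i, c i • V i = 0 := by
  classical
  by_contra hno
  push Not at hno
  have hV : LinearIndependent ℤ V := Fintype.linearIndependent_iff.2 fun c hc => by
    by_contra hne
    exact hno c (fun h0 => hne fun i => by rw [h0]; rfl) hc
  let Vq : Matrix ι (Fin l) ℚ := Matrix.of fun i j => (V i j : ℚ)
  let Bq : Matrix κ (Fin l) ℚ := Matrix.of fun i j => (B i j : ℚ)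
  have e : ∀ {μ : Type} [Fintype μ] (A : μ → Fin l → ℤ), LinearIndependent ℤ A →
      LinearIndependent ℚ (fun i j => (A i j : ℚ)) := by
    intro μ _ A hA
    rw [LinearIndependent.iff_fractionRing (R := ℤ) (K := ℚ) |>.symm]
    exact hA.map' ((Algebra.linearMap ℤ ℚ).compLeft (Fin l))
      (LinearMap.ker_eq_bot.2 fun x y hxy => funext fun j => Int.cast_injective (α := ℚ) (congrFun hxy j))
  have r1 : Vq.rank = Fintype.card ι := (e V hV).rank_matrix
  have r2 : Bq.rank = Fintype.card κ := (e B hB).rank_matrix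
  have hz : Vq * Bq.transpose = 0 := by
    ext i k
    have := congrArg (fun z : ℤ => (z : ℚ)) (h i k)
    simpa [Vq, Bq, Matrix.mul_apply, dotProduct] using this
  have h3 := Matrix.rank_add_rank_le_card_of_mul_eq_zero hz
  rw [Matrix.rank_transpose, r1, r2, Fintype.card_fin] at h3
  omega

theorem aeval_mul_mulVec (M : Matrix (Fin l) (Fin l) ℤ) (f g : ℤ[X]) (v : Fin l → ℤ) :
    (aeval M (f * g)).mulVec v = (aeval M f).mulVec ((aeval M g).mulVec v) := by
  rw [map_mul, Matrix.mulVec_mulVec]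

theorem aeval_eq_sum (M : Matrix (Fin l) (Fin l) ℤ) {f : ℤ[X]} {k : ℕ} (hf : f.natDegree < k) (v : Fin l → ℤ) :
    (aeval M f).mulVec v = ∑ i : Fin k, f.coeff i • (M ^ (i : ℕ)).mulVec v := by
  rw [aeval_eq_sum_range' hf, Matrix.sum_mulVec, Fin.sum_univ_eq_sum_range (fun i => f.coeff i • (M ^ i).mulVec v)]
  exact Finset.sum_congr rfl fun i _ => Matrix.smul_mulVec _ _ _

theorem p12_monic : p12.Monic := by rw [← cyclotomic_twelve]; exact cyclotomic.monic 12 ℤ

theorem p12_natDegree : p12.natDegree = 4 := by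
  rw [← cyclotomic_twelve, natDegree_cyclotomic]; decide

/-- what is known about the functional -/
theorem kill_of_coprime {M : Matrix (Fin l) (Fin l) ℤ} {g : ℤ[X]} (hchar : aeval M (p12 * g) = 0)
    {b : Fin l → ℤ} (hb : (aeval M g).mulVec b ≠ 0) {f : ℤ[X]} (hf : (aeval M f).mulVec b = 0) :
    p12 ∣ f := by
  set q := f %ₘ p12 with hq
  have hsplit : f = q + p12 * (f /ₘ p12) := (modByMonic_add_div f p12).symm
  have h1 : (aeval M (q * g)).mulVec b = 0 := by
    have : q * g = g * f - p12 * g * (f /ₘ p12) := by linear_combination -g * hsplit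
    rw [this, map_sub, Matrix.sub_mulVec, aeval_mul_mulVec, hf, Matrix.mulVec_zero, map_mul, hchar, zero_mul,
      Matrix.zero_mulVec, sub_zero]
  by_contra hdvd
  have hq0 : q ≠ 0 := fun h => hdvd ((modByMonic_eq_zero_iff_dvd p12_monic).1 h)
  -- a combination of `q` and `p12` is a nonzero constant
  set qQ := q.map (Int.castRingHom ℚ)
  set pQ := p12.map (Int.castRingHom ℚ)
  obtain ⟨i12, d12⟩ := irreducible_cyclotomic_rat (by norm_num) cyclotomic_twelve
  have hnd : ¬ pQ ∣ qQ := by
    intro h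
    have hq' : qQ ≠ 0 := (Polynomial.map_ne_zero_iff (Int.castRingHom ℚ).injective_int).2 hq0
    have h2 := natDegree_le_of_dvd h hq'
    have h3 := natDegree_modByMonic_lt f p12_monic (fun h => by have := p12_natDegree; rw [h] at this; simp at this)
    rw [natDegree_map_eq_of_injective (Int.castRingHom ℚ).injective_int,
      natDegree_map_eq_of_injective (Int.castRingHom ℚ).injective_int] at h2
    rw [← hq] at h3
    omega
  obtain ⟨u, w, huw⟩ := (i12.coprime_iff_not_dvd).2 hnd
  refine hb (funext fun i => Int.cast_injective (α := ℚ) ?_)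
  set MQ := M.map (Int.cast : ℤ → ℚ)
  set bQ : Fin l → ℚ := fun i => (b i : ℚ)
  have hc : ∀ h : ℤ[X], (aeval MQ (h.map (Int.castRingHom ℚ))).mulVec bQ =
      fun i => (((aeval M h).mulVec b i : ℤ) : ℚ) := by
    intro h
    rw [cast_aeval]
    funext i
    exact (RingHom.map_mulVec (Int.castRingHom ℚ) (aeval M h) b i).symm
  have e : (g.map (Int.castRingHom ℚ)) = u * ((p12 * g).map (Int.castRingHom ℚ)) +
      w * ((q * g).map (Int.castRingHom ℚ)) := by
    rw [Polynomial.map_mul, Polynomial.map_mul]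
    conv_lhs => rw [← one_mul (g.map _), ← huw]
    ring
  have h2 := congrArg (fun p => (aeval MQ p).mulVec bQ) e
  simp only [map_add, Matrix.add_mulVec, map_mul (aeval MQ) u, map_mul (aeval MQ) w, ← Matrix.mulVec_mulVec, hc, h1,
    hchar, Matrix.zero_mulVec, Pi.zero_apply, Int.cast_zero] at h2
  have h0 : (fun _ => (0 : ℚ)) = (0 : Fin l → ℚ) := rfl
  rw [h0, Matrix.mulVec_zero, Matrix.mulVec_zero, add_zero] at h2
  exact (congrFun h2 i).trans Int.cast_zero.symm

end Cfsg.Agent.Lib.Chev.E7Cyclic
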