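import Cfsg.Agent.Lib.Chev.Homocyclic.Cases
import Cfsg.Agent.Lib.Chev.Cent

/-!
Finite checks on the roots of E₇ and on small Gram matrices.
-/

set_option autoImplicit false

namespace Cfsg.Agent.Lib.Chev.E7Cyclic

open Cfsg.Lie Cfsg.Agent.Lib Cfsg.Agent.Lib.Chev Homocyclic

/-- pairings are small, and extreme only for proportional roots -/
def pairRow (r : ℕ) : Bool :=
  (allBelow E7.fast.n fun s => decide ((E7.fast.pr r s).natAbs ≤ 2) &&
    (!decide (E7.fast.pr r s = 2) || Nat.beq r s) &&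
    (!decide (E7.fast.pr r s = -2) || Nat.beq s (E7.fast.ng r))) &&
  Nat.beq ((List.range E7.fast.n).countP fun v => decide (E7.fast.pr r v = 0)) 60 &&
  ((List.range E7.fast.n).any fun v => decide (E7.fast.pr r v = 1))

theorem pairRow_all : (allBelow E7.fast.n fun r => pairRow r) = true := by decide +kernel

/-- determinant of a Gram matrix with norms `2` -/
def gDet (x y w : ℤ) : ℤ := 8 + 2 * x * y * w - 2 * x ^ 2 - 2 * y ^ 2 - 2 * w ^ 2

/-- the adjugate as a quadratic form -/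
def gQuad (x y w s t u : ℤ) : ℤ :=
  (4 - w ^ 2) * s ^ 2 + (4 - y ^ 2) * t ^ 2 + (4 - x ^ 2) * u ^ 2 +
    2 * ((y * w - 2 * x) * s * t + (x * w - 2 * y) * s * u + (x * y - 2 * w) * t * u)

/-- the values `-2, …, 2` -/
def small : Finset ℤ := {-2, -1, 0, 1, 2}

theorem gram_count : ∀ y ∈ ({-1, 0, 1} : Finset ℤ), ∀ w ∈ ({-1, 0, 1} : Finset ℤ), gDet (-1) y w ≠ 0 →
    ((small ×ˢ small ×ˢ small).filter fun p => gQuad (-1) y w p.1 p.2.1 p.2.2 = 2 * gDet (-1) y w).card ≤ 12 := by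
  decide +kernel

theorem gram_degenerate : ∀ y ∈ ({-1, 0, 1} : Finset ℤ), ∀ w ∈ ({-1, 0, 1} : Finset ℤ), gDet (-1) y w = 0 →
    y + w = 2 ∨ y + w = -2 := by
  decide +kernel

theorem form_even : ∀ y : Fin chevE7.rank → ZMod 2,
    Matrix.vecMul y ((cMat chevE7).map (Int.cast : ℤ → ZMod 2)) ⬝ᵥ y = 0 := by
  decide +kernel

theorem form_mod_four : ∀ T₁ T₂ T₃ : ZMod 4, T₁ ^ 2 + T₂ ^ 2 + T₃ ^ 2 = 0 → T₁.val % 2 = 0 := by decide

end Cfsg.Agent.Lib.Chev.E7Cyclic
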